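import Cfsg.Agent.Lib.Helper95.OmSplit

set_option autoImplicit false
set_option linter.unusedSimpArgs false

namespace Cfsg.Agent.Lib.Helper95

open QuadraticMap Module Cfsg.Agent.Lib.Helper49

lemma two_lt_card_of_two_ne_zero {K : Type*} [Field K] [Fintype K] (h2 : (2 : K) ≠ 0) :
    2 < Fintype.card K := by
  rw [Fintype.two_lt_card_iff]
  refine ⟨0, 1, -1, zero_ne_one, ?_, ?_⟩
  · simp
  · intro h
    apply h2
    linear_combination h

lemma exists_sq_ne_one {K : Type*} [Field K] [Fintype K] (h2 : (2 : K) ≠ 0)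
    (h3 : Fintype.card K ≠ 3) : ∃ c : K, c ≠ 0 ∧ c ^ 2 ≠ 1 := by
  classical
  by_contra hcon
  push Not at hcon
  have : (Finset.univ : Finset K) ⊆ {0, 1, -1} := by
    intro c _
    by_cases hc : c = 0
    · simp [hc]
    · have h1 := hcon c hc
      have h4 : (c - 1) * (c + 1) = 0 := by linear_combination h1
      rcases mul_eq_zero.1 h4 with h5 | h5
      · have : c = 1 := by linear_combination h5
        simp [this]
      · have : c = -1 := by linear_combination h5
        simp [this]
  have h1 := Finset.card_le_card this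
  have h4 : ({0, 1, -1} : Finset K).card ≤ 3 := Finset.card_le_three
  rw [Finset.card_univ] at h1
  have := two_lt_card_of_two_ne_zero h2
  omega

lemma eq_or_eq_neg_of_card_three {K : Type*} [Field K] [Fintype K] (h3 : Fintype.card K = 3)
    {a b : K} (ha : a ≠ 0) (hb : b ≠ 0) : a = b ∨ a = -b := by
  have h1 := FiniteField.pow_card_sub_one_eq_one (a / b) (div_ne_zero ha hb)
  rw [h3] at h1
  have h4 : (a - b) * (a + b) = 0 := by
    have : (a / b) ^ 2 = 1 := h1
    field_simp at this
    linear_combination this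
  rcases mul_eq_zero.1 h4 with h5 | h5
  · left; linear_combination h5
  · right; linear_combination h5

section odd

variable {F V : Type*} [Field F] [Fintype F] [AddCommGroup V] [Module F V] [FiniteDimensional F V]
  {Q : QuadraticForm F V} {U U' : Submodule F V} {M : Subgroup (OG Q)}

omit [Fintype F] [FiniteDimensional F V] in
lemma OSplit.dualU' (h : OSplit Q U U') {x : V} (hx : x ∈ U') (hx0 : x ≠ 0) :
    ∃ y ∈ U', polar Q x y = 1 := by
  obtain ⟨y, hy⟩ := qexists_dual (resQ Q U') h.ndU' (u := ⟨x, hx⟩)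
    (fun e => hx0 (congrArg Subtype.val e))
  exact ⟨y, y.2, by simpa using hy⟩

theorem OSplit.TT_L1 (h : OSplit Q U U') (hd : 6 < finrank F U) (E : Eng Q M (SS Q U U'))
    (h2 : (2 : F) ≠ 0) {a b : V} (ha : TT Q M U U' a) (ha0 : Q a ≠ 0) (hb : b ∈ U')
    (hp : polar Q a b = 0) (hs : Q a + Q b ≠ 0) : TT Q M U U' b := by
  have h3 := two_lt_card_of_two_ne_zero h2
  have hc : TT Q M U U' (a + b) := by
    refine h.TT_key hd E h3 (U'.add_mem ha.1 hb) ?_ ha ?_
    · rw [qmap_add, hp, add_zero]; exact hs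
    · rw [polar_add_left, polar_self, polar_comm Q b a, hp, add_zero]
      simp only [nsmul_eq_mul]; push_cast
      exact mul_ne_zero h2 ha0
  have := h.TT_sub hd E h3 hc ha
  rwa [add_sub_cancel_left] at this

theorem OSplit.TT_all_odd (h : OSplit Q U U') (hd : 6 < finrank F U) (E : Eng Q M (SS Q U U'))
    (h2 : (2 : F) ≠ 0)
    (hex : Fintype.card F = 3 → ∀ a ∈ U', ∀ b ∈ U', Q a ≠ 0 → Q b = - Q a → polar Q a b = 0 →
      ∃ x ∈ U', x ≠ 0 ∧ polar Q x a = 0 ∧ polar Q x b = 0)
    {t₀ : V} (ht₀ : TT Q M U U' t₀) (ht₀0 : t₀ ≠ 0) : ∀ t ∈ U', TT Q M U U' t := by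
  have h3 := two_lt_card_of_two_ne_zero h2
  -- a non-singular good vector
  obtain ⟨a₁, ha₁, ha₁0⟩ : ∃ a₁, TT Q M U U' a₁ ∧ Q a₁ ≠ 0 := by
    by_cases hq : Q t₀ = 0
    · obtain ⟨y, hy, hyp⟩ := h.dualU' ht₀.1 ht₀0
      by_cases hqy : Q y = 0
      · refine ⟨y + t₀, h.TT_key hd E h3 (U'.add_mem hy ht₀.1) ?_ ht₀ ?_, ?_⟩
        · rw [qmap_add, hq, hqy, polar_comm, hyp]; simp
        · rw [polar_add_left, polar_self, hq, polar_comm, hyp]; simp
        · rw [qmap_add, hq, hqy, polar_comm, hyp]; simp
      · exact ⟨y, h.TT_key hd E h3 hy hqy ht₀ (by rw [polar_comm, hyp]; simp), hqy⟩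
    · exact ⟨t₀, ht₀, hq⟩
  have key2 : ∀ b ∈ U', Q b ≠ 0 → TT Q M U U' b := by
    intro b hb hb0
    by_cases hp : polar Q a₁ b = 0
    · by_cases hs : Q a₁ + Q b = 0
      · have hQb : Q b = - Q a₁ := by linear_combination hs
        by_cases h3c : Fintype.card F = 3
        · obtain ⟨x, hx, hx0, hxa, hxb⟩ := hex h3c a₁ ha₁.1 b hb ha₁0 hQb hp
          obtain ⟨y, hy, hyp⟩ := h.dualU' hx hx0
          obtain ⟨y', hy', hy'p, hy'a, hy'b⟩ : ∃ y' ∈ U', polar Q x y' = 1 ∧ polar Q y' a₁ = 0 ∧
              polar Q y' b = 0 := by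
            refine ⟨y - (polar Q y a₁ / (2 * Q a₁)) • a₁ - (polar Q y b / (2 * Q b)) • b,
              U'.sub_mem (U'.sub_mem hy (U'.smul_mem _ ha₁.1)) (U'.smul_mem _ hb), ?_, ?_, ?_⟩
            · rw [polar_sub_right, polar_sub_right, polar_smul_right, polar_smul_right, hxa, hxb,
                hyp]
              simp
            · rw [polar_sub_left, polar_sub_left, polar_smul_left, polar_smul_left, polar_self,
                polar_comm Q b a₁, hp]
              simp only [nsmul_eq_mul, smul_eq_mul]; push_cast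
              field_simp
              ring
            · rw [polar_sub_left, polar_sub_left, polar_smul_left, polar_smul_left, polar_self, hp]
              simp only [nsmul_eq_mul, smul_eq_mul]; push_cast
              field_simp
              ring
          obtain ⟨e, he, he0, hea, heb⟩ : ∃ e ∈ U', Q e ≠ 0 ∧ polar Q e a₁ = 0 ∧
              polar Q e b = 0 := by
            by_cases hqx : Q x = 0
            · by_cases hqy : Q y' = 0
              · refine ⟨x + y', U'.add_mem hx hy', ?_, ?_, ?_⟩
                · rw [qmap_add, hqx, hqy, hy'p]; simp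
                · rw [polar_add_left, hxa, hy'a]; simp
                · rw [polar_add_left, hxb, hy'b]; simp
              · exact ⟨y', hy', hqy, hy'a, hy'b⟩
            · exact ⟨x, hx, hqx, hxa, hxb⟩
          have hae : polar Q a₁ e = 0 := by rw [polar_comm]; exact hea
          have hbe : polar Q b e = 0 := by rw [polar_comm]; exact heb
          rcases eq_or_eq_neg_of_card_three h3c he0 ha₁0 with hq | hq
          · have hTe : TT Q M U U' e := h.TT_L1 hd E h2 ha₁ ha₁0 he hae (by
              rw [hq]; intro h0; exact (mul_ne_zero h2 ha₁0) (by linear_combination h0))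
            have hT2 := h.TT_add hd E h3 ha₁ hTe
            have hQ2 : Q (a₁ + e) = 2 * Q a₁ := by rw [qmap_add, hae, hq]; ring
            refine h.TT_L1 hd E h2 hT2 (by rw [hQ2]; exact mul_ne_zero h2 ha₁0) hb ?_ ?_
            · rw [polar_add_left, hp, heb]; simp
            · rw [hQ2, hQb]; intro h0; exact ha₁0 (by linear_combination h0)
          · have hT1 : TT Q M U U' (b + e) := by
              refine h.TT_L1 hd E h2 ha₁ ha₁0 (U'.add_mem hb he) ?_ ?_
              · rw [polar_add_right, hp, hae]; simp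
              · rw [qmap_add, hbe, hq, hQb]; intro h0; exact ha₁0 (by linear_combination -h0)
            have hT2 : TT Q M U U' (b - e) := by
              refine h.TT_L1 hd E h2 ha₁ ha₁0 (U'.sub_mem hb he) ?_ ?_
              · rw [polar_sub_right, hp, hae]; simp
              · rw [qmap_sub, hbe, hq, hQb]; intro h0; exact ha₁0 (by linear_combination -h0)
            have hT3 := TT_smul E (h.TT_add hd E h3 hT1 hT2) (2 : F)⁻¹
            have e1 : (2 : F)⁻¹ • (b + e + (b - e)) = b := by
              have : b + e + (b - e) = (2 : F) • b := by rw [two_smul]; abel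
              rw [this, smul_smul, inv_mul_cancel₀ h2, one_smul]
            rwa [e1] at hT3
        · obtain ⟨c, hc0, hc1⟩ := exists_sq_ne_one h2 h3c
          have hT1 : TT Q M U U' (c • b) := by
            refine h.TT_L1 hd E h2 ha₁ ha₁0 (U'.smul_mem _ hb) ?_ ?_
            · rw [polar_smul_right, hp]; simp
            · rw [QuadraticMap.map_smul, hQb]
              intro h0
              have h4 : Q a₁ * (1 - c ^ 2) = 0 := by
                simp only [smul_eq_mul] at h0
                linear_combination h0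
              rcases mul_eq_zero.1 h4 with h5 | h5
              · exact ha₁0 h5
              · exact hc1 (by linear_combination -h5)
          have := TT_smul E hT1 c⁻¹
          rwa [smul_smul, inv_mul_cancel₀ hc0, one_smul] at this
      · exact h.TT_L1 hd E h2 ha₁ ha₁0 hb hp hs
    · exact h.TT_key hd E h3 hb hb0 ha₁ (by rw [polar_comm]; exact hp)
  intro t ht
  by_cases hq : Q t = 0
  · by_cases ht0 : t = 0
    · subst ht0; exact TT_zero E
    obtain ⟨y, hy, hyp⟩ := h.dualU' ht ht0
    obtain ⟨γ, hγ0, hγ1⟩ := exists_ne_ne h3 (0 : F) (-1)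
    have hQa : Q (y + (γ - Q y) • t) = γ := by
      rw [qmap_add, QuadraticMap.map_smul, hq, polar_smul_right, polar_comm, hyp]
      simp
    have hT1 : TT Q M U U' (y + (γ - Q y) • t) :=
      key2 _ (U'.add_mem hy (U'.smul_mem _ ht)) (by rw [hQa]; exact hγ0)
    have hT2 : TT Q M U U' (t + (y + (γ - Q y) • t)) := by
      refine key2 _ (U'.add_mem ht (U'.add_mem hy (U'.smul_mem _ ht))) ?_
      rw [qmap_add, hq, hQa, polar_add_right, hyp, polar_smul_right, polar_self, hq]
      intro h0
      apply hγ1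
      simp only [nsmul_eq_mul, smul_eq_mul, mul_zero, add_zero, zero_add] at h0
      linear_combination h0
    have := h.TT_sub hd E h3 hT2 hT1
    rwa [add_sub_cancel_right] at this
  · exact key2 t ht hq

/-- **Theorem A (odd characteristic).** -/
theorem OSplit.commutator_le_odd (h : OSplit Q U U') (hQ : (polarBilin Q).Nondegenerate)
    (hd : 6 < finrank F U) (h2 : (2 : F) ≠ 0)
    (hex : Fintype.card F = 3 → ∀ a ∈ U', ∀ b ∈ U', Q a ≠ 0 → Q b = - Q a → polar Q a b = 0 →
      ∃ x ∈ U', x ≠ 0 ∧ polar Q x a = 0 ∧ polar Q x b = 0)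
    (hM : ∀ a b, SS Q U U' a → SS Q U U' b → Q a = Q b → refl Q a * refl Q b ∈ M)
    (hg : ∃ g ∈ M, ∃ a, SS Q U U' a ∧ g.1 a ∉ U ∧ g.1 a ∉ U') : commutator (OG Q) ≤ M := by
  have E := h.eng hd hM
  have h3 := two_lt_card_of_two_ne_zero h2
  obtain ⟨g, hgM, a, ha, hgU, hgU'⟩ := hg
  have hC := E.CC_M_S hgM ha
  obtain ⟨u, hu, u', hu', hy⟩ := h.sup (g.1 a)
  rw [hy] at hC hgU hgU'
  have hu0 : u ≠ 0 := by
    rintro rfl; apply hgU'; rw [zero_add]; exact hu'
  have hu'0 : u' ≠ 0 := by
    rintro rfl; apply hgU; rw [add_zero]; exact hu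
  have hT := h.TT_of_CC hd E hu hu0 hu' hC
  have hall := h.TT_all_odd hd E h2 hex hT hu'0
  refine E.commutator_le hQ (Or.inl (by omega)) ?_
  intro x hx
  obtain ⟨v, hv, v', hv', rfl⟩ := h.sup x
  exact (hall v' hv').2 v hv hx

end odd

end Cfsg.Agent.Lib.Helper95
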