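import Cfsg.Agent.Lib.Helper95.SympSwap

set_option autoImplicit false
set_option linter.unusedSimpArgs false

namespace Cfsg.Agent.Lib.Helper95

open LinearMap Module

variable {K V : Type*} [Field K] [AddCommGroup V] [Module K V]
variable {B : LinearMap.BilinForm K V} (hB : B.IsAlt)
variable {M : Subgroup (V ≃ₗ[K] V)}

lemma map_eq_of_forall [FiniteDimensional K V] {W W' : Submodule K V} (e : V ≃ₗ[K] V)
    (h : ∀ x ∈ W, e x ∈ W') (hfr : finrank K W = finrank K W') :
    W.map (e : V →ₗ[K] V) = W' := by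
  have hle : W.map (e : V →ₗ[K] V) ≤ W' := by
    rintro _ ⟨x, hx, rfl⟩
    exact h x hx
  exact Submodule.eq_of_le_of_finrank_eq hle ((LinearEquiv.finrank_map_eq e W).trans hfr)

include hB in
lemma disjoint_of_nondegOn {W : Submodule K V} (hW : NondegOn B W) :
    Disjoint W (B.orthogonal W) := by
  rw [Submodule.disjoint_def]
  intro x hx hx'
  by_contra hx0
  obtain ⟨y, hy, hxy⟩ := hW x hx hx0
  apply hxy
  rw [alt_swap hB, LinearMap.BilinForm.mem_orthogonal_iff.1 hx' y hy, neg_zero]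

include hB in
lemma exists_decomp [FiniteDimensional K V] {W : Submodule K V} (hW : NondegOn B W) (u : V) :
    ∃ a ∈ W, ∃ c, (∀ y ∈ W, B c y = 0) ∧ u = a + c := by
  have hc : IsCompl W (B.orthogonal W) :=
    (LinearMap.BilinForm.isCompl_orthogonal_iff_disjoint hB.isRefl).2 (disjoint_of_nondegOn hB hW)
  have hu : u ∈ W ⊔ B.orthogonal W := by rw [hc.sup_eq_top]; trivial
  obtain ⟨a, ha, c, hc', rfl⟩ := Submodule.mem_sup.1 hu
  refine ⟨a, ha, c, fun y hy => ?_, rfl⟩
  rw [alt_swap hB, LinearMap.BilinForm.mem_orthogonal_iff.1 hc' y hy, neg_zero]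

section decomp

variable {t : ℕ} {D : Fin t → Submodule K V} {k : ℕ}

lemma exists_block_ne (hnd : B.Nondegenerate) (htop : iSup D = ⊤) {u : V} (hu : u ≠ 0) :
    ∃ i, ∃ y ∈ D i, B u y ≠ 0 := by
  by_contra hcon
  push Not at hcon
  apply hu
  apply hnd.1
  have hle : iSup D ≤ LinearMap.ker (B u) := iSup_le fun i y hy => hcon i y hy
  intro y
  have : y ∈ iSup D := by rw [htop]; trivial
  exact hle this

include hB in
/-- Two blocks are "good" when every sum of a vector of the first and one of the second is a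
transvection centre. -/
lemma pair_good_of_mem [FiniteDimensional K V]
    (hndD : ∀ i, NondegOn B (D i)) (hfr : ∀ i, finrank K (D i) = k)
    (hperp : ∀ i j, i ≠ j → ∀ x ∈ D i, ∀ y ∈ D j, B x y = 0)
    (hex : (∃ l : K, l ≠ 0 ∧ l ≠ 1) ∨ 3 ≤ k)
    (hDM : ∀ i, ∀ v ∈ D i, v ∈ tvSet B hB M) {i j : Fin t} (hij : i ≠ j) {a b r : V}
    (ha : a ∈ D i) (hb : b ∈ D j) (ha0 : a ≠ 0) (hb0 : b ≠ 0)
    (hri : ∀ y ∈ D i, B r y = 0) (hrj : ∀ y ∈ D j, B r y = 0)
    (hu : a + b + r ∈ tvSet B hB M) :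
    ∀ a₀ ∈ D i, ∀ b₀ ∈ D j, a₀ + b₀ ∈ tvSet B hB M := by
  -- all `a' + b' + r`
  have hall : ∀ a' ∈ D i, ∀ b' ∈ D j, a' ≠ 0 → b' ≠ 0 → a' + b' + r ∈ tvSet B hB M := by
    intro a' ha' b' hb' ha0' hb0'
    have s1 : a' + (b + r) ∈ tvSet B hB M := by
      refine tvSet_spread hB (hndD i) (hDM i) ha ha' ha0 ha0' ?_ (by rwa [← add_assoc])
      intro x hx
      rw [map_add, LinearMap.add_apply, hri x hx, hperp j i hij.symm b hb x hx, add_zero]
    have s2 : b' + (a' + r) ∈ tvSet B hB M := by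
      refine tvSet_spread hB (hndD j) (hDM j) hb hb' hb0 hb0' ?_ ?_
      · intro x hx
        rw [map_add, LinearMap.add_apply, hrj x hx, hperp i j hij a' ha' x hx, add_zero]
      · have e : b + (a' + r) = a' + (b + r) := by abel
        rwa [e]
    have e : a' + b' + r = b' + (a' + r) := by abel
    rwa [e]
  intro a₀ ha₀ b₀ hb₀
  by_cases ha₀0 : a₀ = 0
  · subst ha₀0; simpa using hDM j b₀ hb₀
  by_cases hb₀0 : b₀ = 0
  · subst hb₀0; simpa using hDM i a₀ ha₀
  -- choose the auxiliary vectors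
  obtain ⟨a₁, ha₁, haa⟩ := hndD i a₀ ha₀ ha₀0
  have hb₁ : ∃ b₁ ∈ D j, b₁ ≠ 0 ∧ b₁ - b₀ ≠ 0 ∧ B b₀ b₁ = 0 := by
    rcases hex with ⟨l, hl0, hl1⟩ | hk
    · refine ⟨l • b₀, (D j).smul_mem _ hb₀, smul_ne_zero hl0 hb₀0, ?_, by simp [hB b₀]⟩
      have : l • b₀ - b₀ = (l - 1) • b₀ := by module
      rw [this]
      exact smul_ne_zero (sub_ne_zero.2 hl1) hb₀0
    · -- the kernel of `B b₀` on `D j` is not contained in the line through `b₀`
      set φ : (D j) →ₗ[K] K := (B b₀).domRestrict (D j) with hφ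
      have h1 := LinearMap.finrank_range_add_finrank_ker φ
      have h2 : finrank K (LinearMap.range φ) ≤ 1 := by
        have := Submodule.finrank_le (LinearMap.range φ)
        simpa using this
      rw [hfr j] at h1
      have h3 : 2 ≤ finrank K (LinearMap.ker φ) := by omega
      have hnle : ¬ LinearMap.ker φ ≤ Submodule.span K {(⟨b₀, hb₀⟩ : D j)} := by
        intro hle
        have h4 := Submodule.finrank_mono hle
        have h5 := finrank_span_le_card ({(⟨b₀, hb₀⟩ : D j)} : Set (D j)) (R := K)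
        simp at h5
        omega
      obtain ⟨z, hz, hz'⟩ := SetLike.not_le_iff_exists.1 hnle
      refine ⟨z, z.2, ?_, ?_, ?_⟩
      · intro h0
        apply hz'
        have : z = 0 := Subtype.ext h0
        rw [this]; exact Submodule.zero_mem _
      · intro h0
        apply hz'
        have : z = ⟨b₀, hb₀⟩ := Subtype.ext (sub_eq_zero.1 h0)
        rw [this]; exact Submodule.mem_span_singleton_self _
      · simpa [hφ] using hz
  obtain ⟨b₁, hb₁, hb₁0, hb₁b, hbb⟩ := hb₁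
  have ha₁0 : a₁ ≠ 0 := by rintro rfl; simp at haa
  have ha₁a : a₁ - a₀ ≠ 0 := by
    intro h
    rw [sub_eq_zero] at h
    rw [h, hB a₀] at haa
    exact haa rfl
  have hx := hall a₁ ha₁ b₁ hb₁ ha₁0 hb₁0
  have hy := hall (a₁ - a₀) ((D i).sub_mem ha₁ ha₀) (b₁ - b₀) ((D j).sub_mem hb₁ hb₀) ha₁a hb₁b
  have hr1 : ∀ y ∈ D i, B y r = 0 := fun y hy => by rw [alt_swap hB, hri y hy, neg_zero]
  have hr2 : ∀ y ∈ D j, B y r = 0 := fun y hy => by rw [alt_swap hB, hrj y hy, neg_zero]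
  have hBxy : B (a₁ + b₁ + r) (a₁ - a₀ + (b₁ - b₀) + r) ≠ 0 := by
    have e : B (a₁ + b₁ + r) (a₁ - a₀ + (b₁ - b₀) + r) = B a₀ a₁ := by
      simp only [map_add, map_sub, LinearMap.add_apply, LinearMap.sub_apply, hB a₁, hB b₁, hB r,
        hperp i j hij a₁ ha₁ b₁ hb₁, hperp i j hij a₁ ha₁ b₀ hb₀, hperp j i hij.symm b₁ hb₁ a₁ ha₁,
        hperp j i hij.symm b₁ hb₁ a₀ ha₀, hr1 a₁ ha₁, hr2 b₁ hb₁, hri a₁ ha₁, hri a₀ ha₀,
        hrj b₁ hb₁, hrj b₀ hb₀]
      rw [alt_swap hB a₁ a₀, alt_swap hB b₁ b₀, hbb]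
      ring
    rw [e]; exact haa
  have := tvSet_add hB hx hy hBxy (-1)
  have e : a₁ + b₁ + r + (-1 : K) • (a₁ - a₀ + (b₁ - b₀) + r) = a₀ + b₀ := by module
  rwa [e] at this

include hB in
theorem isoGrp_le_of_decomp [FiniteDimensional K V] (hnd : B.Nondegenerate)
    (hk : 0 < k) (hndD : ∀ i, NondegOn B (D i)) (hfr : ∀ i, finrank K (D i) = k)
    (hperp : ∀ i j, i ≠ j → ∀ x ∈ D i, ∀ y ∈ D j, B x y = 0) (htop : iSup D = ⊤)
    (hex : (∃ l : K, l ≠ 0 ∧ l ≠ 1) ∨ 3 ≤ k)
    {S' : Subgroup (V ≃ₗ[K] V)}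
    (hS' : ∀ e, e ∈ S' ↔ ∃ σ : Equiv.Perm (Fin t), ∀ i, (D i).map (e : V →ₗ[K] V) = D (σ i))
    (hM : isoGrp B ⊓ S' ≤ M) {g : V ≃ₗ[K] V} (hgM : g ∈ M) (hg : g ∈ isoGrp B) (hgS : g ∉ S') :
    isoGrp B ≤ M := by
  classical
  have hDM : ∀ i, ∀ v ∈ D i, v ∈ tvSet B hB M := by
    intro i v hv c
    refine hM ⟨stv_mem_isoGrp hB v c, (hS' _).2 ⟨1, fun j => ?_⟩⟩
    refine map_eq_of_forall _ (fun x hx => ?_) rfl
    rw [stv_apply]
    by_cases hji : j = i
    · subst hji; exact (D j).add_mem hx ((D j).smul_mem _ hv)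
    · rw [hperp j i hji x hx v hv]; simpa using hx
  have hne : ∀ i, ∃ v ∈ D i, v ≠ 0 := by
    intro i
    apply Submodule.exists_mem_ne_zero_of_ne_bot
    intro h
    have := hfr i
    rw [h, finrank_bot] at this
    omega
  -- step 3 : a transvection centre outside all blocks
  have h3 : ∃ u ∈ tvSet B hB M, ∀ l, u ∉ D l := by
    by_contra hcon
    push Not at hcon
    apply hgS
    have hblk : ∀ i, ∀ v ∈ D i, ∃ l, g v ∈ D l := fun i v hv =>
      hcon _ (tvSet_map hB hgM hg (hDM i v hv))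
    choose v₀ hv₀ hv₀0 using hne
    choose σ hσ using fun i => hblk i (v₀ i) (hv₀ i)
    have hmap : ∀ i, ∀ v ∈ D i, g v ∈ D (σ i) := by
      intro i v hv
      obtain ⟨l, hl⟩ := hblk i v hv
      by_cases hls : l = σ i
      · rw [← hls]; exact hl
      obtain ⟨p, hp⟩ := hblk i (v + v₀ i) ((D i).add_mem hv (hv₀ i))
      rw [map_add] at hp
      by_cases hps : p = σ i
      · -- then `g v` is orthogonal to `D l`
        have hz : g v = 0 := by
          by_contra h0
          obtain ⟨d, hd, hvd⟩ := hndD l (g v) hl h0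
          apply hvd
          have h1 := hperp p l (by rw [hps]; exact Ne.symm hls) _ hp d hd
          rw [map_add, LinearMap.add_apply, hperp (σ i) l (Ne.symm hls) _ (hσ i) d hd,
            add_zero] at h1
          exact h1
        rw [hz]; exact Submodule.zero_mem _
      · exfalso
        have hz : g (v₀ i) = 0 := by
          by_contra h0
          obtain ⟨d, hd, hvd⟩ := hndD (σ i) (g (v₀ i)) (hσ i) h0
          apply hvd
          have h1 := hperp p (σ i) hps _ hp d hd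
          rw [map_add, LinearMap.add_apply, hperp l (σ i) hls _ hl d hd, zero_add] at h1
          exact h1
        exact hv₀0 i (by simpa using hz)
    have hmapeq : ∀ i, (D i).map (g : V →ₗ[K] V) = D (σ i) := fun i =>
      map_eq_of_forall g (hmap i) ((hfr i).trans (hfr _).symm)
    have hinj : Function.Injective σ := by
      intro i j hij
      by_contra hne'
      have h1 : (D i).map (g : V →ₗ[K] V) = (D j).map (g : V →ₗ[K] V) := by
        rw [hmapeq, hmapeq, hij]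
      have h2 : D i = D j := Submodule.map_injective_of_injective g.injective h1
      obtain ⟨d, hd, hvd⟩ := hndD i (v₀ i) (hv₀ i) (hv₀0 i)
      exact hvd (hperp i j hne' _ (hv₀ i) d (h2 ▸ hd))
    exact (hS' g).2 ⟨Equiv.ofBijective σ (Finite.injective_iff_bijective.1 hinj), hmapeq⟩
  obtain ⟨u, hu, huD⟩ := h3
  -- step 4 : a good pair
  have hu0 : u ≠ 0 := by
    rintro rfl
    obtain ⟨i, _⟩ : ∃ i : Fin t, True := by
      by_contra hcon
      push Not at hcon
      have : IsEmpty (Fin t) := ⟨fun i => hcon i⟩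
      have hbot : iSup D = ⊥ := by simp
      rw [htop] at hbot
      have hsub : Subsingleton V := by
        rw [← Submodule.subsingleton_iff K]
        exact subsingleton_of_bot_eq_top hbot.symm
      apply hgS
      refine (hS' g).2 ⟨1, fun i => (this.false i).elim⟩
    exact huD i (Submodule.zero_mem _)
  obtain ⟨i, y, hy, huy⟩ := exists_block_ne hnd htop hu0
  obtain ⟨a, ha, c, hc, huac⟩ := exists_decomp hB (hndD i) u
  have hc0 : c ≠ 0 := by
    rintro rfl
    apply huD i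
    rw [huac, add_zero]; exact ha
  have ha0 : a ≠ 0 := by
    rintro rfl
    rw [huac, zero_add, hc y hy] at huy
    exact huy rfl
  obtain ⟨j, y', hy', hcy'⟩ := exists_block_ne hnd htop hc0
  have hij : i ≠ j := by
    rintro rfl
    exact hcy' (hc y' hy')
  obtain ⟨b, hb, c', hc', hubc⟩ := exists_decomp hB (hndD j) u
  have hb0 : b ≠ 0 := by
    rintro rfl
    apply hcy'
    have h1 : B u y' = B c y' := by
      rw [huac, map_add, LinearMap.add_apply, hperp i j hij a ha y' hy', zero_add]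
    rw [← h1, hubc, zero_add, hc' y' hy']
  have hgood : ∀ a₀ ∈ D i, ∀ b₀ ∈ D j, a₀ + b₀ ∈ tvSet B hB M := by
    refine pair_good_of_mem hB hndD hfr hperp hex hDM hij ha hb ha0 hb0 (r := u - a - b) ?_ ?_ ?_
    · intro z hz
      have : u - a - b = c - b := by rw [huac]; abel
      rw [this, map_sub, LinearMap.sub_apply, hc z hz, hperp j i hij.symm b hb z hz, sub_zero]
    · intro z hz
      have : u - a - b = c' - a := by rw [hubc]; abel
      rw [this, map_sub, LinearMap.sub_apply, hc' z hz, hperp i j hij a ha z hz, sub_zero]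
    · have : a + b + (u - a - b) = u := by abel
      rwa [this]
  -- step 5 : all pairs are good
  have hswap : ∀ p q : Fin t, p ≠ q → ∃ h ∈ M, h ∈ isoGrp B ∧ (∀ x ∈ D p, h x ∈ D q) ∧
      (∀ x ∈ D q, h x ∈ D p) ∧ ∀ l, l ≠ p → l ≠ q → ∀ x ∈ D l, h x = x := by
    intro p q hpq
    obtain ⟨h, hh, h1, h2, h3⟩ := exists_swap hB k (D p) (D q) (hfr p) (hfr q) (hndD p) (hndD q)
      (hperp p q hpq)
    have h4 : ∀ l, l ≠ p → l ≠ q → ∀ x ∈ D l, h x = x := fun l hlp hlq x hx =>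
      h3 x (hperp l p hlp x hx) (hperp l q hlq x hx)
    refine ⟨h, hM ⟨hh, (hS' h).2 ⟨Equiv.swap p q, fun l => ?_⟩⟩, hh, h1, h2, h4⟩
    refine map_eq_of_forall h (fun x hx => ?_) ((hfr _).trans (hfr _).symm)
    by_cases hlp : l = p
    · subst hlp; rw [Equiv.swap_apply_left]; exact h1 x hx
    by_cases hlq : l = q
    · subst hlq; rw [Equiv.swap_apply_right]; exact h2 x hx
    rw [Equiv.swap_apply_of_ne_of_ne hlp hlq, h4 l hlp hlq x hx]; exact hx
  have hmove : ∀ p q l : Fin t, p ≠ q → l ≠ p → l ≠ q →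
      (∀ a₀ ∈ D p, ∀ b₀ ∈ D q, a₀ + b₀ ∈ tvSet B hB M) →
      (∀ a₀ ∈ D p, ∀ b₀ ∈ D l, a₀ + b₀ ∈ tvSet B hB M) := by
    intro p q l hpq hlp hlq hgd a₀ ha₀ b₀ hb₀
    obtain ⟨h, hhM, hh, h1, h2, h3⟩ := hswap q l hlq.symm
    have hmapeq : (D q).map (h : V →ₗ[K] V) = D l :=
      map_eq_of_forall h h1 ((hfr _).trans (hfr _).symm)
    rw [← hmapeq] at hb₀
    obtain ⟨b₁, hb₁, rfl⟩ := hb₀
    have := tvSet_map hB hhM hh (hgd a₀ ha₀ b₁ hb₁)
    rw [map_add, h3 p hpq hlp.symm a₀ ha₀] at this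
    exact this
  have hsymm : ∀ p q : Fin t, (∀ a₀ ∈ D p, ∀ b₀ ∈ D q, a₀ + b₀ ∈ tvSet B hB M) →
      (∀ a₀ ∈ D q, ∀ b₀ ∈ D p, a₀ + b₀ ∈ tvSet B hB M) := by
    intro p q h a₀ ha₀ b₀ hb₀
    rw [add_comm]; exact h b₀ hb₀ a₀ ha₀
  have hi : ∀ l, l ≠ i → ∀ a₀ ∈ D i, ∀ b₀ ∈ D l, a₀ + b₀ ∈ tvSet B hB M := by
    intro l hl
    by_cases hlj : l = j
    · subst hlj; exact hgood
    · exact hmove i j l hij hl hlj hgood
  have hallpairs : ∀ p q : Fin t, p ≠ q → ∀ a₀ ∈ D p, ∀ b₀ ∈ D q, a₀ + b₀ ∈ tvSet B hB M := by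
    intro p q hpq
    by_cases hp : p = i
    · subst hp; exact hi q hpq.symm
    by_cases hq : q = i
    · subst hq; exact hsymm _ _ (hi p hp)
    exact hmove p i q hp hpq.symm hq (hsymm _ _ (hi p hp))
  -- step 6 : induction on the support
  have hsupp : ∀ T : Finset (Fin t), ∀ v ∈ ⨆ i ∈ T, D i, v ∈ tvSet B hB M := by
    intro T
    induction T using Finset.induction_on with
    | empty =>
      intro v hv
      simp only [Finset.notMem_empty, not_false_eq_true, iSup_neg, iSup_bot,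
        Submodule.mem_bot] at hv
      rw [hv]; exact zero_mem_tvSet hB
    | insert j T hjT ih =>
      intro v hv
      rw [Finset.iSup_insert] at hv
      obtain ⟨b, hb, s, hs, rfl⟩ := Submodule.mem_sup.1 hv
      by_cases hs0 : s = 0
      · subst hs0; simpa using hDM j b hb
      have hsperp : ∀ l, l ∉ T → ∀ y ∈ D l, B s y = 0 := by
        intro l hl y hy
        have hle : (⨆ i ∈ T, D i) ≤ LinearMap.ker (B.flip y) := by
          refine iSup₂_le fun i hiT x hx => ?_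
          have hil : i ≠ l := fun h => hl (h ▸ hiT)
          simpa using hperp i l hil x hx y hy
        simpa using hle hs
      obtain ⟨i', y₀, hy₀, hsy⟩ := exists_block_ne hnd htop hs0
      have hi'T : i' ∈ T := by
        by_contra h
        exact hsy (hsperp i' h y₀ hy₀)
      have hi'j : i' ≠ j := fun h => hjT (h ▸ hi'T)
      have h1 : s - y₀ ∈ tvSet B hB M := by
        apply ih
        refine Submodule.sub_mem _ hs ?_
        exact Submodule.mem_iSup_of_mem i' (Submodule.mem_iSup_of_mem hi'T hy₀)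
      have h2 : y₀ + b ∈ tvSet B hB M := hallpairs i' j hi'j y₀ hy₀ b hb
      have h3 : B (s - y₀) (y₀ + b) ≠ 0 := by
        simp only [map_add, map_sub, LinearMap.sub_apply, hB y₀, hsperp j hjT b hb,
          hperp i' j hi'j y₀ hy₀ b hb]
        simpa using hsy
      have := tvSet_add hB h1 h2 h3 1
      have e : s - y₀ + (1 : K) • (y₀ + b) = b + s := by module
      rwa [e] at this
  apply isoGrp_le_of_stv_mem hB hnd
  intro x
  change x ∈ tvSet B hB M
  apply hsupp Finset.univ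
  have : (⨆ i ∈ (Finset.univ : Finset (Fin t)), D i) = iSup D := by simp
  rw [this, htop]; trivial

include hB in
lemma exists_not_decomp (hndD : ∀ i, NondegOn B (D i))
    (hperp : ∀ i j, i ≠ j → ∀ x ∈ D i, ∀ y ∈ D j, B x y = 0)
    {i j : Fin t} (hij : i ≠ j) (hi : D i ≠ ⊥) (hj : D j ≠ ⊥) :
    ∃ g ∈ isoGrp B, ¬ ∃ σ : Equiv.Perm (Fin t), ∀ i, (D i).map (g : V →ₗ[K] V) = D (σ i) := by
  obtain ⟨a, ha, ha0⟩ := Submodule.exists_mem_ne_zero_of_ne_bot hi
  obtain ⟨b, hb, hb0⟩ := Submodule.exists_mem_ne_zero_of_ne_bot hj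
  obtain ⟨x, hx, hax⟩ := hndD i a ha ha0
  have hxa : B x a ≠ 0 := by rw [alt_swap hB]; simpa using hax
  refine ⟨stv B hB (a + b) 1, stv_mem_isoGrp hB _ _, ?_⟩
  rintro ⟨σ, hσ⟩
  have h1 : stv B hB (a + b) 1 x ∈ D (σ i) := by
    rw [← hσ i]; exact ⟨x, hx, rfl⟩
  rw [stv_apply, map_add, hperp i j hij x hx b hb, add_zero, one_mul, smul_add, ← add_assoc] at h1
  set z := x + B x a • a with hz
  have hzD : z ∈ D i := (D i).add_mem hx ((D i).smul_mem _ ha)
  by_cases hl : σ i = i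
  · rw [hl] at h1
    have h2 : B x a • b ∈ D i := ((D i).add_mem_iff_right hzD).1 h1
    have h3 : b ∈ D i := ((D i).smul_mem_iff hxa).1 h2
    obtain ⟨d, hd, hbd⟩ := hndD j b hb hb0
    exact hbd (hperp i j hij b h3 d hd)
  · have hz0 : z = 0 := by
      by_contra h0
      obtain ⟨d, hd, hzd⟩ := hndD i z hzD h0
      apply hzd
      have h2 := hperp (σ i) i hl _ h1 d hd
      rw [map_add, LinearMap.add_apply, map_smul, LinearMap.smul_apply,
        hperp j i hij.symm b hb d hd, smul_zero, add_zero] at h2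
      exact h2
    have h4 : B z a = 0 := by rw [hz0]; simp
    rw [hz, map_add, LinearMap.add_apply, map_smul, LinearMap.smul_apply, hB a, smul_zero,
      add_zero] at h4
    exact hxa h4

end decomp

include hB in
lemma finrank_ne_one_of_nondegOn {W : Submodule K V} (hW : NondegOn B W) : finrank K W ≠ 1 := by
  intro h1
  have hW0 : W ≠ ⊥ := by
    intro h; rw [h, finrank_bot] at h1; omega
  obtain ⟨v, hv, hv0⟩ := Submodule.exists_mem_ne_zero_of_ne_bot hW0
  obtain ⟨x, hx, hvx⟩ := hW v hv hv0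
  have hv0' : (⟨v, hv⟩ : W) ≠ 0 := fun h => hv0 (congrArg Subtype.val h)
  obtain ⟨c, hc⟩ := (finrank_eq_one_iff_of_nonzero' (⟨v, hv⟩ : W) hv0').1 h1 ⟨x, hx⟩
  have hc' : c • v = x := congrArg Subtype.val hc
  apply hvx
  rw [← hc', map_smul, hB v, smul_zero]

end Cfsg.Agent.Lib.Helper95
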