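import Cfsg.Agent.Lib.Helper95.Glue4
import Cfsg.Agent.Lib.Helper95.SympDecomp
import Cfsg.Agent.Lib.Helper95.OmOdd
import Cfsg.Agent.Lib.Helper49.Transfer

set_option autoImplicit false
set_option linter.unusedSimpArgs false

namespace Cfsg.Agent.Lib.Helper95

open QuadraticMap Module
open Cfsg.Agent.Lib.Helper49 hiding glEquiv glEquiv_apply

section glue

variable {ι : Type} [Fintype ι] [DecidableEq ι] {F : Type*} [Field F]

/-- The quadratic form attached to a function satisfying `IsNondegenerateQuadraticForm`. -/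
noncomputable def qfOf (Q : (ι → F) → F) (hQ : Cfsg.Geo.IsNondegenerateQuadraticForm Q) :
    QuadraticForm F (ι → F) where
  toFun := Q
  toFun_smul a x := by rw [hQ.smul, smul_eq_mul, pow_two]
  exists_companion' := ⟨bilinOf (polar Q) hQ.polar_bilinear, fun x y => by
    rw [bilinOf_apply]; simp only [polar]; ring⟩

omit [Fintype ι] [DecidableEq ι] in
@[simp] lemma qfOf_coe (Q : (ι → F) → F) (hQ : Cfsg.Geo.IsNondegenerateQuadraticForm Q) :
    ⇑(qfOf Q hQ) = Q := rfl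

omit [Fintype ι] [DecidableEq ι] in
lemma qfOf_nondegenerate (Q : (ι → F) → F) (hQ : Cfsg.Geo.IsNondegenerateQuadraticForm Q) :
    (polarBilin (qfOf Q hQ)).Nondegenerate := by
  apply nondegenerate_of_separatingLeft
  intro x hx
  by_contra hx0
  obtain ⟨_, ⟨y, hy⟩⟩ := hQ.nondegenerate x hx0
  exact hy (hx y)

end glue

/-- `Ω` as a group of linear automorphisms. -/
def omG {F V : Type*} [Field F] [AddCommGroup V] [Module F V] (Q : QuadraticForm F V) :
    Subgroup (V ≃ₗ[F] V) := (commutator (OG Q)).map (OG Q).subtype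

section glue2

variable {ι : Type} [Fintype ι] [DecidableEq ι] {F : Type*} [Field F]

lemma coe_isoEquiv (Q : QuadraticForm F (ι → F)) (x : ↥(Cfsg.isometryGroup F ⇑Q)) :
    (isoEquiv Q x).1 = glEquiv x.1 := by
  ext v : 1
  rw [isoEquiv_apply, glEquiv_apply]

lemma mem_omegaGL_iff (Q : QuadraticForm F (ι → F)) (g : Matrix.GeneralLinearGroup ι F) :
    g ∈ Cfsg.Geo.omegaGL ⇑Q ↔ glEquiv g ∈ omG Q := by
  constructor
  · rintro ⟨x, hx, rfl⟩
    exact ⟨isoEquiv Q x, (mem_Omega_iff Q x).1 hx, coe_isoEquiv Q x⟩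
  · rintro ⟨y, hy, hyg⟩
    refine ⟨(isoEquiv Q).symm y, ?_, ?_⟩
    · apply (mem_Omega_iff Q _).2
      rw [MulEquiv.apply_symm_apply]; exact hy
    · apply (glEquiv (ι := ι) (F := F)).injective
      rw [← hyg]
      have := coe_isoEquiv Q ((isoEquiv Q).symm y)
      rw [MulEquiv.apply_symm_apply] at this
      exact this.symm

/-- Transfer of maximality in `Ω`. -/
theorem omega_maximal_of (Q : QuadraticForm F (ι → F)) (S : Subgroup (Matrix.GeneralLinearGroup ι F))
    (S' : Subgroup ((ι → F) ≃ₗ[F] (ι → F))) (hS : ∀ g, g ∈ S ↔ glEquiv g ∈ S')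
    (hne : ∃ g ∈ commutator (OG Q), g.1 ∉ S')
    (hmax : ∀ M : Subgroup (OG Q), (∀ g : OG Q, g ∈ commutator (OG Q) → g.1 ∈ S' → g ∈ M) →
      ∀ g ∈ M, g.1 ∉ S' → commutator (OG Q) ≤ M) :
    Cfsg.Geo.IsMaximalIn (Cfsg.Geo.omegaGL ⇑Q) (S ⊓ Cfsg.Geo.omegaGL ⇑Q) := by
  refine isMaximalIn_transfer (K' := omG Q) (S' := S') (mem_omegaGL_iff Q) hS ?_ ?_
  · obtain ⟨g, hg, hgS⟩ := hne
    exact ⟨g.1, ⟨g, hg, rfl⟩, hgS⟩
  · intro M' h1 h2 g hg hgS
    obtain ⟨x, hx, rfl⟩ := h2 hg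
    have key := hmax (M'.comap (OG Q).subtype) (fun y hy hyS => by
      apply h1
      exact ⟨⟨y, hy, rfl⟩, hyS⟩) x hg hgS
    rintro _ ⟨y, hy, rfl⟩
    exact key hy

end glue2

section escape

variable {F V : Type*} [Field F] [Fintype F] [AddCommGroup V] [Module F V] [FiniteDimensional F V]
  {Q : QuadraticForm F V} {U U' : Submodule F V}

omit [Fintype F] [FiniteDimensional F V] in
lemma OSplit.symm (h : OSplit Q U U') : OSplit Q U' U where
  perp u hu u' hu' := by rw [polar_comm]; exact h.perp u' hu' u hu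
  sup x := by
    obtain ⟨u, hu, u', hu', rfl⟩ := h.sup x
    exact ⟨u', hu', u, hu, add_comm _ _⟩
  ndU := h.ndU'
  ndU' := h.ndU

/-- An isometry mapping the non-singular vectors of `U` into `U ∪ U'` maps `U` into `U` or `U'`. -/
lemma OSplit.map_U (h : OSplit Q U U') (hd : 6 < finrank F U) (h2 : (2 : F) ≠ 0) (g : OG Q)
    (hg : ∀ a ∈ U, Q a ≠ 0 → g.1 a ∈ U ∨ g.1 a ∈ U') :
    (∀ x ∈ U, g.1 x ∈ U) ∨ (∀ x ∈ U, g.1 x ∈ U') := by
  classical
  have h3 := two_lt_card_of_two_ne_zero h2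
  have hno : ∀ a ∈ U, ∀ b ∈ U, Q a ≠ 0 → Q b ≠ 0 → g.1 a ∈ U → g.1 b ∈ U' → False := by
    intro a ha b hb ha0 hb0 hga hgb
    have hab : polar Q a b = 0 := by rw [← OG_polar Q g]; exact h.perp _ hga _ hgb
    obtain ⟨c, hc, hc0, hca, hcb⟩ : ∃ c ∈ U, Q c ≠ 0 ∧ polar Q c a ≠ 0 ∧ polar Q c b ≠ 0 := by
      obtain ⟨e, he, heq, hea, heb⟩ := h.perpU hd a b (if Q a + Q b = 0 then 1 else 0)
      refine ⟨a + b + e, U.add_mem (U.add_mem ha hb) he, ?_, ?_, ?_⟩
      · rw [qmap_add, qmap_add, hab, polar_add_left, polar_comm Q a e, polar_comm Q b e, hea, heb,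
          heq]
        split_ifs with h0
        · rw [h0]; simp
        · simpa using h0
      · rw [polar_add_left, polar_add_left, polar_self, polar_comm Q b a, hab, hea]
        simp only [nsmul_eq_mul]; push_cast
        simpa using mul_ne_zero h2 ha0
      · rw [polar_add_left, polar_add_left, polar_self, hab, heb]
        simp only [nsmul_eq_mul]; push_cast
        simpa using mul_ne_zero h2 hb0
    rcases hg c hc hc0 with h4 | h4
    · apply hcb; rw [← OG_polar Q g]; exact h.perp _ h4 _ hgb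
    · apply hca; rw [← OG_polar Q g, polar_comm]; exact h.perp _ hga _ h4
  -- extension from non-singular vectors
  have hext : ∀ X : Submodule F V, (∀ a ∈ U, Q a ≠ 0 → g.1 a ∈ X) → ∀ x ∈ U, g.1 x ∈ X := by
    intro X hX x hx
    obtain ⟨δ, hδ0, hδ1⟩ := exists_ne_ne h3 (0 : F) (-Q x)
    obtain ⟨a, ha, haq, hax, -⟩ := h.perpU hd x x δ
    have h5 : g.1 (x + a) ∈ X := by
      apply hX _ (U.add_mem hx ha)
      rw [qmap_add, polar_comm, hax, haq]
      intro h0; exact hδ1 (by linear_combination h0)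
    have h6 : g.1 a ∈ X := hX a ha (by rw [haq]; exact hδ0)
    have : g.1 x = g.1 (x + a) - g.1 a := by rw [map_add]; abel
    rw [this]
    exact X.sub_mem h5 h6
  obtain ⟨a₀, ha₀, ha₀q, -, -⟩ := h.perpU hd 0 0 1
  have ha₀0 : Q a₀ ≠ 0 := by rw [ha₀q]; exact one_ne_zero
  rcases hg a₀ ha₀ ha₀0 with h4 | h4
  · left
    apply hext
    intro b hb hb0
    rcases hg b hb hb0 with h5 | h5
    · exact h5
    · exact (hno a₀ ha₀ b hb ha₀0 hb0 h4 h5).elim
  · right
    apply hext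
    intro b hb hb0
    rcases hg b hb hb0 with h5 | h5
    · exact (hno b hb a₀ ha₀ hb0 ha₀0 h5 h4).elim
    · exact h5

/-- an element of `Ω` moving a vector of `U` outside `U ∪ U'` -/
lemma OSplit.exists_moving (h : OSplit Q U U') (hQ : (polarBilin Q).Nondegenerate)
    (hd : 6 < finrank F U) (hU' : ∃ a ∈ U', Q a ≠ 0) :
    ∃ g ∈ commutator (OG Q), ∃ x ∈ U, g.1 x ∉ U ∧ g.1 x ∉ U' := by
  obtain ⟨a, ha, ha0⟩ := hU'
  obtain ⟨u₁, hu₁, hu₁0⟩ := OSplit.exists_ne_zero (F := F) (U := U) hd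
  obtain ⟨u, hu, hu0, huq, -⟩ := h.univU hd hu₁ hu₁0 0 0
  obtain ⟨x, hx, -, -, hxp⟩ := h.univU hd hu hu0 0 1
  have hQb : Q (u + a) = Q a := by rw [h.Q_add hu ha, huq, zero_add]
  refine ⟨refl Q (u + a) * refl Q a,
    refl_mul_refl_mem_commutator_of_eq Q hQ _ _ (by rw [hQb]; exact ha0) hQb, x, hx, ?_⟩
  have h1 : (refl Q (u + a) * refl Q a).1 x = (x - (Q a)⁻¹ • u) - (Q a)⁻¹ • a := by
    simp only [Subgroup.coe_mul, LinearEquiv.mul_apply, refl_coe_apply]
    rw [reflLin_of_polar_eq_zero Q a x (by rw [polar_comm]; exact h.perp x hx a ha), reflLin_apply,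
      hQb, polar_add_left, hxp, polar_comm Q a x, h.perp x hx a ha, add_zero, mul_one, smul_add]
    abel
  rw [h1]
  have hxu : x - (Q a)⁻¹ • u ∈ U := U.sub_mem hx (U.smul_mem _ hu)
  have hsa : (Q a)⁻¹ • a ∈ U' := U'.smul_mem _ ha
  constructor
  · intro h4
    have h5 : (Q a)⁻¹ • a ∈ U := by
      have := U.sub_mem hxu h4
      rwa [sub_sub_cancel] at this
    have h6 := h.disj h5 hsa
    rcases smul_eq_zero.1 h6 with h7 | h7
    · exact inv_ne_zero ha0 h7
    · rw [h7] at ha0; simp at ha0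
  · intro h4
    have h5 : x - (Q a)⁻¹ • u ∈ U' := by
      have := U'.add_mem h4 hsa
      rwa [sub_add_cancel] at this
    have h6 := h.disj hxu h5
    have h7 : x = (Q a)⁻¹ • u := by rw [← sub_eq_zero]; exact h6
    rw [h7, polar_smul_right, polar_self, huq] at hxp
    simp at hxp

end escape

end Cfsg.Agent.Lib.Helper95
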