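import Cfsg.Agent.Lib.Helper95.SympMax2

set_option autoImplicit false
set_option linter.unusedSimpArgs false

namespace Cfsg.Agent.Lib.Helper95

open LinearMap Module

variable {K V : Type*} [Field K] [AddCommGroup V] [Module K V]
variable {B : LinearMap.BilinForm K V} (hB : B.IsAlt)
variable {M : Subgroup (V ≃ₗ[K] V)}

/-- The Weyl-type element `a ↦ a'`, `a' ↦ -a`. -/
def weylElt (B : LinearMap.BilinForm K V) (hB : B.IsAlt) (a a' : V) : V ≃ₗ[K] V :=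
  stv B hB a 1 * stv B hB a' 1 * stv B hB a 1

lemma weylElt_mem_isoGrp (a a' : V) : weylElt B hB a a' ∈ isoGrp B :=
  mul_mem (mul_mem (stv_mem_isoGrp hB _ _) (stv_mem_isoGrp hB _ _)) (stv_mem_isoGrp hB _ _)

lemma weylElt_apply_left {a a' : V} (h : B a a' = 1) : weylElt B hB a a' a = a' := by
  have h' : B a' a = -1 := by rw [alt_swap hB, h]
  simp only [weylElt, LinearEquiv.mul_apply, stv_apply, map_add, map_smul, LinearMap.add_apply,
    LinearMap.smul_apply, smul_eq_mul, hB a, hB a', h, h']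
  module

lemma weylElt_apply_right {a a' : V} (h : B a a' = 1) : weylElt B hB a a' a' = -a := by
  have h' : B a' a = -1 := by rw [alt_swap hB, h]
  simp only [weylElt, LinearEquiv.mul_apply, stv_apply, map_add, map_smul, LinearMap.add_apply,
    LinearMap.smul_apply, smul_eq_mul, hB a, hB a', h, h']
  module

lemma weylElt_apply_of_perp {a a' x : V} (h1 : B x a = 0) (h2 : B x a' = 0) :
    weylElt B hB a a' x = x := by
  simp [weylElt, LinearEquiv.mul_apply, h1, h2]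

include hB in
/-- Two totally singular subspaces in perfect duality are exchanged by an isometry fixing every
vector orthogonal to both. -/
theorem exists_lagr_swap [FiniteDimensional K V] (n : ℕ) : ∀ (A A' : Submodule K V),
    finrank K A = n → (∀ x ∈ A, ∀ y ∈ A, B x y = 0) → (∀ x ∈ A', ∀ y ∈ A', B x y = 0) →
    (∀ x ∈ A, x ≠ 0 → ∃ y ∈ A', B x y ≠ 0) → (∀ y ∈ A', y ≠ 0 → ∃ x ∈ A, B x y ≠ 0) →
    ∃ h ∈ isoGrp B, (∀ x ∈ A, h x ∈ A') ∧ (∀ x ∈ A', h x ∈ A) ∧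
      (∀ x, (∀ y ∈ A, B x y = 0) → (∀ y ∈ A', B x y = 0) → h x = x) := by
  induction n using Nat.strong_induction_on with
  | _ n ih =>
  intro A A' hn hA hA' hp hp'
  by_cases hA0 : A = ⊥
  · have hA0' : A' = ⊥ := by
      rw [Submodule.eq_bot_iff]
      intro y hy
      by_contra hy0
      obtain ⟨x, hx, hxy⟩ := hp' y hy hy0
      rw [hA0, Submodule.mem_bot] at hx
      rw [hx] at hxy
      simp at hxy
    refine ⟨1, one_mem _, ?_, ?_, fun x _ _ => rfl⟩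
    · intro x hx; rw [hA0] at hx; rw [hA0']; simpa using hx
    · intro x hx; rw [hA0'] at hx; rw [hA0]; simpa using hx
  obtain ⟨a, ha, ha0⟩ := Submodule.exists_mem_ne_zero_of_ne_bot hA0
  obtain ⟨a₀, ha₀, haa₀⟩ := hp a ha ha0
  set a' := (B a a₀)⁻¹ • a₀ with ha'def
  have ha' : a' ∈ A' := A'.smul_mem _ ha₀
  have haa : B a a' = 1 := by simp [ha'def, haa₀]
  have haa' : B a' a = -1 := by rw [alt_swap hB, haa]
  set A₁ : Submodule K V := A ⊓ LinearMap.ker (B.flip a') with hA₁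
  set A₁' : Submodule K V := A' ⊓ LinearMap.ker (B a) with hA₁'
  have m1 : ∀ x, x ∈ A₁ ↔ x ∈ A ∧ B x a' = 0 := by intro x; simp [hA₁]
  have m1' : ∀ x, x ∈ A₁' ↔ x ∈ A' ∧ B a x = 0 := by intro x; simp [hA₁']
  have hlt : A₁ < A := by
    refine lt_of_le_of_ne inf_le_left ?_
    intro h
    have : a ∈ A₁ := by rw [h]; exact ha
    rw [m1, haa] at this
    exact one_ne_zero this.2
  have hfr : finrank K A₁ < n := by rw [← hn]; exact Submodule.finrank_lt_finrank_of_lt hlt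
  have d1 : ∀ x ∈ A, x - B x a' • a ∈ A₁ := by
    intro x hx
    rw [m1]
    refine ⟨A.sub_mem hx (A.smul_mem _ ha), ?_⟩
    simp [haa]
  have d1' : ∀ y ∈ A', y - B a y • a' ∈ A₁' := by
    intro y hy
    rw [m1']
    refine ⟨A'.sub_mem hy (A'.smul_mem _ ha'), ?_⟩
    simp [haa]
  obtain ⟨h₁, hh₁, h₁a, h₁b, h₁c⟩ := ih (finrank K A₁) hfr A₁ A₁' rfl
    (fun x hx y hy => hA x hx.1 y hy.1) (fun x hx y hy => hA' x hx.1 y hy.1)
    (by
      intro x hx hx0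
      obtain ⟨y, hy, hxy⟩ := hp x hx.1 hx0
      refine ⟨_, d1' y hy, ?_⟩
      rw [map_sub, map_smul, ((m1 x).1 hx).2]
      simpa using hxy)
    (by
      intro y hy hy0
      obtain ⟨x, hx, hxy⟩ := hp' y hy.1 hy0
      refine ⟨_, d1 x hx, ?_⟩
      rw [map_sub, LinearMap.sub_apply, map_smul, LinearMap.smul_apply, ((m1' y).1 hy).2]
      simpa using hxy)
  have e1 : h₁ a = a := h₁c a (fun y hy => hA a ha y hy.1) (fun y hy => ((m1' y).1 hy).2)
  have e2 : h₁ a' = a' := h₁c a'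
    (fun y hy => by rw [alt_swap hB, ((m1 y).1 hy).2, neg_zero]) (fun y hy => hA' a' ha' y hy.1)
  refine ⟨weylElt B hB a a' * h₁, mul_mem (weylElt_mem_isoGrp hB a a') hh₁, ?_, ?_, ?_⟩
  · intro x hx
    have hy := h₁a _ (d1 x hx)
    have hx' : x = B x a' • a + (x - B x a' • a) := by abel
    rw [hx', LinearEquiv.mul_apply, map_add, map_add, map_smul, map_smul, e1,
      weylElt_apply_left hB haa,
      weylElt_apply_of_perp hB (by rw [alt_swap hB, ((m1' _).1 hy).2, neg_zero])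
        (hA' _ hy.1 a' ha')]
    exact A'.add_mem (A'.smul_mem _ ha') hy.1
  · intro y hy
    have hx := h₁b _ (d1' y hy)
    have hy' : y = B a y • a' + (y - B a y • a') := by abel
    rw [hy', LinearEquiv.mul_apply, map_add, map_add, map_smul, map_smul, e2,
      weylElt_apply_right hB haa,
      weylElt_apply_of_perp hB (hA _ hx.1 a ha) ((m1 _).1 hx).2]
    exact A.add_mem (A.smul_mem _ (A.neg_mem ha)) hx.1
  · intro x h1 h2
    rw [LinearEquiv.mul_apply, h₁c x (fun y hy => h1 y hy.1) (fun y hy => h2 y hy.1)]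
    exact weylElt_apply_of_perp hB (h1 a ha) (h2 a' ha')

lemma conj_sElt {g : V ≃ₗ[K] V} (hg : g ∈ isoGrp B) (w z : V) :
    g * sElt B hB w z * g⁻¹ = sElt B hB (g w) (g z) := by
  rw [sElt, sElt, ← map_add, ← conj_stv hB hg, ← conj_stv hB hg, ← conj_stv hB hg]
  group

lemma sElt_comm_eq {a b b' : V} (h : B a b = 0) (h' : B a b' = 0) :
    sElt B hB a b * sElt B hB a b' =
      stv B hB a (2 * B b' b) * (sElt B hB a b' * sElt B hB a b) := by
  have hba : B b a = 0 := by rw [alt_swap hB, h, neg_zero]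
  have hba' : B b' a = 0 := by rw [alt_swap hB, h', neg_zero]
  ext x
  simp only [LinearEquiv.mul_apply, sElt_apply hB h, sElt_apply hB h', stv_apply, map_add,
    map_smul, LinearMap.add_apply, LinearMap.smul_apply, smul_eq_mul, hB a, hB b, hB b', h, h',
    hba, hba']
  rw [alt_swap hB b b']
  module

lemma sElt_symm {w z : V} (h : B w z = 0) : sElt B hB z w = sElt B hB w z := by
  have h' : B z w = 0 := by rw [alt_swap hB, h, neg_zero]
  ext x
  rw [sElt_apply hB h, sElt_apply hB h']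
  abel

section lagr

variable {U₁ U₂ : Submodule K V}

include hB in
lemma exists_tv_of_pair [FiniteDimensional K V] (hnd : B.Nondegenerate) (h2 : (2 : K) ≠ 0)
    (h22 : ∀ x ∈ U₂, ∀ y ∈ U₂, B x y = 0)
    (hp : ∀ x ∈ U₁, x ≠ 0 → ∃ y ∈ U₂, B x y ≠ 0) (hdim : 4 ≤ finrank K U₁)
    (hs : ∀ a ∈ U₁, ∀ b ∈ U₂, B a b = 0 → sElt B hB a b ∈ M)
    {u v u₁ u₂ v₁ v₂ : V} (hu : u = u₁ + u₂) (hv : v = v₁ + v₂) (hu₁ : u₁ ∈ U₁) (hu₂ : u₂ ∈ U₂)
    (hv₁ : v₁ ∈ U₁) (hv₂ : v₂ ∈ U₂) (hu₁0 : u₁ ≠ 0) (hv₁0 : v₁ ≠ 0) (huv : B u v = 0)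
    (hM : sElt B hB u v ∈ M) : ∃ a' ∈ U₁, a' ≠ 0 ∧ a' ∈ tvSet B hB M := by
  classical
  have hp' : ∀ x ∈ U₁, x ≠ 0 → ∃ y ∈ U₂, (B.flip x) y ≠ 0 := by
    intro x hx hx0
    obtain ⟨y, hy, hxy⟩ := hp x hx hx0
    exact ⟨y, hy, by rw [LinearMap.BilinForm.flip_apply, alt_swap hB]; simpa using hxy⟩
  obtain ⟨b', hb', hb1, hb2⟩ := exists_mem_ne_zero_both U₂ (B.flip u₁) (B.flip v₁)
    (hp' u₁ hu₁ hu₁0) (hp' v₁ hv₁ hv₁0)
  rw [LinearMap.BilinForm.flip_apply] at hb1 hb2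
  have hbu : B b' u = B b' u₁ := by rw [hu, map_add, h22 b' hb' u₂ hu₂, add_zero]
  have hbv : B b' v = B b' v₁ := by rw [hv, map_add, h22 b' hb' v₂ hv₂, add_zero]
  -- the vector a'
  set S : Submodule K V := Submodule.span K (({u, v, b'} : Finset V) : Set V) with hS
  have hS3 : finrank K S ≤ 3 :=
    (finrank_span_finset_le_card ({u, v, b'} : Finset V)).trans Finset.card_le_three
  have hXd : finrank K (B.orthogonal S) = finrank K V - finrank K S :=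
    LinearMap.BilinForm.finrank_orthogonal hnd S
  have hne : U₁ ⊓ B.orthogonal S ≠ ⊥ := by
    intro h
    have h1 := Submodule.finrank_sup_add_finrank_inf_eq U₁ (B.orthogonal S)
    rw [h, finrank_bot] at h1
    have h3 := Submodule.finrank_le (U₁ ⊔ B.orthogonal S)
    have h4 := Submodule.finrank_le S
    omega
  obtain ⟨a', ha', ha'0⟩ := Submodule.exists_mem_ne_zero_of_ne_bot hne
  obtain ⟨ha'U, ha'S⟩ := Submodule.mem_inf.1 ha'
  rw [LinearMap.BilinForm.mem_orthogonal_iff] at ha'S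
  have hua : B u a' = 0 := ha'S u (Submodule.subset_span (by simp))
  have hva : B v a' = 0 := ha'S v (Submodule.subset_span (by simp))
  have hba : B b' a' = 0 := ha'S b' (Submodule.subset_span (by simp))
  have hau : B a' u = 0 := by rw [alt_swap hB, hua, neg_zero]
  have hav : B a' v = 0 := by rw [alt_swap hB, hva, neg_zero]
  have hab : B a' b' = 0 := by rw [alt_swap hB, hba, neg_zero]
  refine ⟨a', ha'U, ha'0, ?_⟩
  set g' := sElt B hB u v with hg'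
  have hg'iso : g' ∈ isoGrp B := sElt_mem_isoGrp hB u v
  have hg'a : g' a' = a' := by rw [hg', sElt_apply hB huv, hau, hav]; simp
  have hg'b : g' b' = b' + B b' u • v + B b' v • u := by rw [hg', sElt_apply hB huv]
  have hval : B (g' b') b' = -(2 * (B b' u₁ * B b' v₁)) := by
    rw [hg'b, hbu, hbv]
    simp only [map_add, map_smul, LinearMap.add_apply, LinearMap.smul_apply, smul_eq_mul, hB b']
    rw [alt_swap hB v b', alt_swap hB u b', hbu, hbv]
    ring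
  have hval0 : B (g' b') b' ≠ 0 := by
    rw [hval]
    exact neg_ne_zero.2 (mul_ne_zero h2 (mul_ne_zero hb1 hb2))
  have hag : B a' (g' b') = 0 := by rw [← hg'a, hg'iso, hab]
  intro c
  set c' := c / (2 * B (g' b') b') with hc'
  have h1 : sElt B hB a' b' ∈ M := hs a' ha'U b' hb' hab
  have h3 : sElt B hB a' (c' • g' b') ∈ M := by
    have h4 : sElt B hB a' (c' • b') ∈ M := hs a' ha'U _ (U₂.smul_mem _ hb') (by simp [hab])
    have h5 := mul_mem (mul_mem hM h4) (inv_mem hM)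
    rw [conj_sElt hB hg'iso, hg'a, map_smul] at h5
    exact h5
  have h6 := sElt_comm_eq hB hab (b' := c' • g' b') (by simp [hag])
  have h7 : stv B hB a' (2 * B (c' • g' b') b') ∈ M := by
    have : stv B hB a' (2 * B (c' • g' b') b') =
        (sElt B hB a' b' * sElt B hB a' (c' • g' b')) *
          (sElt B hB a' (c' • g' b') * sElt B hB a' b')⁻¹ := by
      rw [h6]; group
    rw [this]
    exact mul_mem (mul_mem h1 h3) (inv_mem (mul_mem h3 h1))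
  have e : 2 * B (c' • g' b') b' = c := by
    rw [map_smul, LinearMap.smul_apply, smul_eq_mul, hc']
    field_simp
  rwa [e] at h7

include hB in
lemma tvSet_lagr_spread (h11 : ∀ x ∈ U₁, ∀ y ∈ U₁, B x y = 0)
    (hp : ∀ x ∈ U₁, x ≠ 0 → ∃ y ∈ U₂, B x y ≠ 0)
    (hs : ∀ a ∈ U₁, ∀ b ∈ U₂, B a b = 0 → sElt B hB a b ∈ M)
    {a' : V} (ha' : a' ∈ U₁) (ha'0 : a' ≠ 0) (hmem : a' ∈ tvSet B hB M) :
    ∀ a'' ∈ U₁, a'' ∈ tvSet B hB M := by
  intro a'' ha''
  by_cases h0 : a'' = 0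
  · subst h0; exact zero_mem_tvSet hB
  obtain ⟨b, hb, hb1, hb2⟩ := exists_mem_ne_zero_both U₂ (B a') (B a'') (hp a' ha' ha'0)
    (hp a'' ha'' h0)
  set l := B a' b / B a'' b with hl
  have hl0 : l ≠ 0 := div_ne_zero hb1 hb2
  suffices h : l • a'' ∈ tvSet B hB M by
    have := tvSet_smul hB h l⁻¹
    rwa [smul_smul, inv_mul_cancel₀ hl0, one_smul] at this
  set d := (B a' b)⁻¹ • (l • a'' - a') with hd
  have hdU : d ∈ U₁ := U₁.smul_mem _ (U₁.sub_mem (U₁.smul_mem _ ha'') ha')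
  have hdb : B d b = 0 := by
    simp only [hd, map_smul, map_sub, LinearMap.smul_apply, LinearMap.sub_apply, smul_eq_mul, hl,
      div_mul_cancel₀ _ hb2, sub_self, mul_zero]
  have h1 := tvSet_map hB (hs d hdU b hb hdb) (sElt_mem_isoGrp hB d b) hmem
  rw [sElt_apply hB hdb, h11 a' ha' d hdU, zero_smul, add_zero, hd, smul_smul,
    mul_inv_cancel₀ hb1, one_smul] at h1
  have e : a' + (l • a'' - a') = l • a'' := by abel
  rwa [e] at h1

lemma exists_perp_mem [FiniteDimensional K V] (hdim : 2 ≤ finrank K U₂) (x : V) :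
    ∃ b ∈ U₂, b ≠ 0 ∧ B x b = 0 := by
  set φ : U₂ →ₗ[K] K := (B x).domRestrict U₂ with hφ
  have h1 := LinearMap.finrank_range_add_finrank_ker φ
  have h2 : finrank K (LinearMap.range φ) ≤ 1 := by
    have := Submodule.finrank_le (LinearMap.range φ)
    simpa using this
  have hne : LinearMap.ker φ ≠ ⊥ := by
    intro h
    rw [h, finrank_bot] at h1
    omega
  obtain ⟨z, hz, hz0⟩ := Submodule.exists_mem_ne_zero_of_ne_bot hne
  exact ⟨z, z.2, fun h => hz0 (Subtype.ext h), by simpa [hφ] using hz⟩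

include hB in
theorem isoGrp_le_of_lagr [FiniteDimensional K V] (hnd : B.Nondegenerate) (h2 : (2 : K) ≠ 0)
    (h11 : ∀ x ∈ U₁, ∀ y ∈ U₁, B x y = 0) (h22 : ∀ x ∈ U₂, ∀ y ∈ U₂, B x y = 0)
    (hsup : U₁ ⊔ U₂ = ⊤) (hd1 : 4 ≤ finrank K U₁) (hd2 : 4 ≤ finrank K U₂)
    {S' : Subgroup (V ≃ₗ[K] V)}
    (hS1 : ∀ e : V ≃ₗ[K] V, (∀ x ∈ U₁, e x ∈ U₁) → (∀ x ∈ U₂, e x ∈ U₂) → e ∈ S')
    (hS2 : ∀ e : V ≃ₗ[K] V, (∀ x ∈ U₁, e x ∈ U₂) → (∀ x ∈ U₂, e x ∈ U₁) → e ∈ S')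
    (hM : isoGrp B ⊓ S' ≤ M) {g : V ≃ₗ[K] V} (hgM : g ∈ M) (hg : g ∈ isoGrp B) (hgS : g ∉ S') :
    isoGrp B ≤ M := by
  have hdec : ∀ x : V, ∃ x₁ ∈ U₁, ∃ x₂ ∈ U₂, x = x₁ + x₂ := by
    intro x
    have hx : x ∈ U₁ ⊔ U₂ := by rw [hsup]; trivial
    obtain ⟨x₁, h1, x₂, h2, rfl⟩ := Submodule.mem_sup.1 hx
    exact ⟨x₁, h1, x₂, h2, rfl⟩
  have hp12 : ∀ x ∈ U₁, x ≠ 0 → ∃ y ∈ U₂, B x y ≠ 0 := by
    intro x hx hx0
    by_contra hcon
    push Not at hcon
    apply hx0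
    apply hnd.1
    intro z
    obtain ⟨z₁, hz₁, z₂, hz₂, rfl⟩ := hdec z
    rw [map_add, h11 x hx z₁ hz₁, hcon z₂ hz₂, add_zero]
  have hp21 : ∀ x ∈ U₂, x ≠ 0 → ∃ y ∈ U₁, B x y ≠ 0 := by
    intro x hx hx0
    by_contra hcon
    push Not at hcon
    apply hx0
    apply hnd.1
    intro z
    obtain ⟨z₁, hz₁, z₂, hz₂, rfl⟩ := hdec z
    rw [map_add, h22 x hx z₂ hz₂, hcon z₁ hz₁, add_zero]
  have hs : ∀ a ∈ U₁, ∀ b ∈ U₂, B a b = 0 → sElt B hB a b ∈ M := by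
    intro a ha b hb hab
    refine hM ⟨sElt_mem_isoGrp hB a b, hS1 _ ?_ ?_⟩
    · intro x hx
      rw [sElt_apply hB hab, h11 x hx a ha, zero_smul, add_zero]
      exact U₁.add_mem hx (U₁.smul_mem _ ha)
    · intro x hx
      rw [sElt_apply hB hab, h22 x hx b hb, zero_smul, add_zero]
      exact U₂.add_mem hx (U₂.smul_mem _ hb)
  have hs' : ∀ b ∈ U₂, ∀ a ∈ U₁, B b a = 0 → sElt B hB b a ∈ M := by
    intro b hb a ha hba
    have hab : B a b = 0 := by rw [alt_swap hB, hba, neg_zero]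
    rw [sElt_symm hB hab]
    exact hs a ha b hb hab
  obtain ⟨J, hJ, hJ1, hJ2, _⟩ := exists_lagr_swap hB _ U₁ U₂ rfl h11 h22 hp12
    (fun y hy hy0 => by
      obtain ⟨x, hx, hyx⟩ := hp21 y hy hy0
      exact ⟨x, hx, by rw [alt_swap hB]; simpa using hyx⟩)
  have hJM : J ∈ M := hM ⟨hJ, hS2 J hJ1 hJ2⟩
  have hU1ne : U₁ ≠ ⊥ := by intro h; rw [h, finrank_bot] at hd1; omega
  have hU2ne : U₂ ≠ ⊥ := by intro h; rw [h, finrank_bot] at hd2; omega
  -- claim 1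
  have c1 : ∃ x, (x ∈ U₁ ∨ x ∈ U₂) ∧ g x ∉ U₁ ∧ g x ∉ U₂ := by
    by_contra hcon
    push Not at hcon
    have hA : ∀ x ∈ U₁, (g : V →ₗ[K] V) x ∈ U₁ ∨ (g : V →ₗ[K] V) x ∈ U₂ := by
      intro x hx
      by_cases h : g x ∈ U₁
      · exact Or.inl h
      · exact Or.inr (hcon x (Or.inl hx) h)
    have hA' : ∀ x ∈ U₂, (g : V →ₗ[K] V) x ∈ U₁ ∨ (g : V →ₗ[K] V) x ∈ U₂ := by
      intro x hx
      by_cases h : g x ∈ U₁
      · exact Or.inl h
      · exact Or.inr (hcon x (Or.inr hx) h)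
    have hall : ∀ (W : Submodule K V), (∀ x ∈ U₁, g x ∈ W) → (∀ x ∈ U₂, g x ∈ W) → W = ⊤ := by
      intro W h1 h2
      rw [eq_top_iff]
      intro z _
      obtain ⟨z₁, hz₁, z₂, hz₂, hz⟩ := hdec (g.symm z)
      have : z = g z₁ + g z₂ := by rw [← map_add, ← hz]; simp
      rw [this]
      exact W.add_mem (h1 z₁ hz₁) (h2 z₂ hz₂)
    rcases forall_or_of_forall_or _ hA with hP | hP <;>
      rcases forall_or_of_forall_or _ hA' with hQ | hQ
    · have htop := hall U₁ hP hQ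
      obtain ⟨y, hy, hy0⟩ := Submodule.exists_mem_ne_zero_of_ne_bot hU2ne
      obtain ⟨x, hx, hyx⟩ := hp21 y hy hy0
      exact hyx (h11 y (by rw [htop]; trivial) x hx)
    · exact hgS (hS1 g hP hQ)
    · exact hgS (hS2 g hP hQ)
    · have htop := hall U₂ hP hQ
      obtain ⟨y, hy, hy0⟩ := Submodule.exists_mem_ne_zero_of_ne_bot hU1ne
      obtain ⟨x, hx, hyx⟩ := hp12 y hy hy0
      exact hyx (h22 y (by rw [htop]; trivial) x hx)
  -- claim 2
  have c2 : ∃ u v, B u v = 0 ∧ sElt B hB u v ∈ M ∧ u ∉ U₁ ∧ u ∉ U₂ ∧ v ≠ 0 := by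
    obtain ⟨x, hx, hx1, hx2⟩ := c1
    rcases hx with hx | hx
    · obtain ⟨b, hb, hb0, hxb⟩ := exists_perp_mem (B := B) (U₂ := U₂) (by omega) x
      refine ⟨g x, g b, by rw [hg, hxb], ?_, hx1, hx2, by simpa using hb0⟩
      rw [← conj_sElt hB hg]
      exact mul_mem (mul_mem hgM (hs x hx b hb hxb)) (inv_mem hgM)
    · obtain ⟨a, ha, ha0, hxa⟩ := exists_perp_mem (B := B) (U₂ := U₁) (by omega) x
      refine ⟨g x, g a, by rw [hg, hxa], ?_, hx1, hx2, by simpa using ha0⟩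
      rw [← conj_sElt hB hg]
      exact mul_mem (mul_mem hgM (hs' x hx a ha hxa)) (inv_mem hgM)
  obtain ⟨u, v, huv, hsM, hu1, hu2, hv0⟩ := c2
  obtain ⟨u₁, hu₁, u₂, hu₂, hu⟩ := hdec u
  obtain ⟨v₁, hv₁, v₂, hv₂, hv⟩ := hdec v
  have hu₁0 : u₁ ≠ 0 := by rintro rfl; apply hu2; rw [hu, zero_add]; exact hu₂
  have hu₂0 : u₂ ≠ 0 := by rintro rfl; apply hu1; rw [hu, add_zero]; exact hu₁
  -- claim 4
  have c4 : (∀ a ∈ U₁, a ∈ tvSet B hB M) ∧ (∀ b ∈ U₂, b ∈ tvSet B hB M) := by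
    by_cases hv₁0 : v₁ = 0
    · have hv₂0 : v₂ ≠ 0 := by rintro rfl; apply hv0; rw [hv, hv₁0, add_zero]
      obtain ⟨b', hb', hb'0, hb'M⟩ := exists_tv_of_pair hB hnd h2 h11 hp21 hd2 hs'
        (hu.trans (add_comm _ _)) (hv.trans (add_comm _ _)) hu₂ hu₁ hv₂ hv₁ hu₂0 hv₂0 huv hsM
      have hU2 := tvSet_lagr_spread hB h22 hp21 hs' hb' hb'0 hb'M
      refine ⟨?_, hU2⟩
      exact tvSet_lagr_spread hB h11 hp12 hs (hJ2 b' hb') (by simpa using hb'0)
        (tvSet_map hB hJM hJ hb'M)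
    · obtain ⟨a', ha', ha'0, ha'M⟩ := exists_tv_of_pair hB hnd h2 h22 hp12 hd1 hs
        hu hv hu₁ hu₂ hv₁ hv₂ hu₁0 hv₁0 huv hsM
      have hU1 := tvSet_lagr_spread hB h11 hp12 hs ha' ha'0 ha'M
      refine ⟨hU1, ?_⟩
      exact tvSet_lagr_spread hB h22 hp21 hs' (hJ1 a' ha') (by simpa using ha'0)
        (tvSet_map hB hJM hJ ha'M)
  obtain ⟨hU1, hU2⟩ := c4
  apply isoGrp_le_of_stv_mem hB hnd
  intro x
  change x ∈ tvSet B hB M
  obtain ⟨x₁, hx₁, x₂, hx₂, rfl⟩ := hdec x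
  by_cases hx₂0 : x₂ = 0
  · subst hx₂0; simpa using hU1 x₁ hx₁
  by_cases h12 : B x₁ x₂ = 0
  · obtain ⟨a, ha, hxa⟩ := hp21 x₂ hx₂ hx₂0
    have hax : B a x₂ ≠ 0 := by rw [alt_swap hB]; simpa using hxa
    have hy : (x₁ - a) + x₂ ∈ tvSet B hB M := by
      have := tvSet_add hB (hU1 _ (U₁.sub_mem hx₁ ha)) (hU2 x₂ hx₂)
        (by rw [map_sub, LinearMap.sub_apply, h12, zero_sub]; exact neg_ne_zero.2 hax) 1
      rwa [one_smul] at this
    have := tvSet_add hB hy (hU1 a ha)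
      (by
        rw [map_add, LinearMap.add_apply, h11 _ (U₁.sub_mem hx₁ ha) a ha, zero_add]
        exact hxa) 1
    have e : x₁ - a + x₂ + (1 : K) • a = x₁ + x₂ := by rw [one_smul]; abel
    rwa [e] at this
  · have := tvSet_add hB (hU1 x₁ hx₁) (hU2 x₂ hx₂) h12 1
    rwa [one_smul] at this

end lagr

end Cfsg.Agent.Lib.Helper95
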