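import Cfsg.Agent.Lib.Helper95.OmSiegGen
import Cfsg.Agent.Lib.Helper49.Lagr

set_option autoImplicit false
set_option linter.unusedSimpArgs false

namespace Cfsg.Agent.Lib.Helper95

open QuadraticMap Module Cfsg.Agent.Lib.Helper49

section quad

variable {F W : Type*} [Field F] [AddCommGroup W] [Module F W] (q : QuadraticForm F W)

lemma qexists_perp_nonsing2 [FiniteDimensional F W] (hnd : (polarBilin q).Nondegenerate)
    (h2 : (2 : F) ≠ 0) {k : ℕ} (a : Fin k → W) {e₁ : W} (he₁ : q e₁ ≠ 0)
    (hk : 2 * k + 1 < finrank F W) :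
    ∃ z, (∀ i, polar q z (a i) = 0) ∧ polar q z e₁ = 0 ∧ q z ≠ 0 := by
  by_contra hcon
  push Not at hcon
  let B : LinearMap.BilinForm F W := polarBilin q
  let a' : Fin (k + 1) → W := Fin.cons e₁ a
  let L : W →ₗ[F] (Fin (k + 1) → F) := LinearMap.pi (fun i => B.flip (a' i))
  have hmem : ∀ z, z ∈ LinearMap.ker L ↔ ∀ i, polar q z (a' i) = 0 := by
    intro z
    rw [LinearMap.mem_ker]
    constructor
    · intro h i
      have := congrFun h i
      simpa [L, B] using this
    · intro h
      ext i
      simpa [L, B] using h i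
  have hsing : ∀ z, z ∈ LinearMap.ker L → q z = 0 := by
    intro z hz
    have h := (hmem z).1 hz
    exact hcon z (fun i => by simpa [a'] using h i.succ) (by simpa [a'] using h 0)
  have h1 : LinearMap.ker L ≤ Submodule.span F (Set.range a') ⊓ LinearMap.ker (polarBilin q e₁) := by
    intro w hw
    refine ⟨?_, ?_⟩
    · apply smem_span_of_perp (B := B) hnd a'
      intro z hz
      have hz' : z ∈ LinearMap.ker L := (hmem z).2 (fun i => by simpa [B] using hz i)
      have e1 := hsing z hz'
      have e2 := hsing w hw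
      have e3 := hsing (z + w) ((LinearMap.ker L).add_mem hz' hw)
      change polar q z w = 0
      simp only [polar, e1, e2, e3]; ring
    · change w ∈ LinearMap.ker (polarBilin q e₁)
      rw [LinearMap.mem_ker, polarBilin_apply_apply, polar_comm]
      simpa [a'] using (hmem w).1 hw 0
  have h5 := finrank_inf_ker_add_one (Submodule.span F (Set.range a')) (polarBilin q e₁)
    ⟨e₁, Submodule.subset_span ⟨0, by simp [a']⟩, by
      rw [polarBilin_apply_apply, polar_self]
      simp only [nsmul_eq_mul]; push_cast
      exact mul_ne_zero h2 he₁⟩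
  have h6 : finrank F (Submodule.span F (Set.range a')) ≤ k + 1 := by
    have := finrank_range_le_card (R := F) a'
    rw [Fintype.card_fin] at this
    exact this
  have h7 := Submodule.finrank_mono h1
  have h3 := LinearMap.finrank_range_add_finrank_ker L
  have h4 : finrank F (LinearMap.range L) ≤ k + 1 := by
    simpa using Submodule.finrank_le (LinearMap.range L)
  omega

/-- sharper version of `qexists_perp_norm` -/
lemma qexists_perp_norm2 [Fintype F] [FiniteDimensional F W] (hnd : (polarBilin q).Nondegenerate)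
    {k : ℕ} (a : Fin k → W) (hk : 2 * k + 1 < finrank F W) (δ : F) :
    ∃ e, (∀ i, polar q e (a i) = 0) ∧ q e = δ := by
  obtain ⟨e₁, h1, h11⟩ := qexists_perp_nonsing q hnd a (by omega)
  by_cases h2 : (2 : F) = 0
  · have hc : ringChar F = 2 := by
      have : CharP F 2 := CharTwo.of_one_ne_zero_of_two_eq_zero one_ne_zero h2
      exact ringChar.eq F 2
    obtain ⟨c, hc⟩ := FiniteField.isSquare_of_char_two hc (δ / q e₁)
    refine ⟨c • e₁, fun i => by rw [polar_smul_left, h1 i]; simp, ?_⟩
    rw [QuadraticMap.map_smul, smul_eq_mul, ← hc]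
    field_simp
  · obtain ⟨e₂, h2a, h21, h22⟩ := qexists_perp_nonsing2 q hnd h2 a h11 hk
    obtain ⟨x, y, hxy⟩ := exists_sq_add_sq' _ _ δ h11 h22
    refine ⟨x • e₁ + y • e₂, fun i => ?_, ?_⟩
    · simp [polar_add_left, polar_smul_left, h1 i, h2a i]
    · rw [qmap_add, QuadraticMap.map_smul, QuadraticMap.map_smul, polar_smul_left, polar_smul_right,
        polar_comm q e₁ e₂, h21]
      simp only [smul_eq_mul]
      linear_combination hxy

variable {q}

/-- a singular vector orthogonal to the `x i` and dual to `w` -/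
lemma qsepS [Fintype F] [FiniteDimensional F W] (hnd : (polarBilin q).Nondegenerate) {k : ℕ}
    (x : Fin k → W) {w : W} (hw : w ∉ Submodule.span F (Set.range x))
    (hk : 2 * (k + 2) + 1 < finrank F W) :
    ∃ y, q y = 0 ∧ (∀ i, polar q y (x i) = 0) ∧ polar q y w = 1 := by
  obtain ⟨z, hz, hzw⟩ := qsep hnd x hw
  obtain ⟨e, he, heq⟩ := qexists_perp_norm2 q hnd
    (Fin.cons z (Fin.cons w x) : Fin (k + 1 + 1) → W) (by omega) (-q z)
  have hez : polar q e z = 0 := by simpa using he 0
  have hew : polar q e w = 0 := by simpa using he 1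
  have hex : ∀ i, polar q e (x i) = 0 := fun i => by simpa using he i.succ.succ
  refine ⟨z + e, ?_, fun i => ?_, ?_⟩
  · rw [qmap_add, heq, polar_comm, hez]; ring
  · rw [polar_add_left, hz i, hex i, add_zero]
  · rw [polar_add_left, hzw, hew, add_zero]

/-- a vector orthogonal to `m` vectors outside the span of `j` vectors -/
lemma qperp_out [FiniteDimensional F W] (q : QuadraticForm F W) {m j : ℕ} (y : Fin m → W)
    (x : Fin j → W) (hmj : m + j < finrank F W) :
    ∃ u, u ∉ Submodule.span F (Set.range x) ∧ ∀ i, polar q u (y i) = 0 := by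
  let L : W →ₗ[F] (Fin m → F) := LinearMap.pi (fun i => (polarBilin q).flip (y i))
  have h3 := LinearMap.finrank_range_add_finrank_ker L
  have h4 : finrank F (LinearMap.range L) ≤ m := by
    simpa using Submodule.finrank_le (LinearMap.range L)
  have h6 : ¬ (LinearMap.ker L ≤ Submodule.span F (Set.range x)) := by
    intro hle
    have h7 := Submodule.finrank_mono hle
    have h8 := finrank_range_le_card (R := F) x
    rw [Fintype.card_fin] at h8
    have h9 : finrank F (Submodule.span F (Set.range x)) ≤ j := h8
    omega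
  obtain ⟨u, hu, hus⟩ := SetLike.not_le_iff_exists.1 h6
  refine ⟨u, hus, fun i => ?_⟩
  have := congrFun (LinearMap.mem_ker.1 hu) i
  simpa [L] using this

end quad

end Cfsg.Agent.Lib.Helper95
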