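import Cfsg.Agent.Lib.Helper95.OmStab
import Cfsg.Agent.Lib.Helper95.OmSiegGen
import Cfsg.Agent.Lib.Helper95.OmPerp2
import Cfsg.Agent.Lib.Helper49.OrthIrr
import Cfsg.Agent.Lib.Helper49.WittOmega

set_option autoImplicit false
set_option linter.unusedSimpArgs false

/-! The reflection engine for an orthogonal splitting, all characteristics. -/

namespace Cfsg.Agent.Lib.Helper95

open QuadraticMap Module
open Cfsg.Agent.Lib.Helper49 hiding glEquiv glEquiv_apply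

section gen

variable {F V : Type*} [Field F] [Fintype F] [AddCommGroup V] [Module F V] [FiniteDimensional F V]
  {Q : QuadraticForm F V} {U U' : Submodule F V} {M : Subgroup (OG Q)}

theorem OSplit.TT_add' (h : OSplit Q U U') (hd : 6 < finrank F U) (E : Eng Q M (SS Q U U'))
    {t₁ t₂ : V} (ht₁ : TT Q M U U' t₁) (ht₂ : TT Q M U U' t₂) :
    TT Q M U U' (t₁ + t₂) := by
  obtain ⟨u₁, hu₁, hu₁0⟩ := OSplit.exists_ne_zero (F := F) (U := U) hd
  obtain ⟨w₁, hw₁, hw₁0, hw₁q, -⟩ := h.univU hd hu₁ hu₁0 (1 - Q t₁) 0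
  obtain ⟨w₂, hw₂, hw₂q, hw₂p, hne⟩ : ∃ w₂ ∈ U, Q w₂ = 1 - Q t₂ ∧
      polar Q w₁ w₂ = -polar Q t₁ t₂ - 1 ∧ w₁ + w₂ ≠ 0 := by
    obtain ⟨w₂, hw₂, -, hw₂q, hw₂p⟩ := h.univU hd hw₁ hw₁0 (1 - Q t₂) (-polar Q t₁ t₂ - 1)
    by_cases h0 : w₁ + w₂ = 0
    · obtain ⟨e, he, he0, heq, hep⟩ := h.univU hd hw₁ hw₁0 0 0
      have h4 : w₂ = -w₁ := by rw [eq_neg_iff_add_eq_zero, add_comm]; exact h0
      refine ⟨w₂ + e, U.add_mem hw₂ he, ?_, ?_, ?_⟩
      · rw [qmap_add, hw₂q, heq, h4, polar_neg_left, hep]; ring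
      · rw [polar_add_right, hw₂p, hep, add_zero]
      · rw [← add_assoc, h0, zero_add]; exact he0
    · exact ⟨w₂, hw₂, hw₂q, hw₂p, h0⟩
  have hQx : Q (w₁ + t₁) = 1 := by rw [h.Q_add hw₁ ht₁.1, hw₁q]; ring
  have hQz : Q (w₂ + t₂) = 1 := by rw [h.Q_add hw₂ ht₂.1, hw₂q]; ring
  have hx := ht₁.2 w₁ hw₁ (by rw [hQx]; exact one_ne_zero)
  have hz := ht₂.2 w₂ hw₂ (by rw [hQz]; exact one_ne_zero)
  have hp : polar Q (w₁ + t₁) (w₂ + t₂) = -1 := by
    rw [h.polar_add hw₁ ht₁.1 hw₂ ht₂.1, hw₂p]; ring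
  have h1 : reflLin Q (w₁ + t₁) (w₂ + t₂) = (w₁ + w₂) + (t₁ + t₂) := by
    rw [reflLin_apply, hp, hQx, inv_one, one_mul, neg_one_smul]; abel
  have h2 := E.CC_refl hx hz
  rw [h1] at h2
  exact h.TT_of_CC hd E (U.add_mem hw₁ hw₂) hne (U'.add_mem ht₁.1 ht₂.1) h2

omit [Fintype F] [FiniteDimensional F V] in
theorem TT_map (E : Eng Q M (SS Q U U')) {m : OG Q} (hm : m ∈ M) (hU : m.1 ∈ stabGrp U)
    (hU' : m.1 ∈ stabGrp U') {t : V} (ht : TT Q M U U' t) : TT Q M U U' (m.1 t) := by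
  refine ⟨(hU' t).1 ht.1, fun w hw hq => ?_⟩
  have hgg : ∀ y, m.1 ((m⁻¹).1 y) = y := by
    intro y
    have : (m * m⁻¹).1 y = y := by rw [mul_inv_cancel]; rfl
    exact this
  have e1 : w + m.1 t = m.1 ((m⁻¹).1 w + t) := by
    rw [map_add, hgg]
  have hw₀ : (m⁻¹).1 w ∈ U := by
    rw [hU, hgg]; exact hw
  rw [e1] at hq ⊢
  rw [OG_apply] at hq
  exact E.CC_M hm (ht.2 _ hw₀ hq)

/-- the good vectors form everything -/
theorem OSplit.TT_all_gen (h : OSplit Q U U') (hQ : (polarBilin Q).Nondegenerate)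
    (hd : 6 < finrank F U) (E : Eng Q M (SS Q U U'))
    (hH : ∀ g ∈ commutator (OG Q), (∀ x ∈ U, g.1 x ∈ U) → g ∈ M)
    (hex : ¬ (Fintype.card F ≤ 3 ∧ finrank F U' = 2 ∧ ∃ e ∈ U', e ≠ 0 ∧ Q e = 0))
    {t₀ : V} (ht₀ : TT Q M U U' t₀) (ht₀0 : t₀ ≠ 0) : ∀ t ∈ U', TT Q M U U' t := by
  let S : Submodule F U' :=
    { carrier := {t | TT Q M U U' (t : V)}
      add_mem' := fun {a b} ha hb => h.TT_add' hd E ha hb
      zero_mem' := TT_zero E
      smul_mem' := fun c x hx => TT_smul E hx c }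
  have hV : finrank F U ≤ finrank F V := Submodule.finrank_le U
  obtain ⟨u₁, hu₁, hu₁0⟩ := OSplit.exists_ne_zero (F := F) (U := U) hd
  obtain ⟨e, he, he0, heq, -⟩ := h.univU hd hu₁ hu₁0 0 0
  obtain ⟨f, hf, -, hfq, hef⟩ := h.univU hd he he0 0 1
  have hS : S = ⊤ := by
    apply eq_top_of_OG_invariant (resQ Q U') h.ndU' S
    · intro hb
      have : (⟨t₀, ht₀.1⟩ : U') ∈ S := ht₀
      rw [hb, Submodule.mem_bot] at this
      exact ht₀0 (congrArg Subtype.val this)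
    · intro g' s hs
      obtain ⟨g, hg⟩ := witt_OG Q hQ U' U' g'.1 (fun x => OG_apply (resQ Q U') g' x)
      obtain ⟨k, hk, hgk⟩ := exists_mul_mem_commutator_fix Q hQ (Or.inr (by omega)) U' heq hfq hef
        (fun x hx => h.perp e he x hx) (fun x hx => h.perp f hf x hx) g
      have hact : ∀ x : U', (g * k).1 (x : V) = (g'.1 x : V) := by
        intro x
        change g.1 (k.1 x) = _
        rw [hk x x.2, hg]
      have hst := h.symm.stab_of (g * k) (fun x hx => by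
        rw [hact ⟨x, hx⟩]; exact (g'.1 ⟨x, hx⟩).2)
      have hm : g * k ∈ M := hH _ hgk (fun x hx => (hst.2 x).1 hx)
      have := TT_map E hm hst.2 hst.1 (t := (s : V)) hs
      rw [hact s] at this
      exact this
    · rintro ⟨h1, h2, e', he'0, he'q⟩
      exact hex ⟨h1, h2, e', e'.2, fun h0 => he'0 (Subtype.ext h0), he'q⟩
  intro t ht
  have : (⟨t, ht⟩ : U') ∈ S := by rw [hS]; trivial
  exact this

/-- **Theorem A (all characteristics).** -/
theorem OSplit.commutator_le_gen (h : OSplit Q U U') (hQ : (polarBilin Q).Nondegenerate)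
    (hd : 6 < finrank F U)
    (hex : ¬ (Fintype.card F ≤ 3 ∧ finrank F U' = 2 ∧ ∃ e ∈ U', e ≠ 0 ∧ Q e = 0))
    (hH : ∀ g ∈ commutator (OG Q), (∀ x ∈ U, g.1 x ∈ U) → g ∈ M)
    (hg : ∃ g ∈ M, ∃ a, SS Q U U' a ∧ g.1 a ∉ U ∧ g.1 a ∉ U') : commutator (OG Q) ≤ M := by
  have hV : finrank F U ≤ finrank F V := Submodule.finrank_le U
  have E : Eng Q M (SS Q U U') := h.eng hd (by
    intro a b ha hb hab
    apply hH _ (refl_mul_refl_mem_commutator_of_eq _ hQ _ _ ha.1 hab)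
    intro x hx
    exact h.refl_stab ha.2 (h.refl_stab hb.2 hx))
  obtain ⟨g, hgM, a, ha, hgU, hgU'⟩ := hg
  have hC := E.CC_M_S hgM ha
  obtain ⟨u, hu, u', hu', hy⟩ := h.sup (g.1 a)
  rw [hy] at hC hgU hgU'
  have hu0 : u ≠ 0 := by
    rintro rfl; apply hgU'; rw [zero_add]; exact hu'
  have hu'0 : u' ≠ 0 := by
    rintro rfl; apply hgU; rw [add_zero]; exact hu
  have hT := h.TT_of_CC hd E hu hu0 hu' hC
  have hall := h.TT_all_gen hQ hd E hH hex hT hu'0
  refine E.commutator_le hQ (Or.inr (by omega)) ?_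
  intro x hx
  obtain ⟨v, hv, v', hv', rfl⟩ := h.sup x
  exact (hall v' hv').2 v hv hx

/-- An isometry mapping the non-singular vectors of `U` into `U ∪ U'` maps `U` into `U` or `U'`. -/
lemma OSplit.map_U' (h : OSplit Q U U') (hd : 7 < finrank F U) (g : OG Q)
    (hg : ∀ a ∈ U, Q a ≠ 0 → g.1 a ∈ U ∨ g.1 a ∈ U') :
    (∀ x ∈ U, g.1 x ∈ U) ∨ (∀ x ∈ U, g.1 x ∈ U') := by
  classical
  have hd6 : 6 < finrank F U := by omega
  have hno : ∀ a ∈ U, ∀ b ∈ U, Q a ≠ 0 → Q b ≠ 0 → g.1 a ∈ U → g.1 b ∈ U' → False := by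
    intro a ha b hb ha0 hb0 hga hgb
    have hab : polar Q a b = 0 := by rw [← OG_polar Q g]; exact h.perp _ hga _ hgb
    have hind : ∀ c : F, b ≠ c • a := by
      intro c hc
      have h1 : g.1 b ∈ U := by rw [hc, map_smul]; exact U.smul_mem _ hga
      have h2 := h.disj h1 hgb
      have h3 : b = 0 := (LinearEquiv.map_eq_zero_iff g.1).1 h2
      rw [h3] at hb0; simp at hb0
    have hind' : ∀ c : F, a ≠ c • b := by
      intro c hc
      have h1 : g.1 a ∈ U' := by rw [hc, map_smul]; exact U'.smul_mem _ hgb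
      have h2 := h.disj hga h1
      have h3 : a = 0 := (LinearEquiv.map_eq_zero_iff g.1).1 h2
      rw [h3] at ha0; simp at ha0
    obtain ⟨z₁, hz₁a, hz₁b⟩ := qsep1 (Q := resQ Q U) h.ndU (x := ⟨a, ha⟩) (w := ⟨b, hb⟩)
      (fun c hc => hind c (congrArg Subtype.val hc))
    obtain ⟨z₂, hz₂b, hz₂a⟩ := qsep1 (Q := resQ Q U) h.ndU (x := ⟨b, hb⟩) (w := ⟨a, ha⟩)
      (fun c hc => hind' c (congrArg Subtype.val hc))
    obtain ⟨e, he, heq⟩ := qexists_perp_norm2 (resQ Q U) h.ndU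
      ![⟨a, ha⟩, ⟨b, hb⟩, z₁ + z₂] (by omega) (1 - resQ Q U (z₁ + z₂))
    have hea := he 0
    have heb := he 1
    have hez := he 2
    simp only [Matrix.cons_val_zero, Matrix.cons_val_one, Matrix.cons_val_two, Matrix.tail_cons,
      Matrix.head_cons, Matrix.cons_val] at hea heb hez
    set c : U := z₁ + z₂ + e with hc
    have hcq : resQ Q U c = 1 := by
      rw [hc, qmap_add, heq, polar_comm, hez]; ring
    have hca : polar (resQ Q U) c ⟨a, ha⟩ = 1 := by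
      rw [hc, polar_add_left, polar_add_left, hz₁a, hz₂a, hea]; ring
    have hcb : polar (resQ Q U) c ⟨b, hb⟩ = 1 := by
      rw [hc, polar_add_left, polar_add_left, hz₁b, hz₂b, heb]; ring
    rw [polar_resQ] at hca hcb
    rw [resQ_apply] at hcq
    rcases hg c c.2 (by rw [hcq]; exact one_ne_zero) with h4 | h4
    · have := h.perp _ h4 _ hgb
      rw [OG_polar, hcb] at this
      exact one_ne_zero this
    · have := h.perp _ hga _ h4
      rw [OG_polar, polar_comm, hca] at this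
      exact one_ne_zero this
  -- extension from non-singular vectors
  have hext : ∀ X : Submodule F V, (∀ a ∈ U, Q a ≠ 0 → g.1 a ∈ X) → ∀ x ∈ U, g.1 x ∈ X := by
    intro X hX x hx
    by_cases hq : Q x = 0
    · obtain ⟨a, ha, haq, hax, -⟩ := h.perpU hd6 x x 1
      have h5 : g.1 (x + a) ∈ X := by
        apply hX _ (U.add_mem hx ha)
        rw [qmap_add, polar_comm, hax, haq, hq]; simp
      have h6 : g.1 a ∈ X := hX a ha (by rw [haq]; exact one_ne_zero)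
      have : g.1 x = g.1 (x + a) - g.1 a := by rw [map_add]; abel
      rw [this]
      exact X.sub_mem h5 h6
    · exact hX x hx hq
  obtain ⟨a₀, ha₀, ha₀q, -, -⟩ := h.perpU hd6 0 0 1
  have ha₀0 : Q a₀ ≠ 0 := by rw [ha₀q]; exact one_ne_zero
  rcases hg a₀ ha₀ ha₀0 with h4 | h4
  · left
    apply hext
    intro b hb hb0
    rcases hg b hb hb0 with h5 | h5
    · exact h5
    · exact (hno a₀ ha₀ b hb ha₀0 hb0 h4 h5).elim
  · right
    apply hext
    intro b hb hb0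
    rcases hg b hb hb0 with h5 | h5
    · exact (hno b hb a₀ ha₀ hb0 ha₀0 h5 h4).elim
    · exact h5

end gen

section stabmax

variable {ι : Type} [Fintype ι] [DecidableEq ι] {F : Type*} [Field F] [Fintype F]
  {Q : QuadraticForm F (ι → F)} {U U' : Submodule F (ι → F)}

/-- maximality of the stabiliser of a non-degenerate subspace, all characteristics -/
theorem OSplit.stab_maximal_gen (h : OSplit Q U U') (hQ : (polarBilin Q).Nondegenerate)
    (hd : 6 < finrank F U) (hd2 : (2 : F) = 0 → 7 < finrank F U) (hU' : U' ≠ ⊥)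
    (hno : ∀ g : OG Q, ¬ ∀ x ∈ U, g.1 x ∈ U')
    (hex : ¬ (Fintype.card F ≤ 3 ∧ finrank F U' = 2 ∧ ∃ e ∈ U', e ≠ 0 ∧ Q e = 0))
    (W : Submodule F (ι → F)) (hW : W = U ∨ W = U') :
    Cfsg.Geo.IsMaximalIn (Cfsg.Geo.omegaGL ⇑Q)
      (Cfsg.Geo.subspaceStabilizer W ⊓ Cfsg.Geo.omegaGL ⇑Q) := by
  have hstab : ∀ g : OG Q, (∀ x ∈ U, g.1 x ∈ U) → g.1 ∈ stabGrp W := by
    intro g hg
    rcases hW with rfl | rfl
    · exact (h.stab_of g hg).1
    · exact (h.stab_of g hg).2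
  have hstab' : ∀ g : OG Q, g.1 ∈ stabGrp W → ∀ x ∈ U, g.1 x ∈ U := by
    intro g hg
    rcases hW with rfl | rfl
    · intro x hx; exact (hg x).1 hx
    · have := (h.symm.stab_of g (fun x hx => (hg x).1 hx)).2
      intro x hx; exact (this x).1 hx
  refine omega_maximal_of Q (Cfsg.Geo.subspaceStabilizer W) (stabGrp W)
    (mem_subspaceStabilizer_iff W) ?_ ?_
  · obtain ⟨g, hg, x, hx, hx0, -⟩ := h.exists_moving hQ hd (h.exists_nonsing' hU')
    exact ⟨g, hg, fun hs => hx0 (hstab' g hs x hx)⟩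
  · intro M hM g hg hgS
    refine h.commutator_le_gen hQ hd hex ?_ ⟨g, hg, ?_⟩
    · intro k hk hkU
      exact hM k hk (hstab k hkU)
    · by_contra hcon
      push Not at hcon
      have hin : ∀ a ∈ U, Q a ≠ 0 → g.1 a ∈ U ∨ g.1 a ∈ U' := fun a ha ha0 => by
        by_cases h4 : g.1 a ∈ U
        · exact Or.inl h4
        · exact Or.inr (hcon a ⟨ha0, Or.inl ha⟩ h4)
      have hA : (∀ x ∈ U, g.1 x ∈ U) ∨ (∀ x ∈ U, g.1 x ∈ U') := by
        by_cases h2 : (2 : F) = 0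
        · exact h.map_U' (hd2 h2) g hin
        · exact h.map_U hd h2 g hin
      rcases hA with hA | hA
      · exact hgS (hstab g hA)
      · exact hno g hA

end stabmax

end Cfsg.Agent.Lib.Helper95
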