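import Cfsg.Agent.Lib.Helper95.OmPerp2

set_option autoImplicit false
set_option linter.unusedSimpArgs false

namespace Cfsg.Agent.Lib.Helper95

open QuadraticMap Module Cfsg.Agent.Lib.Helper49

section spans

variable {F V : Type*} [Field F] [AddCommGroup V] [Module F V]

lemma mem_span2 {a b x : V} : x ∈ Submodule.span F (Set.range ![a, b]) ↔
    ∃ α β : F, x = α • a + β • b := by
  rw [Submodule.mem_span_range_iff_exists_fun]
  constructor
  · rintro ⟨c, hc⟩
    refine ⟨c 0, c 1, ?_⟩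
    rw [← hc]; simp [Fin.sum_univ_two]
  · rintro ⟨α, β, rfl⟩
    exact ⟨![α, β], by simp [Fin.sum_univ_two]⟩

lemma mem_span3 {a b c x : V} : x ∈ Submodule.span F (Set.range ![a, b, c]) ↔
    ∃ α β γ : F, x = α • a + β • b + γ • c := by
  rw [Submodule.mem_span_range_iff_exists_fun]
  constructor
  · rintro ⟨k, hk⟩
    refine ⟨k 0, k 1, k 2, ?_⟩
    rw [← hk]; simp [Fin.sum_univ_three]
  · rintro ⟨α, β, γ, rfl⟩
    exact ⟨![α, β, γ], by simp [Fin.sum_univ_three]⟩

lemma mem_span4 {a b c d x : V} : x ∈ Submodule.span F (Set.range ![a, b, c, d]) ↔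
    ∃ α β γ δ : F, x = α • a + β • b + γ • c + δ • d := by
  rw [Submodule.mem_span_range_iff_exists_fun]
  constructor
  · rintro ⟨k, hk⟩
    refine ⟨k 0, k 1, k 2, k 3, ?_⟩
    rw [← hk]; simp [Fin.sum_univ_four]
  · rintro ⟨α, β, γ, δ, rfl⟩
    exact ⟨![α, β, γ, δ], by simp [Fin.sum_univ_four]⟩

end spans

section kstr

variable {F V : Type*} [Field F] [AddCommGroup V] [Module F V] {Q : QuadraticForm F V}
  {J : V →ₗ[F] V} {t N : F}

/-- a quadratic extension field `F[J]` acting on `V`, with `J` adjoint to its conjugate `t - J` -/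
structure KStr (Q : QuadraticForm F V) (J : V →ₗ[F] V) (t N : F) : Prop where
  J2 : ∀ x, J (J x) = t • J x - N • x
  adj : ∀ x y, polar Q (J x) y = polar Q x (t • y - J y)
  sing : ∀ x, Q x = 0 → Q (J x) = 0 ∧ polar Q x (J x) = 0
  irr : ∀ α β : F, α ^ 2 + t * α * β + N * β ^ 2 = 0 → α = 0 ∧ β = 0

lemma KStr.mem_of_J (h : KStr Q J t N) {S : Submodule F V} (hS : ∀ x ∈ S, J x ∈ S) {y : V} {γ : F}
    (hy : J y - γ • y ∈ S) : y ∈ S := by
  have hne : γ ^ 2 - t * γ + N ≠ 0 := by
    intro h0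
    have := (h.irr (-γ) 1 (by linear_combination h0)).2
    exact one_ne_zero this
  have e : (γ ^ 2 - t * γ + N) • y = (t - γ) • (J y - γ • y) - J (J y - γ • y) := by
    rw [map_sub, map_smul, h.J2]
    module
  have h1 : (γ ^ 2 - t * γ + N) • y ∈ S := by
    rw [e]; exact S.sub_mem (S.smul_mem _ hy) (hS _ hy)
  exact (S.smul_mem_iff hne).1 h1

lemma KStr.coef (h : KStr Q J t N) {S : Submodule F V} (hS : ∀ x ∈ S, J x ∈ S) {c : V}
    (hc : c ∉ S) {x y : F} (hxy : x • c + y • J c ∈ S) : x = 0 ∧ y = 0 := by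
  by_cases hy : y = 0
  · subst hy
    refine ⟨?_, rfl⟩
    by_contra hx
    rw [zero_smul, add_zero] at hxy
    exact hc ((S.smul_mem_iff hx).1 hxy)
  · exfalso
    apply hc
    apply h.mem_of_J hS (γ := -(y⁻¹ * x))
    have : J c - (-(y⁻¹ * x)) • c = y⁻¹ • (x • c + y • J c) := by
      rw [smul_add, smul_smul, smul_smul, inv_mul_cancel₀ hy]; module
    rw [this]; exact S.smul_mem _ hxy

/-- the `F[J]`-line spanned by `a` -/
def KS (J : V →ₗ[F] V) (a : V) : Submodule F V := Submodule.span F {a, J a}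

lemma mem_KS {a x : V} : x ∈ KS J a ↔ ∃ α β : F, x = α • a + β • J a := by
  rw [KS, Submodule.mem_span_pair]
  constructor <;> rintro ⟨α, β, h⟩ <;> exact ⟨α, β, h.symm⟩

lemma self_mem_KS (a : V) : a ∈ KS J a := Submodule.subset_span (by simp)

lemma KStr.KS_stable (h : KStr Q J t N) (a : V) : ∀ x ∈ KS J a, J x ∈ KS J a := by
  intro x hx
  obtain ⟨α, β, rfl⟩ := mem_KS.1 hx
  rw [mem_KS]
  refine ⟨-(β * N), α + β * t, ?_⟩
  rw [map_add, map_smul, map_smul, h.J2]; module

lemma stable_sup {S T : Submodule F V} (hS : ∀ x ∈ S, J x ∈ S) (hT : ∀ x ∈ T, J x ∈ T) :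
    ∀ x ∈ S ⊔ T, J x ∈ S ⊔ T := by
  intro x hx
  obtain ⟨s, hs, t, ht, rfl⟩ := Submodule.mem_sup.1 hx
  rw [map_add]
  exact Submodule.add_mem _ (Submodule.mem_sup_left (hS s hs)) (Submodule.mem_sup_right (hT t ht))

lemma KStr.KS_symm (h : KStr Q J t N) {a y : V} (ha : a ≠ 0) (hay : a ∈ KS J y) : y ∈ KS J a := by
  by_contra hy
  obtain ⟨α, β, e⟩ := mem_KS.1 hay
  have := h.coef (h.KS_stable a) hy (x := α) (y := β) (by rw [← e]; exact self_mem_KS a)
  rw [this.1, this.2] at e
  simp at e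
  exact ha e

lemma KStr.adj' (h : KStr Q J t N) (x y : V) : polar Q x (J y) = polar Q (t • x - J x) y := by
  rw [polar_comm, h.adj, polar_comm]

lemma KStr.polar_JJ (h : KStr Q J t N) (x y : V) : polar Q (J x) (J y) = N * polar Q x y := by
  rw [h.adj, h.J2]
  have : t • J y - (t • J y - N • y) = N • y := by abel
  rw [this, polar_smul_right, smul_eq_mul]

lemma perp_KS {f a x : V} (h1 : polar Q f a = 0) (h2 : polar Q f (J a) = 0) (hx : x ∈ KS J a) :
    polar Q f x = 0 := by
  obtain ⟨α, β, rfl⟩ := mem_KS.1 hx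
  rw [polar_add_right, polar_smul_right, polar_smul_right, h1, h2]; simp

lemma KStr.spair (h : KStr Q J t N) {u : V} (hu : Q u = 0) (β : F) : SPair Q u (β • J u) :=
  ⟨hu, by rw [QuadraticMap.map_smul, (h.sing u hu).1]; simp, by
    rw [polar_smul_right, (h.sing u hu).2]; simp⟩

lemma KStr.sg_comm (h : KStr Q J t N) {u : V} {β : F} (hs : SPair Q u (β • J u)) (x : V) :
    (sg hs).1 (J x) = J ((sg hs).1 x) := by
  rw [sg_apply, sg_apply, map_sub, map_add, map_smul, map_smul, map_smul, h.J2, polar_smul_left,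
    polar_smul_left, h.polar_JJ, h.adj' u x, polar_sub_left, polar_smul_left]
  simp only [smul_eq_mul]
  module

lemma OG_apply_inv' (g : OG Q) (z : V) : g.1 ((g⁻¹).1 z) = z := by
  have := congrArg (fun k : OG Q => k.1 z) (mul_inv_cancel g)
  simpa using this

lemma OG_inv_apply' (g : OG Q) (z : V) : (g⁻¹).1 (g.1 z) = z := by
  have := congrArg (fun k : OG Q => k.1 z) (inv_mul_cancel g)
  simpa using this

variable {M : Subgroup (OG Q)}

lemma KStr.R (h : KStr Q J t N) (hH : ∀ u, Q u = 0 → ∀ β : F, LR M u (β • J u)) {a b u : V}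
    (hab : LR M a b) (hu : Q u = 0) (h1 : polar Q u a = 0) (h2 : polar Q u (J a) = 0)
    (h3 : polar Q u b = 0) (h4 : polar Q u (J b) ≠ 0) : LR M a u := by
  refine hab.prop (hH u hu (-(polar Q u (J b))⁻¹)) h1 h3 ?_ ?_
  · rw [polar_smul_left, h.adj, polar_sub_right, polar_smul_right, h1, h2]; simp
  · rw [polar_smul_left, h.adj, polar_sub_right, polar_smul_right, h3]
    simp [h4]

lemma KStr.C1 [Fintype F] [FiniteDimensional F V] (h : KStr Q J t N)
    (hnd : (polarBilin Q).Nondegenerate) (hd : 13 < finrank F V)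
    (hH : ∀ u, Q u = 0 → ∀ β : F, LR M u (β • J u)) {a b u : V}
    (hab : LR M a b) (hu : Q u = 0) (h1 : polar Q u a = 0) (h2 : polar Q u (J a) = 0)
    (h3 : polar Q u b = 0) (hJb : J b ∉ Submodule.span F (Set.range ![a, J a, b, u])) :
    LR M a u := by
  by_cases h4 : polar Q u (J b) = 0
  · obtain ⟨y, hy, hyx, hyw⟩ := qsepS hnd ![a, J a, b, u] hJb (by omega)
    have k1 : polar Q y a = 0 := hyx 0
    have k2 : polar Q y (J a) = 0 := hyx 1
    have k3 : polar Q y b = 0 := hyx 2
    have k4 : polar Q y u = 0 := hyx 3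
    have e1 : LR M a y := h.R hH hab hy k1 k2 k3 (by rw [hyw]; exact one_ne_zero)
    have e2 : LR M a (u - y) := h.R hH hab (by rw [qmap_sub, hu, hy, polar_comm, k4]; ring)
      (by rw [polar_sub_left, h1, k1, sub_zero]) (by rw [polar_sub_left, h2, k2, sub_zero])
      (by rw [polar_sub_left, h3, k3, sub_zero]) (by rw [polar_sub_left, h4, hyw]; simp)
    have := e1.add e2 (by rw [polar_sub_right, k4, polar_self_of_Q hy, sub_zero])
    rwa [add_sub_cancel] at this
  · exact h.R hH hab hu h1 h2 h3 h4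

lemma KStr.A [Fintype F] [FiniteDimensional F V] (h : KStr Q J t N)
    (hnd : (polarBilin Q).Nondegenerate) (hd : 13 < finrank F V)
    (hH : ∀ u, Q u = 0 → ∀ β : F, LR M u (β • J u)) {a b : V}
    (hab : LR M a b) (hb : b ∉ KS J a) :
    ∀ u, Q u = 0 → polar Q u a = 0 → polar Q u (J a) = 0 → LR M a u := by
  intro u hu h1 h2
  obtain ⟨f, hfs, hfp⟩ := qperp_out Q ![a, J a, b, J b, u, J u] ![a, J a, b, u] (by omega)
  have f1 : polar Q f a = 0 := hfp 0
  have f2 : polar Q f (J a) = 0 := hfp 1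
  have f3 : polar Q f b = 0 := hfp 2
  have f4 : polar Q f (J b) = 0 := hfp 3
  have f5 : polar Q f u = 0 := hfp 4
  have f6 : polar Q f (J u) = 0 := hfp 5
  obtain ⟨y, hy, hyx, hyf⟩ := qsepS hnd ![a, J a, b, u] hfs (by omega)
  have k1 : polar Q y a = 0 := hyx 0
  have k2 : polar Q y (J a) = 0 := hyx 1
  have k3 : polar Q y b = 0 := hyx 2
  have k4 : polar Q y u = 0 := hyx 3
  have hfy : polar Q f y = 1 := by rw [polar_comm]; exact hyf
  have n1 : J b ∉ Submodule.span F (Set.range ![a, J a, b, y]) := by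
    intro hm
    obtain ⟨c0, c1, c2, c3, hc⟩ := mem_span4.1 hm
    have hc3 : c3 = 0 := by
      have := congrArg (fun v => polar Q f v) hc
      simp only [polar_add_right, polar_smul_right, f1, f2, f3, f4, hfy] at this
      simpa using this.symm
    apply hb
    apply h.mem_of_J (h.KS_stable a) (γ := c2)
    rw [hc, hc3]
    have : c0 • a + c1 • J a + c2 • b + (0 : F) • y - c2 • b = c0 • a + c1 • J a := by module
    rw [this]; exact mem_KS.2 ⟨_, _, rfl⟩
  have e1 : LR M a y := h.C1 hnd hd hH hab hy k1 k2 k3 n1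
  have n2 : J y ∉ Submodule.span F (Set.range ![a, J a, y, u]) := by
    intro hm
    obtain ⟨c0, c1, c2, c3, hc⟩ := mem_span4.1 hm
    have hyS : y ∈ KS J a ⊔ KS J u := by
      apply h.mem_of_J (stable_sup (h.KS_stable a) (h.KS_stable u)) (γ := c2)
      rw [hc]
      have : c0 • a + c1 • J a + c2 • y + c3 • u - c2 • y
          = (c0 • a + c1 • J a) + (c3 • u + (0 : F) • J u) := by module
      rw [this]
      exact Submodule.add_mem _ (Submodule.mem_sup_left (mem_KS.2 ⟨_, _, rfl⟩))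
        (Submodule.mem_sup_right (mem_KS.2 ⟨_, _, rfl⟩))
    obtain ⟨s, hs, s', hs', e⟩ := Submodule.mem_sup.1 hyS
    have : polar Q f y = 0 := by
      rw [← e, polar_add_right, perp_KS f1 f2 hs, perp_KS f5 f6 hs', add_zero]
    rw [hfy] at this
    exact one_ne_zero this
  exact h.C1 hnd hd hH e1 hu h1 h2 (by rw [polar_comm]; exact k4) n2

lemma KStr.T2all [Fintype F] [FiniteDimensional F V] (h : KStr Q J t N)
    (hnd : (polarBilin Q).Nondegenerate) (hd : 13 < finrank F V)
    (hH : ∀ u, Q u = 0 → ∀ β : F, LR M u (β • J u)) {a b : V}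
    (hab : LR M a b) (ha0 : a ≠ 0) (hb : b ∉ KS J a) :
    ∀ c u, Q c = 0 → Q u = 0 → polar Q u c = 0 → polar Q u (J c) = 0 → LR M c u := by
  intro c u hc hu h1 h2
  by_cases hc0 : c = 0
  · subst hc0; exact LR.zero_left u hu
  obtain ⟨f, hfs, hfp⟩ := qperp_out Q ![a, J a, c, J c] ![a, J a, c, J c] (by omega)
  have f1 : polar Q f a = 0 := hfp 0
  have f2 : polar Q f (J a) = 0 := hfp 1
  have f3 : polar Q f c = 0 := hfp 2
  have f4 : polar Q f (J c) = 0 := hfp 3
  obtain ⟨y, hy, hyx, hyf⟩ := qsepS hnd ![a, J a, c, J c] hfs (by omega)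
  have k1 : polar Q y a = 0 := hyx 0
  have k2 : polar Q y (J a) = 0 := hyx 1
  have k3 : polar Q y c = 0 := hyx 2
  have k4 : polar Q y (J c) = 0 := hyx 3
  have hfy : polar Q f y = 1 := by rw [polar_comm]; exact hyf
  have hya : y ∉ KS J a := fun hm => by
    rw [perp_KS f1 f2 hm] at hfy; exact zero_ne_one hfy
  have hyc : y ∉ KS J c := fun hm => by
    rw [perp_KS f3 f4 hm] at hfy; exact zero_ne_one hfy
  have e1 : LR M a y := h.A hnd hd hH hab hb y hy k1 k2
  have e2 : LR M y c := h.A hnd hd hH e1.symm (fun hm => hya (h.KS_symm ha0 hm)) c hc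
    (by rw [polar_comm]; exact k3)
    (by rw [h.adj', polar_sub_left, polar_smul_left, polar_comm Q c y, k3, polar_comm Q (J c) y, k4]
        simp)
  exact h.A hnd hd hH e2.symm hyc u hu h1 h2

lemma KStr.all [Fintype F] [FiniteDimensional F V]
    (hnd : (polarBilin Q).Nondegenerate) (hd : 13 < finrank F V)
    (T2 : ∀ c u, Q c = 0 → Q u = 0 → polar Q u c = 0 → polar Q u (J c) = 0 → LR M c u)
    {a u : V} (hs : SPair Q a u) : LR M a u := by
  obtain ⟨f, hfs, hfp⟩ := qperp_out Q ![u, J u, a] ![a, J a, u] (by omega)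
  have f1 : polar Q f u = 0 := hfp 0
  have f2 : polar Q f (J u) = 0 := hfp 1
  have f3 : polar Q f a = 0 := hfp 2
  obtain ⟨b, hb, hbx, hbf⟩ := qsepS hnd ![a, J a, u] hfs (by omega)
  have k1 : polar Q b a = 0 := hbx 0
  have k2 : polar Q b (J a) = 0 := hbx 1
  have k3 : polar Q b u = 0 := hbx 2
  have hbn : b ∉ Submodule.span F (Set.range ![u, J u, a]) := by
    intro hm
    obtain ⟨c0, c1, c2, hc⟩ := mem_span3.1 hm
    have := congrArg (fun v => polar Q f v) hc
    simp only [polar_add_right, polar_smul_right, f1, f2, f3] at this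
    rw [polar_comm, hbf] at this
    simp at this
  obtain ⟨v, hv, hvx, hvb⟩ := qsepS hnd ![u, J u, a] hbn (by omega)
  have l1 : polar Q v u = 0 := hvx 0
  have l2 : polar Q v (J u) = 0 := hvx 1
  have l3 : polar Q v a = 0 := hvx 2
  exact (T2 a b hs.qu hb k1 k2).prop (T2 u v hs.qv hv l1 l2) hs.vu (by rw [polar_comm]; exact k3)
    l3 hvb

lemma exists_sing_ne_zero [Fintype F] [FiniteDimensional F V]
    (hnd : (polarBilin Q).Nondegenerate) (hd : 13 < finrank F V) : ∃ a, Q a = 0 ∧ a ≠ 0 := by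
  obtain ⟨w, hw, -⟩ := qperp_out Q (![] : Fin 0 → V) (![] : Fin 0 → V) (by omega)
  obtain ⟨y, hy, -, hyw⟩ := qsepS hnd (![] : Fin 0 → V) hw (by omega)
  refine ⟨y, hy, ?_⟩
  rintro rfl
  simp at hyw

lemma KStr.scalar_of_forall [Fintype F] [FiniteDimensional F V] (h : KStr Q J t N)
    (hnd : (polarBilin Q).Nondegenerate) (hd : 13 < finrank F V) (T : V →ₗ[F] V)
    (hT : ∀ a, Q a = 0 → T a ∈ KS J a) : ∃ α β : F, ∀ x, T x = α • x + β • J x := by
  have s1 : ∀ (a c : V) (α β : F), Q a = 0 → Q c = 0 → a ≠ 0 → polar Q a c = 0 → c ∉ KS J a →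
      T a = α • a + β • J a → T c = α • c + β • J c := by
    intro a c α β ha hc ha0 hac hcK hTa
    obtain ⟨α', β', e1⟩ := mem_KS.1 (hT c hc)
    obtain ⟨α'', β'', e2⟩ := mem_KS.1 (hT (a + c) (by rw [qmap_add, ha, hc, hac]; ring))
    rw [map_add, hTa, e1, map_add] at e2
    have k0 : (α' - α'') • c + (β' - β'') • J c = (α'' - α) • a + (β'' - β) • J a := by
      linear_combination (norm := module) e2
    have k1 := h.coef (h.KS_stable a) hcK (x := α' - α'') (y := β' - β'')
      (by rw [k0]; exact mem_KS.2 ⟨_, _, rfl⟩)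
    rw [k1.1, k1.2, zero_smul, zero_smul, add_zero] at k0
    have k2 := h.coef (S := ⊥) (by
      intro x hx
      rw [Submodule.mem_bot] at hx
      rw [hx, map_zero]; exact Submodule.zero_mem _) (c := a) (by
      rw [Submodule.mem_bot]; exact ha0) (x := α'' - α) (y := β'' - β)
      (by rw [← k0]; exact Submodule.zero_mem _)
    have a1 : α' = α := by linear_combination k1.1 + k2.1
    have b1 : β' = β := by linear_combination k1.2 + k2.2
    rw [e1, a1, b1]
  obtain ⟨a₀, ha₀, ha₀0⟩ := exists_sing_ne_zero (Q := Q) hnd hd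
  obtain ⟨α, β, e0⟩ := mem_KS.1 (hT a₀ ha₀)
  have s2 : ∀ c, Q c = 0 → T c = α • c + β • J c := by
    intro c hc
    by_cases hc0 : c = 0
    · subst hc0; simp
    obtain ⟨f, hfs, hfp⟩ := qperp_out Q ![a₀, J a₀, c, J c] ![a₀, c] (by omega)
    have f1 : polar Q f a₀ = 0 := hfp 0
    have f2 : polar Q f (J a₀) = 0 := hfp 1
    have f3 : polar Q f c = 0 := hfp 2
    have f4 : polar Q f (J c) = 0 := hfp 3
    obtain ⟨y, hy, hyx, hyf⟩ := qsepS hnd ![a₀, c] hfs (by omega)
    have k1 : polar Q y a₀ = 0 := hyx 0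
    have k3 : polar Q y c = 0 := hyx 1
    have hfy : polar Q f y = 1 := by rw [polar_comm]; exact hyf
    have hya : y ∉ KS J a₀ := fun hm => by
      rw [perp_KS f1 f2 hm] at hfy; exact zero_ne_one hfy
    have hyc : y ∉ KS J c := fun hm => by
      rw [perp_KS f3 f4 hm] at hfy; exact zero_ne_one hfy
    have hy0 : y ≠ 0 := by
      rintro rfl
      simp at hyf
    have e1 := s1 a₀ y α β ha₀ hy ha₀0 (by rw [polar_comm]; exact k1) hya e0
    exact s1 y c α β hy hc hy0 k3 (fun hm => hyc (h.KS_symm hc0 hm)) e1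
  refine ⟨α, β, fun x => ?_⟩
  obtain ⟨e, f, he, hf, hef, hex, hfx⟩ := qexists_hyp hnd ![x] (by omega)
  have hex' : polar Q e x = 0 := hex 0
  have hfx' : polar Q f x = 0 := hfx 0
  have hs : Q (x + (e - Q x • f)) = 0 := by
    rw [qmap_add, qmap_sub, he, QuadraticMap.map_smul, hf, polar_smul_right, hef, polar_sub_right,
      polar_smul_right, polar_comm Q x e, hex', polar_comm Q x f, hfx']
    simp
  have e1 := s2 _ hs
  have e2 := s2 e he
  have e3 := s2 f hf
  simp only [map_add, map_sub, map_smul] at e1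
  rw [e2, e3] at e1
  linear_combination (norm := module) e1

/-- `g` normalises the field `F[J]` -/
def NK (J : V →ₗ[F] V) (g : OG Q) : Prop :=
  ∃ α β : F, ∀ x, g.1 (J x) = α • g.1 x + β • J (g.1 x)

lemma KStr.exists_nonK [Fintype F] [FiniteDimensional F V] (h : KStr Q J t N)
    (hnd : (polarBilin Q).Nondegenerate) (hd : 13 < finrank F V) (g : OG Q) (hg : ¬ NK J g) :
    ∃ u, Q u = 0 ∧ u ≠ 0 ∧ g.1 (J u) ∉ KS J (g.1 u) := by
  by_contra hcon
  push Not at hcon
  apply hg
  obtain ⟨α, β, hT⟩ := h.scalar_of_forall hnd hd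
    ((g.1 : V →ₗ[F] V) ∘ₗ J ∘ₗ ((g⁻¹).1 : V →ₗ[F] V)) (by
      intro a ha
      by_cases ha0 : a = 0
      · subst ha0; simp
      have h1 := hcon ((g⁻¹).1 a) (by rw [OG_apply]; exact ha) (by
        intro h0
        apply ha0
        have := congrArg g.1 h0
        rwa [OG_apply_inv', map_zero] at this)
      rw [OG_apply_inv'] at h1
      exact h1)
  refine ⟨α, β, fun x => ?_⟩
  have := hT (g.1 x)
  simp only [LinearMap.comp_apply, LinearEquiv.coe_coe] at this
  rwa [OG_inv_apply'] at this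

/-- overgroups of the normaliser of `F[J]` in `Ω` -/
theorem KStr.commutator_le [Fintype F] [FiniteDimensional F V] (h : KStr Q J t N)
    (hnd : (polarBilin Q).Nondegenerate) (hd : 13 < finrank F V)
    (hH : ∀ u, Q u = 0 → ∀ β : F, LR M u (β • J u)) {g : OG Q} (hg : g ∈ M) (hgN : ¬ NK J g) :
    commutator (OG Q) ≤ M := by
  obtain ⟨u, hu, hu0, hun⟩ := h.exists_nonK hnd hd g hgN
  have e1 : LR M (g.1 u) (g.1 (J u)) := by
    have := (hH u hu 1).conj hg
    rwa [one_smul] at this
  have ha0 : g.1 u ≠ 0 := by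
    intro h0
    apply hu0
    have := congrArg (g⁻¹).1 h0
    rwa [OG_inv_apply', map_zero] at this
  have T2 := h.T2all hnd hd hH e1 ha0 hun
  apply commutator_le_of_sg hnd (by omega)
  intro a b hs
  obtain ⟨_, hm⟩ := KStr.all hnd hd T2 hs
  exact hm

/-- some element of `Ω` does not normalise `F[J]` -/
lemma KStr.exists_not_NK [Fintype F] [FiniteDimensional F V] (h : KStr Q J t N)
    (hnd : (polarBilin Q).Nondegenerate) (hd : 13 < finrank F V) :
    ∃ g ∈ commutator (OG Q), ¬ NK J g := by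
  obtain ⟨a, ha, ha0⟩ := exists_sing_ne_zero (Q := Q) hnd hd
  -- `b` singular, orthogonal to `a`, `J a`, outside `KS a`
  obtain ⟨f, hfs, hfp⟩ := qperp_out Q ![a, J a] ![a, J a] (by omega)
  have f1 : polar Q f a = 0 := hfp 0
  have f2 : polar Q f (J a) = 0 := hfp 1
  obtain ⟨b, hb, hbx, hbf⟩ := qsepS hnd ![a, J a] hfs (by omega)
  have k1 : polar Q b a = 0 := hbx 0
  have k2 : polar Q b (J a) = 0 := hbx 1
  have hb0 : b ≠ 0 := by
    rintro rfl
    simp at hbf
  have hbK : b ∉ KS J a := fun hm => by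
    rw [polar_comm, perp_KS f1 f2 hm] at hbf; exact zero_ne_one hbf
  have haK : a ∉ KS J b := fun hm => hbK (h.KS_symm ha0 hm)
  have hs : SPair Q a b := ⟨ha, hb, by rw [polar_comm]; exact k1⟩
  -- `y` with `f(a,y) = 1`, orthogonal to `J a`, `b`, `J b`
  have hn : a ∉ Submodule.span F (Set.range ![J a, b, J b]) := by
    intro hm
    obtain ⟨c0, c1, c2, hc⟩ := mem_span3.1 hm
    have := h.coef (h.KS_stable b) haK (x := 1) (y := -c0) (by
      have : (1 : F) • a + (-c0) • J a = c1 • b + c2 • J b := by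
        linear_combination (norm := module) hc
      rw [this]; exact mem_KS.2 ⟨_, _, rfl⟩)
    exact one_ne_zero this.1
  obtain ⟨y, hyx, hya⟩ := qsep hnd ![J a, b, J b] hn
  have l1 : polar Q y (J a) = 0 := hyx 0
  have l2 : polar Q y b = 0 := hyx 1
  have l3 : polar Q y (J b) = 0 := hyx 2
  refine ⟨sg hs, sg_mem_commutator hnd (by omega) hs, ?_⟩
  rintro ⟨α, β, hN⟩
  have e := hN y
  have p1 : polar Q a (J y) = t := by
    rw [h.adj', polar_sub_left, polar_smul_left, polar_comm Q a y, hya, polar_comm Q (J a) y, l1]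
    simp
  have p2 : polar Q b (J y) = 0 := by
    rw [h.adj', polar_sub_left, polar_smul_left, polar_comm Q b y, l2, polar_comm Q (J b) y, l3]
    simp
  rw [sg_apply, sg_apply, p1, p2, polar_comm Q a y, hya, polar_comm Q b y, l2] at e
  simp only [zero_smul, sub_zero, one_smul, map_add] at e
  -- `J y + t b = α (y + b) + β (J y + J b)`
  have hyK : y ∉ KS J b := fun hm => by
    have : polar Q a y = 0 := perp_KS (by rw [polar_comm]; exact k1)
      (by rw [h.adj', polar_sub_left, polar_smul_left, polar_comm Q a b, k1, polar_comm Q (J a) b, k2]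
          simp) hm
    rw [polar_comm, hya] at this
    exact one_ne_zero this
  have c1 := h.coef (h.KS_stable b) hyK (x := -α) (y := 1 - β) (by
    have : (-α) • y + (1 - β) • J y = (α - t) • b + β • J b := by
      linear_combination (norm := module) e
    rw [this]; exact mem_KS.2 ⟨_, _, rfl⟩)
  have hα : α = 0 := by linear_combination -c1.1
  have hβ : β = 1 := by linear_combination -c1.2
  rw [hα, hβ] at e
  have c2 := h.coef (S := ⊥) (by
      intro x hx
      rw [Submodule.mem_bot] at hx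
      rw [hx, map_zero]; exact Submodule.zero_mem _) (c := b) (by
      rw [Submodule.mem_bot]; exact hb0) (x := t) (y := -1) (by
      have : t • b + (-1 : F) • J b = 0 := by linear_combination (norm := module) e
      rw [this]; exact Submodule.zero_mem _)
  have : (-1 : F) = 0 := c2.2
  simp at this

end kstr

end Cfsg.Agent.Lib.Helper95
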