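import Cfsg.Agent.Lib.Helper95.OmField
import Cfsg.Agent.Lib.Helper95.OmGlue

set_option autoImplicit false
set_option linter.unusedSimpArgs false

namespace Cfsg.Agent.Lib.Helper95

open QuadraticMap Module Matrix
open Cfsg.Agent.Lib.Helper49 hiding glEquiv glEquiv_apply

section quadk

variable {ι : Type} [Fintype ι] [DecidableEq ι] [Nonempty ι] {F : Type*} [Field F]

/-- data extracted from a quadratic field subalgebra -/
structure QuadK (K : Subalgebra F (Matrix ι ι F)) (ω : Matrix ι ι F) (t N : F) : Prop where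
  mem : ω ∈ K
  rep : ∀ k ∈ K, ∃ a b : F, k = a • 1 + b • ω
  indep : ∀ a b : F, a • (1 : Matrix ι ι F) + b • ω = 0 → a = 0 ∧ b = 0
  sq : ω * ω = t • ω - N • 1
  irr : ∀ α β : F, α ^ 2 + t * α * β + N * β ^ 2 = 0 → α = 0 ∧ β = 0

lemma quadK_of {K : Subalgebra F (Matrix ι ι F)} (hK : Cfsg.Geo.IsFieldSubalgebra 2 K)
    {ω : Matrix ι ι F} (hω : ω ∈ K) (hns : ∀ c : F, ω ≠ c • 1) : ∃ t N, QuadK K ω t N := by
  have indep : ∀ a b : F, a • (1 : Matrix ι ι F) + b • ω = 0 → a = 0 ∧ b = 0 := by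
    intro a b h
    by_cases hb : b = 0
    · subst hb
      rw [zero_smul, add_zero] at h
      exact ⟨(smul_eq_zero.1 h).resolve_right one_ne_zero, rfl⟩
    · exfalso
      apply hns (-(b⁻¹ * a))
      have : b⁻¹ • (a • (1 : Matrix ι ι F) + b • ω) = 0 := by rw [h, smul_zero]
      rw [smul_add, smul_smul, smul_smul, inv_mul_cancel₀ hb, one_smul] at this
      rw [neg_smul]
      exact eq_neg_of_add_eq_zero_right this
  have rep : ∀ k ∈ K, ∃ a b : F, k = a • 1 + b • ω := by
    have hli : LinearIndependent F ![(1 : K), ⟨ω, hω⟩] := by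
      rw [LinearIndependent.pair_iff]
      intro s t h
      have := congrArg (Subtype.val) h
      simp only [Subalgebra.coe_add, Subalgebra.coe_smul, Subalgebra.coe_one,
        Subalgebra.coe_zero] at this
      exact indep s t this
    have hfd : FiniteDimensional F K := FiniteDimensional.of_finrank_pos (by
      rw [hK.finrank_eq]; norm_num)
    have htop := hli.span_eq_top_of_card_eq_finrank' (by rw [hK.finrank_eq]; simp)
    intro k hk
    have hm : (⟨k, hk⟩ : K) ∈ Submodule.span F (Set.range ![(1 : K), ⟨ω, hω⟩]) := by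
      rw [htop]; trivial
    obtain ⟨a, b, e⟩ := mem_span2.1 hm
    refine ⟨a, b, ?_⟩
    have := congrArg (Subtype.val) e
    simpa using this
  obtain ⟨a, b, hsq⟩ := rep (ω * ω) (K.mul_mem hω hω)
  refine ⟨b, -a, hω, rep, indep, by rw [hsq]; module, ?_⟩
  intro α β h
  have hprod : (α • (1 : Matrix ι ι F) + β • ω) * ((α + β * b) • (1 : Matrix ι ι F) - β • ω) = 0 := by
    have : (α • (1 : Matrix ι ι F) + β • ω) * ((α + β * b) • (1 : Matrix ι ι F) - β • ω)
        = (α * (α + β * b)) • (1 : Matrix ι ι F) + (β * (α + β * b) - α * β) • ω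
          - (β * β) • (ω * ω) := by
      simp only [add_mul, mul_sub, smul_mul_assoc, mul_smul_comm, one_mul, mul_one, smul_smul]
      module
    rw [this, hsq]
    have : (α * (α + β * b)) • (1 : Matrix ι ι F) + (β * (α + β * b) - α * β) • ω
          - (β * β) • (a • (1 : Matrix ι ι F) + b • ω)
        = (α ^ 2 + b * α * β + -a * β ^ 2) • (1 : Matrix ι ι F) := by module
    rw [this, h, zero_smul]
  by_cases hk0 : α • (1 : Matrix ι ι F) + β • ω = 0
  · exact indep α β hk0
  · have hkK : α • (1 : Matrix ι ι F) + β • ω ∈ K :=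
      K.add_mem (K.smul_mem K.one_mem _) (K.smul_mem hω _)
    obtain ⟨y, hy, hky⟩ := hK.inv _ hkK hk0
    have hyk : y * (α • (1 : Matrix ι ι F) + β • ω) = 1 := by rw [hK.comm y hy _ hkK]; exact hky
    have h0 : (α + β * b) • (1 : Matrix ι ι F) - β • ω = 0 := by
      have := congrArg (fun z => y * z) hprod
      simp only [← mul_assoc, hyk, one_mul, mul_zero] at this
      exact this
    have := indep (α + β * b) (-β) (by rw [neg_smul, ← sub_eq_add_neg]; exact h0)
    have hβ : β = 0 := by linear_combination -this.2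
    refine ⟨?_, hβ⟩
    have h1 := this.1
    rw [hβ] at h1
    simpa using h1

omit [Nonempty ι] in
lemma matrix_eq_of_mulVec {A B : Matrix ι ι F} (h : ∀ v, A *ᵥ v = B *ᵥ v) : A = B := by
  apply Matrix.toLin'.injective
  apply LinearMap.ext
  intro v
  rw [Matrix.toLin'_apply, Matrix.toLin'_apply, h]

omit [Nonempty ι] in
lemma kstr_of {K : Subalgebra F (Matrix ι ι F)} (hK : Cfsg.Geo.IsFieldSubalgebra 2 K)
    (Q : QuadraticForm F (ι → F)) (hnd : (polarBilin Q).Nondegenerate)
    (hac : ∀ k ∈ K, ∃ k' ∈ K, ∀ u v : ι → F, polar Q (k *ᵥ u) v = polar Q u (k' *ᵥ v))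
    (hsc : ∀ k ∈ K, ∃ c : F, ∀ v : ι → F, Q (k *ᵥ v) = c * Q v)
    {ω : Matrix ι ι F} {t N : F} (hq : QuadK K ω t N)
    (hnsa : ¬ ∀ u v : ι → F, polar Q (ω *ᵥ u) v = polar Q u (ω *ᵥ v)) :
    KStr Q (Matrix.mulVecLin ω) t N := by
  have J2 : ∀ x, ω *ᵥ (ω *ᵥ x) = t • (ω *ᵥ x) - N • x := by
    intro x
    rw [Matrix.mulVec_mulVec, hq.sq, Matrix.sub_mulVec, Matrix.smul_mulVec, Matrix.smul_mulVec,
      Matrix.one_mulVec]
  obtain ⟨ω', hω', hadj⟩ := hac ω hq.mem
  have hsq' : ω' * ω' = t • ω' - N • 1 := by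
    apply matrix_eq_of_mulVec
    intro v
    rw [← sub_eq_zero]
    apply hnd.2
    intro u
    change polar Q u _ = 0
    rw [polar_sub_right, ← Matrix.mulVec_mulVec, ← hadj, ← hadj, J2, Matrix.sub_mulVec,
      Matrix.smul_mulVec, Matrix.smul_mulVec, Matrix.one_mulVec, polar_sub_left, polar_sub_right,
      polar_smul_left, polar_smul_left, polar_smul_right, polar_smul_right, hadj]
    ring
  have hcomm : ω' * ω = ω * ω' := hK.comm _ hω' _ hq.mem
  have hprod : (ω' - ω) * (ω' - (t • 1 - ω)) = 0 := by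
    have : (ω' - ω) * (ω' - (t • 1 - ω))
        = ω' * ω' - t • ω' + (ω' * ω - ω * ω') + t • ω - ω * ω := by
      simp only [sub_mul, mul_sub, smul_mul_assoc, mul_smul_comm, one_mul, mul_one, smul_sub]
      abel
    rw [this, hsq', hq.sq, hcomm]
    abel
  have hω'eq : ω' = t • 1 - ω := by
    by_cases h0 : ω' - ω = 0
    · exfalso
      apply hnsa
      intro u v
      rw [hadj, sub_eq_zero.1 h0]
    · have hm : ω' - ω ∈ K := K.sub_mem hω' hq.mem
      obtain ⟨y, hy, hky⟩ := hK.inv _ hm h0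
      have hyk : y * (ω' - ω) = 1 := by rw [hK.comm y hy _ hm]; exact hky
      have := congrArg (fun z => y * z) hprod
      simp only [← mul_assoc, hyk, one_mul, mul_zero] at this
      exact sub_eq_zero.1 this
  refine ⟨fun x => by simpa using J2 x, fun x y => ?_, fun x hx => ?_, hq.irr⟩
  · rw [Matrix.mulVecLin_apply, Matrix.mulVecLin_apply, hadj, hω'eq, Matrix.sub_mulVec,
      Matrix.smul_mulVec, Matrix.one_mulVec]
  · obtain ⟨c, hc⟩ := hsc ω hq.mem
    obtain ⟨c', hc'⟩ := hsc (1 + ω) (K.add_mem K.one_mem hq.mem)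
    have h1 : Q (ω *ᵥ x) = 0 := by rw [hc, hx, mul_zero]
    have h2 : Q (x + ω *ᵥ x) = 0 := by
      have := hc' x
      rwa [Matrix.add_mulVec, Matrix.one_mulVec, hx, mul_zero] at this
    rw [Matrix.mulVecLin_apply]
    refine ⟨h1, ?_⟩
    rw [qmap_add, hx, h1] at h2
    simpa using h2

lemma mem_normalizer_iff {K : Subalgebra F (Matrix ι ι F)} {ω : Matrix ι ι F} {t N : F}
    (hq : QuadK K ω t N) (Q : QuadraticForm F (ι → F)) (g : OG Q) :
    g.1 ∈ toLinGrp (Cfsg.Geo.subalgebraNormalizer K) ↔ NK (Matrix.mulVecLin ω) g := by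
  rw [mem_toLinGrp]
  set G : Matrix.GeneralLinearGroup ι F := glEquiv.symm g.1 with hG
  have hGv : ∀ x, (G : Matrix ι ι F) *ᵥ x = g.1 x := fun x => glEquiv_symm_mulVec g.1 x
  set A : Matrix ι ι F := (G : Matrix ι ι F) with hA
  set B : Matrix ι ι F := ((G⁻¹ : Matrix.GeneralLinearGroup ι F) : Matrix ι ι F) with hB
  have hAB : A * B = 1 := Units.mul_inv G
  have hBA : B * A = 1 := Units.inv_mul G
  change (∀ k : Matrix ι ι F, k ∈ K ↔ A * k * B ∈ K) ↔ _
  constructor
  · intro h
    obtain ⟨a, b, e⟩ := hq.rep _ ((h ω).1 hq.mem)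
    refine ⟨a, b, fun x => ?_⟩
    have e2 : A * ω = (a • 1 + b • ω) * A := by
      rw [← e, mul_assoc, hBA, mul_one]
    rw [Matrix.mulVecLin_apply, Matrix.mulVecLin_apply, ← hGv, ← hGv, Matrix.mulVec_mulVec, e2,
      ← Matrix.mulVec_mulVec, Matrix.add_mulVec, Matrix.smul_mulVec, Matrix.smul_mulVec,
      Matrix.one_mulVec]
  · rintro ⟨α, β, h⟩
    have key : A * ω = (α • 1 + β • ω) * A := by
      apply matrix_eq_of_mulVec
      intro v
      have := h v
      rw [Matrix.mulVecLin_apply, Matrix.mulVecLin_apply, ← hGv, ← hGv] at this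
      rw [← Matrix.mulVec_mulVec, this, ← Matrix.mulVec_mulVec, Matrix.add_mulVec,
        Matrix.smul_mulVec, Matrix.smul_mulVec, Matrix.one_mulVec]
    have key2 : A * ω * B = α • 1 + β • ω := by rw [key, mul_assoc, hAB, mul_one]
    have hβ : β ≠ 0 := by
      rintro rfl
      rw [zero_smul, add_zero] at key2
      have : ω = α • 1 := by
        have e : B * (A * ω * B) * A = ω := by
          rw [mul_assoc A, ← mul_assoc B, hBA, one_mul, mul_assoc, hBA, mul_one]
        rw [← e, key2, mul_smul_comm, mul_one, smul_mul_assoc, hBA]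
      have := hq.indep α (-1) (by rw [this]; module)
      have h1 : (-1 : F) = 0 := this.2
      simp at h1
    have key3 : B * ω * A = β⁻¹ • (ω - α • 1) := by
      have e : B * (A * ω * B) * A = ω := by
        rw [mul_assoc A, ← mul_assoc B, hBA, one_mul, mul_assoc, hBA, mul_one]
      rw [key2, mul_add, add_mul, mul_smul_comm, mul_smul_comm, mul_one, smul_mul_assoc,
        smul_mul_assoc, hBA] at e
      have e3 : ω - α • 1 = β • (B * ω * A) := by
        rw [sub_eq_iff_eq_add, add_comm]; exact e.symm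
      rw [e3, smul_smul, inv_mul_cancel₀ hβ, one_smul]
    intro k
    constructor
    · intro hk
      obtain ⟨a, b, rfl⟩ := hq.rep k hk
      have : A * (a • 1 + b • ω) * B = a • 1 + b • (α • 1 + β • ω) := by
        rw [mul_add, add_mul, mul_smul_comm, mul_smul_comm, mul_one, smul_mul_assoc,
          smul_mul_assoc, hAB, key2]
      rw [this]
      exact K.add_mem (K.smul_mem K.one_mem _)
        (K.smul_mem (K.add_mem (K.smul_mem K.one_mem _) (K.smul_mem hq.mem _)) _)
    · intro hk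
      obtain ⟨a, b, e⟩ := hq.rep _ hk
      have e2 : k = B * (A * k * B) * A := by
        rw [mul_assoc A, ← mul_assoc B, hBA, one_mul, mul_assoc, hBA, mul_one]
      rw [e2, e, mul_add, add_mul, mul_smul_comm, mul_smul_comm, mul_one, smul_mul_assoc,
        smul_mul_assoc, hBA, key3]
      exact K.add_mem (K.smul_mem K.one_mem _)
        (K.smul_mem (K.smul_mem (K.sub_mem hq.mem (K.smul_mem K.one_mem _)) _) _)

end quadk

end Cfsg.Agent.Lib.Helper95
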