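import Cfsg.Agent.Lib.Helper95.OmGlue

set_option autoImplicit false
set_option linter.unusedSimpArgs false

namespace Cfsg.Agent.Lib.Helper95

open QuadraticMap Module
open Cfsg.Agent.Lib.Helper49 hiding glEquiv glEquiv_apply

section escape2

variable {F V : Type*} [Field F] [Fintype F] [AddCommGroup V] [Module F V] [FiniteDimensional F V]
  {Q : QuadraticForm F V} {U U' : Submodule F V}

omit [Fintype F] [FiniteDimensional F V] in
lemma OSplit.refl_stab (h : OSplit Q U U') {a : V} (ha : a ∈ U ∨ a ∈ U') {x : V} (hx : x ∈ U) :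
    reflLin Q a x ∈ U := by
  rcases ha with ha | ha
  · rw [reflLin_apply]; exact U.sub_mem hx (U.smul_mem _ ha)
  · rw [reflLin_of_polar_eq_zero Q a x (by rw [polar_comm]; exact h.perp x hx a ha)]; exact hx

omit [Fintype F] in
lemma OSplit.no_collapse (h : OSplit Q U U') (g : OG Q) (h1 : ∀ x ∈ U, g.1 x ∈ U)
    (h2 : ∀ x ∈ U', g.1 x ∈ U) : ∀ x ∈ U', x = 0 := by
  intro x hx
  have hmap : U.map (g.1 : V →ₗ[F] V) = U := map_eq_of_forall g.1 h1 rfl
  have h3 : (⟨g.1 x, h2 x hx⟩ : U) = 0 := by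
    apply h.ndU.1
    intro y
    change polar (resQ Q U) _ y = 0
    rw [polar_resQ]
    have hy : (y : V) ∈ U.map (g.1 : V →ₗ[F] V) := by rw [hmap]; exact y.2
    obtain ⟨y', hy', hyy⟩ := hy
    rw [← hyy]
    change polar Q (g.1 x) (g.1 y') = 0
    rw [OG_polar, polar_comm]
    exact h.perp y' hy' x hx
  have h4 : g.1 x = 0 := congrArg Subtype.val h3
  exact (LinearEquiv.map_eq_zero_iff g.1).1 h4

lemma OSplit.escape_pair (h : OSplit Q U U') (hd : 6 < finrank F U) (hd' : 6 < finrank F U')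
    (h2 : (2 : F) ≠ 0) (g : OG Q)
    (hg : ¬ ((∀ x ∈ U, g.1 x ∈ U) ∧ (∀ x ∈ U', g.1 x ∈ U')))
    (hg' : ¬ ((∀ x ∈ U, g.1 x ∈ U') ∧ (∀ x ∈ U', g.1 x ∈ U))) :
    ∃ a, SS Q U U' a ∧ g.1 a ∉ U ∧ g.1 a ∉ U' := by
  by_contra hcon
  push Not at hcon
  have hA := h.map_U hd h2 g (fun a ha ha0 => by
    by_cases h4 : g.1 a ∈ U
    · exact Or.inl h4
    · exact Or.inr (hcon a ⟨ha0, Or.inl ha⟩ h4))
  have hB := h.symm.map_U hd' h2 g (fun a ha ha0 => by
    by_cases h4 : g.1 a ∈ U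
    · exact Or.inr h4
    · exact Or.inl (hcon a ⟨ha0, Or.inr ha⟩ h4))
  obtain ⟨u, hu, hu0⟩ := OSplit.exists_ne_zero (F := F) (U := U) hd
  obtain ⟨u', hu', hu'0⟩ := OSplit.exists_ne_zero (F := F) (U := U') hd'
  rcases hA with hA | hA <;> rcases hB with hB | hB
  · exact hg ⟨hA, hB⟩
  · exact hu'0 (h.no_collapse g hA hB u' hu')
  · exact hu0 (h.symm.no_collapse g hB hA u hu)
  · exact hg' ⟨hA, hB⟩

end escape2

end Cfsg.Agent.Lib.Helper95
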