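import Cfsg.Agent.Lib.Helper95.OmSiegGen
import Cfsg.Agent.Lib.Helper49.Lagr
import Cfsg.Agent.Lib.Helper49.WittUse

set_option autoImplicit false
set_option linter.unusedSimpArgs false

namespace Cfsg.Agent.Lib.Helper95

open QuadraticMap Module Cfsg.Agent.Lib.Helper49

section lagr

variable {F V : Type*} [Field F] [AddCommGroup V] [Module F V] {Q : QuadraticForm F V}
  {D0 D1 : Submodule F V}

/-- a decomposition into two totally singular subspaces -/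
structure LSplit (Q : QuadraticForm F V) (D0 D1 : Submodule F V) : Prop where
  ts0 : ∀ x ∈ D0, Q x = 0
  ts1 : ∀ x ∈ D1, Q x = 0
  sup : ∀ x : V, ∃ x0 ∈ D0, ∃ x1 ∈ D1, x = x0 + x1
  nd : (polarBilin Q).Nondegenerate

lemma LSplit.symm (h : LSplit Q D0 D1) : LSplit Q D1 D0 where
  ts0 := h.ts1
  ts1 := h.ts0
  sup x := by
    obtain ⟨x0, h0, x1, h1, rfl⟩ := h.sup x
    exact ⟨x1, h1, x0, h0, add_comm _ _⟩
  nd := h.nd

lemma LSplit.p00 (h : LSplit Q D0 D1) {x y : V} (hx : x ∈ D0) (hy : y ∈ D0) : polar Q x y = 0 :=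
  polar_eq_zero_of_singular h.ts0 hx hy

lemma LSplit.p11 (h : LSplit Q D0 D1) {x y : V} (hx : x ∈ D1) (hy : y ∈ D1) : polar Q x y = 0 :=
  polar_eq_zero_of_singular h.ts1 hx hy

lemma LSplit.sep (h : LSplit Q D0 D1) {m : ℕ} (x : Fin m → V) (hx : ∀ i, x i ∈ D0) {w : V}
    (hw : w ∈ D0) (hws : w ∉ Submodule.span F (Set.range x)) :
    ∃ z ∈ D1, (∀ i, polar Q z (x i) = 0) ∧ polar Q z w = 1 := by
  obtain ⟨z, h1, h2⟩ := qsep h.nd x hws
  obtain ⟨z0, hz0, z1, hz1, rfl⟩ := h.sup z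
  refine ⟨z1, hz1, fun i => ?_, ?_⟩
  · have := h1 i
    rwa [polar_add_left, h.p00 hz0 (hx i), zero_add] at this
  · rwa [polar_add_left, h.p00 hz0 hw, zero_add] at h2

lemma LSplit.sep0 (h : LSplit Q D0 D1) {w : V} (hw : w ∈ D0) (hw0 : w ≠ 0) :
    ∃ z ∈ D1, polar Q z w = 1 := by
  obtain ⟨z, hz, -, h2⟩ := h.sep (![] : Fin 0 → V) (fun i => i.elim0) hw (by
    intro hm
    obtain ⟨c, hc⟩ := (Submodule.mem_span_range_iff_exists_fun F).1 hm
    simp at hc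
    exact hw0 hc.symm)
  exact ⟨z, hz, h2⟩

lemma LSplit.sep1 (h : LSplit Q D0 D1) {x w : V} (hx : x ∈ D0) (hw : w ∈ D0)
    (hi : ∀ c : F, w ≠ c • x) : ∃ z ∈ D1, polar Q z x = 0 ∧ polar Q z w = 1 := by
  obtain ⟨z, hz, h1, h2⟩ := h.sep ![x] (fun i => by fin_cases i; exact hx) hw (by
    intro hm
    obtain ⟨c, hc⟩ := (Submodule.mem_span_range_iff_exists_fun F).1 hm
    simp only [Fin.sum_univ_one, Matrix.cons_val_zero, Fin.isValue] at hc
    exact hi (c 0) hc.symm)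
  exact ⟨z, hz, h1 0, h2⟩

lemma LSplit.sep2 (h : LSplit Q D0 D1) {x y w : V} (hx : x ∈ D0) (hy : y ∈ D0) (hw : w ∈ D0)
    (hi : ∀ c d : F, w ≠ c • x + d • y) :
    ∃ z ∈ D1, polar Q z x = 0 ∧ polar Q z y = 0 ∧ polar Q z w = 1 := by
  obtain ⟨z, hz, h1, h2⟩ := h.sep ![x, y] (fun i => by fin_cases i; exacts [hx, hy]) hw (by
    intro hm
    obtain ⟨c, hc⟩ := (Submodule.mem_span_range_iff_exists_fun F).1 hm
    simp only [Fin.sum_univ_two, Matrix.cons_val_zero, Matrix.cons_val_one, Fin.isValue] at hc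
    exact hi (c 0) (c 1) hc.symm)
  exact ⟨z, hz, h1 0, h1 1, h2⟩

/-- vectors of a subspace orthogonal to `m` vectors and outside the span of `j` vectors -/
lemma perpD [FiniteDimensional F V] (Q : QuadraticForm F V) (D : Submodule F V) {m j : ℕ}
    (y : Fin m → V) (x : Fin j → V) (hmj : m + j < finrank F D) :
    ∃ u ∈ D, u ∉ Submodule.span F (Set.range x) ∧ ∀ i, polar Q u (y i) = 0 := by
  let L : D →ₗ[F] (Fin m → F) :=
    LinearMap.pi (fun i => ((polarBilin Q).flip (y i)).comp D.subtype)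
  have h3 := LinearMap.finrank_range_add_finrank_ker L
  have h4 : finrank F (LinearMap.range L) ≤ m := by
    simpa using Submodule.finrank_le (LinearMap.range L)
  have h5 : finrank F ((LinearMap.ker L).map D.subtype) = finrank F (LinearMap.ker L) :=
    Submodule.finrank_map_subtype_eq D (LinearMap.ker L)
  have h6 : ¬ ((LinearMap.ker L).map D.subtype ≤ Submodule.span F (Set.range x)) := by
    intro hle
    have h7 := Submodule.finrank_mono hle
    have h8 := finrank_range_le_card (R := F) x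
    rw [Fintype.card_fin] at h8
    have h9 : finrank F (Submodule.span F (Set.range x)) ≤ j := h8
    omega
  obtain ⟨u, hu, hus⟩ := SetLike.not_le_iff_exists.1 h6
  obtain ⟨u', hu', rfl⟩ := hu
  refine ⟨u', u'.2, hus, fun i => ?_⟩
  have := congrFun (LinearMap.mem_ker.1 hu') i
  simpa [L] using this

lemma perpD0 [FiniteDimensional F V] (Q : QuadraticForm F V) (D : Submodule F V) {m : ℕ}
    (y : Fin m → V) (hm : m < finrank F D) :
    ∃ u ∈ D, u ≠ 0 ∧ ∀ i, polar Q u (y i) = 0 := by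
  obtain ⟨u, hu, h1, h2⟩ := perpD Q D y (![] : Fin 0 → V) (by omega)
  refine ⟨u, hu, ?_, h2⟩
  rintro rfl
  exact h1 (Submodule.zero_mem _)

lemma perpD1 [FiniteDimensional F V] (Q : QuadraticForm F V) (D : Submodule F V) {m : ℕ}
    (y : Fin m → V) (x : V) (hm : m + 1 < finrank F D) :
    ∃ u ∈ D, (∀ c : F, u ≠ c • x) ∧ ∀ i, polar Q u (y i) = 0 := by
  obtain ⟨u, hu, h1, h2⟩ := perpD Q D y ![x] hm
  refine ⟨u, hu, ?_, h2⟩
  rintro c rfl
  exact h1 (Submodule.smul_mem _ _ (Submodule.subset_span ⟨0, rfl⟩))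

lemma perpD2 [FiniteDimensional F V] (Q : QuadraticForm F V) (D : Submodule F V) {m : ℕ}
    (y : Fin m → V) (x x' : V) (hm : m + 2 < finrank F D) :
    ∃ u ∈ D, (∀ c d : F, u ≠ c • x + d • x') ∧ ∀ i, polar Q u (y i) = 0 := by
  obtain ⟨u, hu, h1, h2⟩ := perpD Q D y ![x, x'] hm
  refine ⟨u, hu, ?_, h2⟩
  rintro c d rfl
  exact h1 (Submodule.add_mem _ (Submodule.smul_mem _ _ (Submodule.subset_span ⟨0, rfl⟩))
    (Submodule.smul_mem _ _ (Submodule.subset_span ⟨1, rfl⟩)))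

lemma perpD3 [FiniteDimensional F V] (Q : QuadraticForm F V) (D : Submodule F V) {m : ℕ}
    (y : Fin m → V) (x x' x'' : V) (hm : m + 3 < finrank F D) :
    ∃ u ∈ D, (∀ c d e : F, u ≠ c • x + d • x' + e • x'') ∧ ∀ i, polar Q u (y i) = 0 := by
  obtain ⟨u, hu, h1, h2⟩ := perpD Q D y ![x, x', x''] hm
  refine ⟨u, hu, ?_, h2⟩
  rintro c d e rfl
  exact h1 (Submodule.add_mem _ (Submodule.add_mem _
    (Submodule.smul_mem _ _ (Submodule.subset_span ⟨0, rfl⟩))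
    (Submodule.smul_mem _ _ (Submodule.subset_span ⟨1, rfl⟩)))
    (Submodule.smul_mem _ _ (Submodule.subset_span ⟨2, rfl⟩)))

variable {M : Subgroup (OG Q)}

/-- the long root elements of the Levi factor lie in `M` -/
def HH (M : Subgroup (OG Q)) (D0 D1 : Submodule F V) : Prop :=
  ∀ u ∈ D0, ∀ v ∈ D1, polar Q u v = 0 → LR M u v

lemma HH.symm (h : HH M D0 D1) : HH M D1 D0 := fun u hu v hv huv =>
  (h v hv u hu (by rw [polar_comm]; exact huv)).symm

lemma LSplit.P1 (h : LSplit Q D0 D1) (hH : HH M D0 D1) {x y u : V} (hx : x ∈ D0) (hy : y ∈ D0)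
    (hu : u ∈ D0) (hxy : LR M x y) (hind : ∀ c d : F, y ≠ c • x + d • u) : LR M x u := by
  obtain ⟨v, hv, hvx, hvu, hvy⟩ := h.sep2 hx hu hy hind
  exact hxy.prop (hH u hu v hv (by rw [polar_comm]; exact hvu)) (h.p00 hu hx) (h.p00 hu hy) hvx hvy

lemma LSplit.P [FiniteDimensional F V] (h : LSplit Q D0 D1) (hH : HH M D0 D1)
    (hd : 3 < finrank F D0) {x y : V} (hx : x ∈ D0) (hy : y ∈ D0) (hxy : LR M x y)
    (hind : ∀ c : F, y ≠ c • x) : ∀ u' ∈ D0, LR M x u' := by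
  intro u' hu'
  obtain ⟨u, hu, hu3, -⟩ := perpD3 Q D0 (![] : Fin 0 → V) x y u' (by omega)
  have h1 : LR M x u := h.P1 hH hx hy hu hxy (by
    intro c d e
    by_cases hd0 : d = 0
    · subst hd0
      rw [zero_smul, add_zero] at e
      exact hind c e
    · apply hu3 (-(d⁻¹ * c)) d⁻¹ 0
      have e2 : d⁻¹ • y = (d⁻¹ * c) • x + u := by
        rw [e, smul_add, smul_smul, smul_smul, inv_mul_cancel₀ hd0, one_smul]
      rw [e2]
      module)
  exact h.P1 hH hx hu hu' h1 (by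
    intro c d e
    exact hu3 c 0 d (by rw [e]; simp))

lemma LSplit.all [FiniteDimensional F V] (h : LSplit Q D0 D1) (hH : HH M D0 D1)
    (hd : 3 < finrank F D0) {x y : V} (hx : x ∈ D0) (hy : y ∈ D0) (hx0 : x ≠ 0) (hxy : LR M x y)
    (hind : ∀ c : F, y ≠ c • x) : ∀ x' ∈ D0, ∀ y' ∈ D0, LR M x' y' := by
  intro x' hx' y' hy'
  obtain ⟨x'', hx'', hi, -⟩ := perpD2 Q D0 (![] : Fin 0 → V) x x' (by omega)
  have h1 : LR M x x'' := h.P hH hd hx hy hxy hind x'' hx''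
  have h2 : ∀ u ∈ D0, LR M x'' u := h.P hH hd hx'' hx h1.symm (by
    intro c e
    by_cases hc : c = 0
    · subst hc
      rw [zero_smul] at e
      exact hx0 e
    · apply hi c⁻¹ 0
      rw [e, smul_smul, inv_mul_cancel₀ hc]
      simp)
  have h3 : LR M x' x'' := (h2 x' hx').symm
  exact h.P hH hd hx' hx'' h3 (fun c e => hi 0 c (by rw [e]; simp)) y' hy'

lemma LSplit.B1 [FiniteDimensional F V] (h : LSplit Q D0 D1) (hH : HH M D0 D1)
    (hd : 4 < finrank F D0) {a0 a1 b0 b1 : V} (ha0 : a0 ∈ D0) (ha1 : a1 ∈ D1) (hb0 : b0 ∈ D0)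
    (hb1 : b1 ∈ D1) (hab : LR M (a0 + a1) (b0 + b1)) (ha00 : a0 ≠ 0) (hind : ∀ c : F, b0 ≠ c • a0) :
    ∀ x ∈ D0, ∀ y ∈ D0, LR M x y := by
  obtain ⟨v', hv', hv'a, hv'b⟩ := h.sep1 ha0 hb0 hind
  obtain ⟨v'', hv'', hv''a⟩ := h.sep0 ha0 ha00
  obtain ⟨u', hu', hu'0, hu'p⟩ := perpD0 Q D0 ![a1, b1, v', v''] hd
  have k1 : polar Q u' a1 = 0 := hu'p 0
  have k2 : polar Q u' b1 = 0 := hu'p 1
  have k3 : polar Q u' v' = 0 := hu'p 2
  have k4 : polar Q u' v'' = 0 := hu'p 3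
  have e1 : LR M (a0 + a1) u' := hab.prop (hH u' hu' v' hv' k3)
    (by rw [polar_add_right, h.p00 hu' ha0, k1, add_zero])
    (by rw [polar_add_right, h.p00 hu' hb0, k2, add_zero])
    (by rw [polar_add_right, hv'a, h.p11 hv' ha1, add_zero])
    (by rw [polar_add_right, hv'b, h.p11 hv' hb1, add_zero])
  obtain ⟨u'', hu'', hu''i, hu''p⟩ := perpD1 Q D0 ![a1, v''] u' (by omega)
  have k5 : polar Q u'' a1 = 0 := hu''p 0
  have k6 : polar Q u'' v'' = 0 := hu''p 1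
  have e2 : LR M u' u'' := e1.symm.prop (hH u'' hu'' v'' hv'' k6) (h.p00 hu'' hu')
    (by rw [polar_add_right, h.p00 hu'' ha0, k5, add_zero])
    (by rw [polar_comm]; exact k4)
    (by rw [polar_add_right, hv''a, h.p11 hv'' ha1, add_zero])
  exact h.all hH (by omega) hu' hu'' hu'0 e2 hu''i

lemma LSplit.C (h : LSplit Q D0 D1) (hH : HH M D0 D1) (hall : ∀ x ∈ D0, ∀ y ∈ D0, LR M x y)
    {u a : V} (hu : u ∈ D0) (ha : Q a = 0) (hua : polar Q u a = 0) : LR M u a := by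
  obtain ⟨a0, ha0, a1, ha1, rfl⟩ := h.sup a
  have h01 : polar Q a0 a1 = 0 := by
    rw [qmap_add, h.ts0 a0 ha0, h.ts1 a1 ha1] at ha
    simpa using ha
  have hu1 : polar Q u a1 = 0 := by
    rw [polar_add_right, h.p00 hu ha0, zero_add] at hua
    exact hua
  exact (hall u hu a0 ha0).add (hH u hu a1 ha1 hu1) h01

lemma LSplit.D [FiniteDimensional F V] (h : LSplit Q D0 D1) (hH : HH M D0 D1)
    (hd : 4 < finrank F D0) (hall0 : ∀ x ∈ D0, ∀ y ∈ D0, LR M x y)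
    (hall1 : ∀ x ∈ D1, ∀ y ∈ D1, LR M x y) {a b : V} (hs : SPair Q a b) : LR M a b := by
  obtain ⟨a0, ha0, a1, ha1, ha⟩ := h.sup a
  obtain ⟨b0, hb0, b1, hb1, hb⟩ := h.sup b
  obtain ⟨r, hr, hri, hrp⟩ := perpD2 Q D0 ![a1, b1] a0 b0 (by omega)
  have k1 : polar Q r a1 = 0 := hrp 0
  have k2 : polar Q r b1 = 0 := hrp 1
  obtain ⟨r', hr', hr'a, hr'b, hr'r⟩ := h.sep2 ha0 hb0 hr hri
  have c1 : polar Q r a = 0 := by rw [ha, polar_add_right, h.p00 hr ha0, k1, add_zero]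
  have c2 : polar Q r b = 0 := by rw [hb, polar_add_right, h.p00 hr hb0, k2, add_zero]
  have c3 : polar Q r' a = 0 := by rw [ha, polar_add_right, hr'a, h.p11 hr' ha1, add_zero]
  have c4 : polar Q r' b = 0 := by rw [hb, polar_add_right, hr'b, h.p11 hr' hb1, add_zero]
  have e1 : LR M a r := (h.C hH hall0 hr hs.qu c1).symm
  have e2 : LR M b r' := (h.symm.C hH.symm hall1 hr' hs.qv c4).symm
  exact e1.prop e2 hs.vu (by rw [polar_comm]; exact c2) c3 hr'r

lemma OG_apply_inv (g : OG Q) (z : V) : g.1 ((g⁻¹).1 z) = z := by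
  have := congrArg (fun k : OG Q => k.1 z) (mul_inv_cancel g)
  simpa using this

lemma OG_inv_apply (g : OG Q) (z : V) : (g⁻¹).1 (g.1 z) = z := by
  have := congrArg (fun k : OG Q => k.1 z) (inv_mul_cancel g)
  simpa using this

lemma LSplit.B0 [FiniteDimensional F V] (h : LSplit Q D0 D1) (hH : HH M D0 D1)
    (hd0 : 4 < finrank F D0) (hd1 : 4 < finrank F D1) {g : OG Q} (hg : g ∈ M) {u₀ : V}
    (hu₀ : u₀ ∈ D0) (hn0 : g.1 u₀ ∉ D0) (hn1 : g.1 u₀ ∉ D1) :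
    (∀ x ∈ D0, ∀ y ∈ D0, LR M x y) ∨ (∀ x ∈ D1, ∀ y ∈ D1, LR M x y) := by
  obtain ⟨a0, ha0, a1, ha1, ha⟩ := h.sup (g.1 u₀)
  have ha00 : a0 ≠ 0 := by
    rintro rfl
    rw [zero_add] at ha
    exact hn1 (ha ▸ ha1)
  have ha10 : a1 ≠ 0 := by
    rintro rfl
    rw [add_zero] at ha
    exact hn0 (ha ▸ ha0)
  obtain ⟨z1, hz1, hz1a⟩ := h.sep0 ha0 ha00
  obtain ⟨z0, hz0, hz0a⟩ := h.symm.sep0 ha1 ha10
  obtain ⟨v, hv, hv0, hvp⟩ := perpD0 Q D1 ![u₀, (g⁻¹).1 z0, (g⁻¹).1 z1] (by omega)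
  have k1 : polar Q v u₀ = 0 := hvp 0
  have k2 : polar Q v ((g⁻¹).1 z0) = 0 := hvp 1
  have k3 : polar Q v ((g⁻¹).1 z1) = 0 := hvp 2
  have e1 : LR M (g.1 u₀) (g.1 v) := (hH u₀ hu₀ v hv (by rw [polar_comm]; exact k1)).conj hg
  obtain ⟨b0, hb0, b1, hb1, hb⟩ := h.sup (g.1 v)
  have k2' : polar Q z0 b1 = 0 := by
    have : polar Q (g.1 v) z0 = 0 := by
      rw [← OG_apply_inv g z0, OG_polar]; exact k2
    rw [hb, polar_add_left, h.p00 hb0 hz0, zero_add, polar_comm] at this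
    exact this
  have k3' : polar Q z1 b0 = 0 := by
    have : polar Q (g.1 v) z1 = 0 := by
      rw [← OG_apply_inv g z1, OG_polar]; exact k3
    rw [hb, polar_add_left, h.p11 hb1 hz1, add_zero, polar_comm] at this
    exact this
  rw [ha, hb] at e1
  by_cases hb00 : b0 = 0
  · right
    have hb10 : b1 ≠ 0 := by
      rintro rfl
      rw [hb00, add_zero] at hb
      apply hv0
      have := congrArg (g⁻¹).1 hb
      rw [OG_inv_apply, map_zero] at this
      exact this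
    rw [add_comm a0 a1, add_comm b0 b1] at e1
    refine h.symm.B1 hH.symm hd1 ha1 ha0 hb1 hb0 e1 ha10 ?_
    intro c e
    rw [e, polar_smul_right, hz0a, smul_eq_mul, mul_one] at k2'
    rw [k2', zero_smul] at e
    exact hb10 e
  · left
    refine h.B1 hH hd0 ha0 ha1 hb0 hb1 e1 ha00 ?_
    intro c e
    rw [e, polar_smul_right, hz1a, smul_eq_mul, mul_one] at k3'
    rw [k3', zero_smul] at e
    exact hb00 e

/-- the closure theorem for the stabiliser of a pair of complementary maximal totally singular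
subspaces -/
theorem LSplit.commutator_le [Fintype F] [FiniteDimensional F V] (h : LSplit Q D0 D1)
    (hH : HH M D0 D1) (hd0 : 4 < finrank F D0) (hd1 : 4 < finrank F D1) (hdV : 8 < finrank F V)
    {s : OG Q} (hs : s ∈ M) (hs0 : ∀ x ∈ D0, s.1 x ∈ D1) (hs1 : ∀ x ∈ D1, s.1 x ∈ D0)
    {g : OG Q} (hg : g ∈ M) {u₀ : V} (hu₀ : u₀ ∈ D0 ∨ u₀ ∈ D1) (hn0 : g.1 u₀ ∉ D0)
    (hn1 : g.1 u₀ ∉ D1) : commutator (OG Q) ≤ M := by
  have tr : ∀ (E0 E1 : Submodule F V), (∀ x ∈ E1, s.1 x ∈ E0) → (∀ x ∈ E0, ∀ y ∈ E0, LR M x y) →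
      ∀ x ∈ E1, ∀ y ∈ E1, LR M x y := by
    intro E0 E1 hE hall x hx y hy
    have := (hall _ (hE x hx) _ (hE y hy)).conj (M.inv_mem hs)
    rwa [OG_inv_apply, OG_inv_apply] at this
  have key : (∀ x ∈ D0, ∀ y ∈ D0, LR M x y) ∨ (∀ x ∈ D1, ∀ y ∈ D1, LR M x y) := by
    rcases hu₀ with hu | hu
    · exact h.B0 hH hd0 hd1 hg hu hn0 hn1
    · exact (h.symm.B0 hH.symm hd1 hd0 hg hu hn1 hn0).symm
  have both : (∀ x ∈ D0, ∀ y ∈ D0, LR M x y) ∧ (∀ x ∈ D1, ∀ y ∈ D1, LR M x y) := by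
    rcases key with k | k
    · exact ⟨k, tr D0 D1 hs1 k⟩
    · exact ⟨tr D1 D0 hs0 k, k⟩
  apply commutator_le_of_sg h.nd hdV
  intro u v hs'
  obtain ⟨_, hm⟩ := h.D hH hd0 both.1 both.2 hs'
  exact hm

lemma sub_union (X : Submodule F V) (g : V →ₗ[F] V)
    (hg : ∀ u ∈ X, g u ∈ D0 ∨ g u ∈ D1) : (∀ u ∈ X, g u ∈ D0) ∨ (∀ u ∈ X, g u ∈ D1) := by
  by_contra hcon
  push Not at hcon
  obtain ⟨⟨x, hx, hx0⟩, ⟨y, hy, hy1⟩⟩ := hcon
  have hx1 : g x ∈ D1 := (hg x hx).resolve_left hx0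
  have hy0 : g y ∈ D0 := (hg y hy).resolve_right hy1
  rcases hg (x + y) (X.add_mem hx hy) with h | h
  · rw [map_add] at h
    exact hx0 ((Submodule.add_mem_iff_left _ hy0).1 h)
  · rw [map_add] at h
    exact hy1 ((Submodule.add_mem_iff_right _ hx1).1 h)

lemma LSplit.not_all (h : LSplit Q D0 D1) [FiniteDimensional F V] (hd1 : 0 < finrank F D1)
    (g : OG Q) (h0 : ∀ x ∈ D0, g.1 x ∈ D0) (h1 : ∀ x ∈ D1, g.1 x ∈ D0) : False := by
  have hall : ∀ x : V, x ∈ D0 := by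
    intro x
    obtain ⟨x0, hx0, x1, hx1, hx⟩ := h.sup ((g⁻¹).1 x)
    have := congrArg g.1 hx
    rw [OG_apply_inv, map_add] at this
    rw [this]
    exact D0.add_mem (h0 _ hx0) (h1 _ hx1)
  obtain ⟨u, hu, hu0, -⟩ := perpD0 Q D1 (![] : Fin 0 → V) hd1
  obtain ⟨z, hz, hzu⟩ := h.symm.sep0 hu hu0
  rw [h.p00 (hall z) (hall u)] at hzu
  exact zero_ne_one hzu

lemma LSplit.exists_impure [FiniteDimensional F V] (h : LSplit Q D0 D1) (hd0 : 0 < finrank F D0)
    (hd1 : 0 < finrank F D1) (g : OG Q)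
    (hn1 : ¬ ((∀ x ∈ D0, g.1 x ∈ D0) ∧ (∀ x ∈ D1, g.1 x ∈ D1)))
    (hn2 : ¬ ((∀ x ∈ D0, g.1 x ∈ D1) ∧ (∀ x ∈ D1, g.1 x ∈ D0))) :
    ∃ u₀, (u₀ ∈ D0 ∨ u₀ ∈ D1) ∧ g.1 u₀ ∉ D0 ∧ g.1 u₀ ∉ D1 := by
  by_contra hcon
  push Not at hcon
  have A : ∀ u ∈ D0, (g.1 : V →ₗ[F] V) u ∈ D0 ∨ (g.1 : V →ₗ[F] V) u ∈ D1 := by
    intro u hu
    by_cases hh : g.1 u ∈ D0
    · exact Or.inl hh
    · exact Or.inr (hcon u (Or.inl hu) hh)
  have B : ∀ u ∈ D1, (g.1 : V →ₗ[F] V) u ∈ D0 ∨ (g.1 : V →ₗ[F] V) u ∈ D1 := by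
    intro u hu
    by_cases hh : g.1 u ∈ D0
    · exact Or.inl hh
    · exact Or.inr (hcon u (Or.inr hu) hh)
  rcases sub_union D0 _ A with a | a <;> rcases sub_union D1 _ B with b | b
  · exact h.not_all hd1 g a b
  · exact hn1 ⟨a, b⟩
  · exact hn2 ⟨a, b⟩
  · exact h.symm.not_all hd0 g b a

lemma LSplit.exists_moving [Fintype F] [FiniteDimensional F V] (h : LSplit Q D0 D1)
    (hd0 : 1 < finrank F D0) (hdV : 10 < finrank F V) :
    ∃ g ∈ commutator (OG Q), ∃ z ∈ D1, g.1 z ∉ D0 ∧ g.1 z ∉ D1 := by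
  obtain ⟨x, hx, hx0, -⟩ := perpD0 Q D0 (![] : Fin 0 → V) (by omega)
  obtain ⟨y, hy, hyi, -⟩ := perpD1 Q D0 (![] : Fin 0 → V) x (by omega)
  obtain ⟨z, hz, hzx, hzy⟩ := h.sep1 hx hy hyi
  obtain ⟨z', hz', hz'x⟩ := h.sep0 hx hx0
  have hs : SPair Q x y := ⟨h.ts0 x hx, h.ts0 y hy, h.p00 hx hy⟩
  refine ⟨sg hs, sg_mem_commutator h.nd hdV hs, z, hz, ?_, ?_⟩
  · rw [sg_apply, polar_comm Q x z, hzx, polar_comm Q y z, hzy, zero_smul, add_zero, one_smul]
    intro hm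
    have hz0 : z ∈ D0 := (Submodule.sub_mem_iff_left _ hx).1 hm
    rw [h.p00 hz0 hy] at hzy
    exact zero_ne_one hzy
  · rw [sg_apply, polar_comm Q x z, hzx, polar_comm Q y z, hzy, zero_smul, add_zero, one_smul]
    intro hm
    have hx1 : x ∈ D1 := (Submodule.sub_mem_iff_right _ hz).1 hm
    rw [h.p11 hz' hx1] at hz'x
    exact zero_ne_one hz'x

/-- the Levi long root elements stabilise both subspaces -/
lemma LSplit.sg_stab (h : LSplit Q D0 D1) {u v : V} (hu : u ∈ D0) (hv : v ∈ D1)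
    (hs : SPair Q u v) : (∀ x ∈ D0, (sg hs).1 x ∈ D0) ∧ (∀ x ∈ D1, (sg hs).1 x ∈ D1) := by
  constructor
  · intro x hx
    rw [sg_apply, h.p00 hu hx, zero_smul, add_zero]
    exact D0.sub_mem hx (D0.smul_mem _ hu)
  · intro x hx
    rw [sg_apply, h.p11 hv hx, zero_smul, sub_zero]
    exact D1.add_mem hx (D1.smul_mem _ hv)

lemma exists_swap_aux [FiniteDimensional F V] : ∀ (k : ℕ) (D0 D1 : Submodule F V),
    (∀ x ∈ D0, Q x = 0) → (∀ x ∈ D1, Q x = 0) → finrank F D0 = k →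
    (∀ x ∈ D0, x ≠ 0 → ∃ y ∈ D1, polar Q x y ≠ 0) →
    (∀ y ∈ D1, y ≠ 0 → ∃ x ∈ D0, polar Q x y ≠ 0) →
    ∃ vs : List V, vs.length = k ∧ (∀ v ∈ vs, Q v = -1) ∧ (∀ v ∈ vs, v ∈ D0 ⊔ D1) ∧
      (∀ x ∈ D0, (reflProd Q vs).1 x ∈ D1) ∧ (∀ x ∈ D1, (reflProd Q vs).1 x ∈ D0) := by
  intro k
  induction k with
  | zero =>
    intro D0 D1 t0 t1 hfr hp0 hp1
    have hbot : D0 = ⊥ := Submodule.finrank_eq_zero.1 hfr
    refine ⟨[], rfl, by simp, by simp, ?_, ?_⟩
    · intro x hx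
      rw [hbot, Submodule.mem_bot] at hx
      subst hx
      simp
    · intro y hy
      by_contra hcon
      have hy0 : y ≠ 0 := by
        rintro rfl
        exact hcon (by simp)
      obtain ⟨x, hx, hxy⟩ := hp1 y hy hy0
      rw [hbot, Submodule.mem_bot] at hx
      subst hx
      simp at hxy
  | succ k ih =>
    intro D0 D1 t0 t1 hfr hp0 hp1
    have hne : D0 ≠ ⊥ := by
      intro hb
      rw [hb, finrank_bot] at hfr
      omega
    obtain ⟨e, he, he0⟩ := Submodule.exists_mem_ne_zero_of_ne_bot hne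
    obtain ⟨f₀, hf₀, hef₀⟩ := hp0 e he he0
    obtain ⟨f, hf, hef⟩ : ∃ f ∈ D1, polar Q e f = 1 :=
      ⟨(polar Q e f₀)⁻¹ • f₀, D1.smul_mem _ hf₀, by
        rw [polar_smul_right, smul_eq_mul, inv_mul_cancel₀ hef₀]⟩
    have hfe : polar Q f e = 1 := by rw [polar_comm]; exact hef
    have p00 : ∀ x ∈ D0, ∀ y ∈ D0, polar Q x y = 0 := fun x hx y hy =>
      polar_eq_zero_of_singular t0 hx hy
    have p11 : ∀ x ∈ D1, ∀ y ∈ D1, polar Q x y = 0 := fun x hx y hy =>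
      polar_eq_zero_of_singular t1 hx hy
    set E0 : Submodule F V := D0 ⊓ LinearMap.ker (polarBilin Q f) with hE0
    set E1 : Submodule F V := D1 ⊓ LinearMap.ker (polarBilin Q e) with hE1
    have m0 : ∀ x, x ∈ E0 ↔ x ∈ D0 ∧ polar Q f x = 0 := by
      intro x
      rw [hE0, Submodule.mem_inf, LinearMap.mem_ker, polarBilin_apply_apply]
    have m1 : ∀ x, x ∈ E1 ↔ x ∈ D1 ∧ polar Q e x = 0 := by
      intro x
      rw [hE1, Submodule.mem_inf, LinearMap.mem_ker, polarBilin_apply_apply]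
    have hfr' : finrank F E0 = k := by
      have := finrank_inf_ker_add_one D0 (polarBilin Q f) ⟨e, he, by
        rw [polarBilin_apply_apply, hfe]; exact one_ne_zero⟩
      rw [← hE0] at this
      omega
    obtain ⟨vs, hlen, hnorm, hmem, hsw0, hsw1⟩ := ih E0 E1
      (fun x hx => t0 x ((m0 x).1 hx).1) (fun x hx => t1 x ((m1 x).1 hx).1) hfr'
      (by
        intro x hx hx0
        obtain ⟨y, hy, hxy⟩ := hp0 x ((m0 x).1 hx).1 hx0
        refine ⟨y - polar Q e y • f, (m1 _).2 ⟨D1.sub_mem hy (D1.smul_mem _ hf), ?_⟩, ?_⟩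
        · rw [polar_sub_right, polar_smul_right, hef]; simp
        · rw [polar_sub_right, polar_smul_right, polar_comm Q x f, ((m0 x).1 hx).2]
          simpa using hxy)
      (by
        intro y hy hy0
        obtain ⟨x, hx, hxy⟩ := hp1 y ((m1 y).1 hy).1 hy0
        refine ⟨x - polar Q f x • e, (m0 _).2 ⟨D0.sub_mem hx (D0.smul_mem _ he), ?_⟩, ?_⟩
        · rw [polar_sub_right, polar_smul_right, hfe]; simp
        · rw [polar_sub_left, polar_smul_left, ((m1 y).1 hy).2]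
          simpa using hxy)
    have hQa : Q (e - f) = -1 := by
      rw [qmap_sub, t0 e he, t1 f hf, hef]; ring
    have hr : ∀ x, reflLin Q (e - f) x = x + polar Q (e - f) x • (e - f) := by
      intro x
      rw [reflLin_apply, hQa]
      have : ((-1 : F)⁻¹ * polar Q (e - f) x) = - polar Q (e - f) x := by
        rw [inv_neg, inv_one]; ring
      rw [this]
      module
    have hve : ∀ v ∈ vs, polar Q v e = 0 := by
      intro v hv
      obtain ⟨v0, hv0, v1, hv1, rfl⟩ := Submodule.mem_sup.1 (hmem v hv)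
      rw [polar_add_left, p00 v0 ((m0 v0).1 hv0).1 e he, polar_comm Q v1 e, ((m1 v1).1 hv1).2,
        add_zero]
    have hvf : ∀ v ∈ vs, polar Q v f = 0 := by
      intro v hv
      obtain ⟨v0, hv0, v1, hv1, rfl⟩ := Submodule.mem_sup.1 (hmem v hv)
      rw [polar_add_left, p11 v1 ((m1 v1).1 hv1).1 f hf, polar_comm Q v0 f, ((m0 v0).1 hv0).2,
        add_zero]
    have hre : reflLin Q (e - f) e = f := by
      rw [hr, polar_sub_left, p00 e he e he, hfe]
      module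
    have hrf : reflLin Q (e - f) f = e := by
      rw [hr, polar_sub_left, p11 f hf f hf, hef]
      module
    refine ⟨(e - f) :: vs, by simp [hlen], ?_, ?_, ?_, ?_⟩
    · intro v hv
      rcases List.mem_cons.1 hv with rfl | hv
      · exact hQa
      · exact hnorm v hv
    · intro v hv
      rcases List.mem_cons.1 hv with rfl | hv
      · exact Submodule.sub_mem _ (Submodule.mem_sup_left he) (Submodule.mem_sup_right hf)
      · have hle : E0 ⊔ E1 ≤ D0 ⊔ D1 := sup_le_sup inf_le_left inf_le_left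
        exact hle (hmem v hv)
    · intro x hx
      have hx' : x - polar Q f x • e ∈ E0 := (m0 _).2 ⟨D0.sub_mem hx (D0.smul_mem _ he), by
        rw [polar_sub_right, polar_smul_right, hfe]; simp⟩
      have hy' := hsw0 _ hx'
      set y' := (reflProd Q vs).1 (x - polar Q f x • e) with hy'def
      have e1 : (reflProd Q vs).1 x = polar Q f x • e + y' := by
        rw [hy'def, map_sub, map_smul, reflProd_apply_of_ortho Q vs e hve]
        abel
      rw [reflProd_cons, Subgroup.coe_mul, LinearEquiv.mul_apply, e1, refl_coe_apply, map_add,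
        map_smul, hre, reflLin_of_polar_eq_zero Q _ _ (by
          rw [polar_sub_left, ((m1 y').1 hy').2, p11 f hf y' ((m1 y').1 hy').1, sub_zero])]
      exact D1.add_mem (D1.smul_mem _ hf) ((m1 y').1 hy').1
    · intro x hx
      have hx' : x - polar Q e x • f ∈ E1 := (m1 _).2 ⟨D1.sub_mem hx (D1.smul_mem _ hf), by
        rw [polar_sub_right, polar_smul_right, hef]; simp⟩
      have hy' := hsw1 _ hx'
      set y' := (reflProd Q vs).1 (x - polar Q e x • f) with hy'def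
      have e1 : (reflProd Q vs).1 x = polar Q e x • f + y' := by
        rw [hy'def, map_sub, map_smul, reflProd_apply_of_ortho Q vs f hvf]
        abel
      rw [reflProd_cons, Subgroup.coe_mul, LinearEquiv.mul_apply, e1, refl_coe_apply, map_add,
        map_smul, hrf, reflLin_of_polar_eq_zero Q _ _ (by
          rw [polar_sub_left, ((m0 y').1 hy').2, p00 e he y' ((m0 y').1 hy').1, sub_zero])]
      exact D0.add_mem (D0.smul_mem _ he) ((m0 y').1 hy').1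

/-- the swap lies in `Ω` when the dimension of the two subspaces is even -/
lemma LSplit.exists_swap [Fintype F] [FiniteDimensional F V] (h : LSplit Q D0 D1)
    (hev : Even (finrank F D0)) :
    ∃ s ∈ commutator (OG Q), (∀ x ∈ D0, s.1 x ∈ D1) ∧ (∀ x ∈ D1, s.1 x ∈ D0) := by
  obtain ⟨vs, hlen, hnorm, -, h0, h1⟩ := exists_swap_aux (Q := Q) (finrank F D0) D0 D1 h.ts0 h.ts1 rfl
    (by
      intro x hx hx0
      obtain ⟨z, hz, hzx⟩ := h.sep0 hx hx0
      exact ⟨z, hz, by rw [polar_comm, hzx]; exact one_ne_zero⟩)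
    (by
      intro y hy hy0
      obtain ⟨z, hz, hzy⟩ := h.symm.sep0 hy hy0
      exact ⟨z, hz, by rw [hzy]; exact one_ne_zero⟩)
  obtain ⟨j, hj⟩ := hev
  exact ⟨reflProd Q vs, reflProd_mem_commutator_of_const Q h.nd (-1) (by simp) j vs hnorm
    (by rw [hlen, hj]; ring), h0, h1⟩

end lagr

end Cfsg.Agent.Lib.Helper95
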