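import Cfsg.Agent.Lib.Helper95.OmPerp
import Cfsg.Agent.Lib.Helper49.Perp2
import Cfsg.Agent.Lib.Helper49.ReflList
import Cfsg.Agent.Lib.Helper49.OmegaTrans

set_option autoImplicit false
set_option linter.unusedSimpArgs false

namespace Cfsg.Agent.Lib.Helper95

open QuadraticMap Module Cfsg.Agent.Lib.Helper49

lemma exists_ne_ne {K : Type*} [Fintype K] (h : 2 < Fintype.card K) (a b : K) :
    ∃ c, c ≠ a ∧ c ≠ b := by
  classical
  by_contra hcon
  push Not at hcon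
  have : (Finset.univ : Finset K) ⊆ {a, b} := by
    intro c _
    by_cases hc : c = a
    · simp [hc]
    · simp [hcon c hc]
  have h1 := Finset.card_le_card this
  have h2 : ({a, b} : Finset K).card ≤ 2 := Finset.card_le_two
  rw [Finset.card_univ] at h1
  omega

theorem Eng.CC_reflProd {F V : Type*} [Field F] [AddCommGroup V] [Module F V]
    {Q : QuadraticForm F V} {M : Subgroup (OG Q)} {S : V → Prop} (E : Eng Q M S) (vs : List V)
    (hvs : ∀ v ∈ vs, Q v ≠ 0 → S v) {x : V} (hx : CC Q M S x) :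
    CC Q M S ((reflProd Q vs).1 x) := by
  induction vs with
  | nil => simpa using hx
  | cons v vs ih =>
    have ih' := ih (fun u hu => hvs u (List.mem_cons_of_mem _ hu))
    rw [reflProd_cons, Subgroup.coe_mul, LinearEquiv.mul_apply, refl_coe_apply]
    by_cases hv : Q v = 0
    · have : reflLin Q v ((reflProd Q vs).1 x) = (reflProd Q vs).1 x := by
        rw [reflLin_apply, hv]; simp
      rw [this]; exact ih'
    · exact E.CC_S_refl (hvs v List.mem_cons_self hv) ih'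

section split

variable {F V : Type*} [Field F] [Fintype F] [AddCommGroup V] [Module F V] [FiniteDimensional F V]
  (Q : QuadraticForm F V)

/-- an orthogonal splitting into two non-degenerate subspaces -/
structure OSplit (U U' : Submodule F V) : Prop where
  perp : ∀ u ∈ U, ∀ u' ∈ U', polar Q u u' = 0
  sup : ∀ x, ∃ u ∈ U, ∃ u' ∈ U', x = u + u'
  ndU : (polarBilin (resQ Q U)).Nondegenerate
  ndU' : (polarBilin (resQ Q U')).Nondegenerate

/-- non-singular vectors in one of the two parts -/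
def SS (U U' : Submodule F V) (x : V) : Prop := Q x ≠ 0 ∧ (x ∈ U ∨ x ∈ U')

variable {Q} {U U' : Submodule F V}

omit [Fintype F] [FiniteDimensional F V] in
lemma OSplit.disj (h : OSplit Q U U') {x : V} (hx : x ∈ U) (hx' : x ∈ U') : x = 0 := by
  have := h.ndU.1 ⟨x, hx⟩ (fun y => by
    change polar (resQ Q U) ⟨x, hx⟩ y = 0
    rw [polar_resQ, polar_comm]; exact h.perp y y.2 x hx')
  exact congrArg Subtype.val this

omit [Fintype F] [FiniteDimensional F V] in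
lemma OSplit.Q_add (h : OSplit Q U U') {u u' : V} (hu : u ∈ U) (hu' : u' ∈ U') :
    Q (u + u') = Q u + Q u' := by
  rw [qmap_add, h.perp u hu u' hu', add_zero]

omit [Fintype F] [FiniteDimensional F V] in
lemma OSplit.polar_add (h : OSplit Q U U') {u u' v v' : V} (hu : u ∈ U) (hu' : u' ∈ U')
    (hv : v ∈ U) (hv' : v' ∈ U') : polar Q (u + u') (v + v') = polar Q u v + polar Q u' v' := by
  rw [polar_add_left, polar_add_right, polar_add_right, h.perp u hu v' hv',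
    polar_comm Q u' v, h.perp v hv u' hu']
  ring

lemma OSplit.perpU (h : OSplit Q U U') (hd : 6 < finrank F U) (x y : V) (δ : F) :
    ∃ c ∈ U, Q c = δ ∧ polar Q c x = 0 ∧ polar Q c y = 0 := by
  obtain ⟨u, hu, u', hu', rfl⟩ := h.sup x
  obtain ⟨v, hv, v', hv', rfl⟩ := h.sup y
  obtain ⟨e, he, h1, h2⟩ := qexists_perp2 (resQ Q U) h.ndU hd ⟨u, hu⟩ ⟨v, hv⟩ δ
  refine ⟨e, e.2, he, ?_, ?_⟩
  · rw [polar_add_right, h.perp e e.2 u' hu', add_zero]; simpa using h1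
  · rw [polar_add_right, h.perp e e.2 v' hv', add_zero]; simpa using h2

lemma OSplit.univU (h : OSplit Q U U') (hd : 6 < finrank F U) {u : V} (hu : u ∈ U) (hu0 : u ≠ 0)
    (α s : F) : ∃ w ∈ U, w ≠ 0 ∧ Q w = α ∧ polar Q u w = s := by
  obtain ⟨w, hw0, hw1, hw2⟩ := quniv (resQ Q U) h.ndU hd (u := ⟨u, hu⟩)
    (fun h0 => hu0 (congrArg Subtype.val h0)) α s
  exact ⟨w, w.2, fun h0 => hw0 (Subtype.ext h0), hw1, by simpa using hw2⟩

lemma OSplit.wittU (h : OSplit Q U U') (hd : 6 < finrank F U) {w w' : V} (hw : w ∈ U)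
    (hw' : w' ∈ U) (h0 : w ≠ 0) (h0' : w' ≠ 0) (hq : Q w = Q w') :
    ∃ vs : List V, (∀ v ∈ vs, v ∈ U) ∧ (reflProd Q vs).1 w = w' := by
  obtain ⟨g, hg⟩ := exists_OG_map_vec (resQ Q U) h.ndU ⟨w, hw⟩ ⟨w', hw'⟩
    (fun e => h0 (congrArg Subtype.val e)) (fun e => h0' (congrArg Subtype.val e)) hq
  obtain ⟨vs, -, rfl⟩ := exists_reflProd_eq_finite (resQ Q U) h.ndU (Or.inr (by omega)) g
  refine ⟨vs.map Subtype.val, ?_, ?_⟩
  · intro v hv
    obtain ⟨y, _, rfl⟩ := List.mem_map.1 hv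
    exact y.2
  · rw [← coe_reflProd_resQ Q U vs ⟨w, hw⟩, hg]

omit [Fintype F] [FiniteDimensional F V] in
lemma OSplit.exists_ne_zero (hd : 6 < finrank F U) : ∃ u ∈ U, u ≠ 0 := by
  apply Submodule.exists_mem_ne_zero_of_ne_bot
  rintro rfl
  simp at hd

theorem OSplit.eng (h : OSplit Q U U') (hd : 6 < finrank F U) {M : Subgroup (OG Q)}
    (hM : ∀ a b, SS Q U U' a → SS Q U U' b → Q a = Q b → refl Q a * refl Q b ∈ M) :
    Eng Q M (SS Q U U') where
  ns a ha := ha.1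
  pair := hM
  refl_closed a b ha hb := by
    refine ⟨by rw [Q_reflLin]; exact hb.1, ?_⟩
    rcases ha.2 with ha' | ha' <;> rcases hb.2 with hb' | hb'
    · left; rw [reflLin_apply]; exact U.sub_mem hb' (U.smul_mem _ ha')
    · right; rw [reflLin_of_polar_eq_zero Q a b (h.perp a ha' b hb')]; exact hb'
    · left
      rw [reflLin_of_polar_eq_zero Q a b (by rw [polar_comm]; exact h.perp b hb' a ha')]
      exact hb'
    · right; rw [reflLin_apply]; exact U'.sub_mem hb' (U'.smul_mem _ ha')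
  smul_closed c a hc ha := by
    refine ⟨by rw [QuadraticMap.map_smul]; exact mul_ne_zero (mul_ne_zero hc hc) ha.1, ?_⟩
    rcases ha.2 with ha' | ha'
    · exact Or.inl (U.smul_mem _ ha')
    · exact Or.inr (U'.smul_mem _ ha')
  rich x y δ hδ := by
    obtain ⟨c, hc, hq, h1, h2⟩ := h.perpU hd x y δ
    exact ⟨c, ⟨by rw [hq]; exact hδ, Or.inl hc⟩, hq, h1, h2⟩
  a2 y hy hS := by
    obtain ⟨u, hu, u', hu', rfl⟩ := h.sup y
    have hu0 : u ≠ 0 := by
      rintro rfl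
      apply hS
      rw [zero_add] at hy ⊢
      exact ⟨hy, Or.inr hu'⟩
    obtain ⟨d, hd1, -, hd2, hd3⟩ := h.univU hd hu hu0 (Q (u + u')) (Q (u + u'))
    refine ⟨d, ⟨by rw [hd2]; exact hy, Or.inl hd1⟩, hd2, ?_⟩
    rw [polar_add_right, h.perp d hd1 u' hu', add_zero, polar_comm, hd3]

variable {M : Subgroup (OG Q)}

theorem OSplit.claim1 (h : OSplit Q U U') (hd : 6 < finrank F U) (E : Eng Q M (SS Q U U'))
    {u u' : V} (hu : u ∈ U) (hu0 : u ≠ 0) (hu' : u' ∈ U') (hC : CC Q M (SS Q U U') (u + u'))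
    {w : V} (hw : w ∈ U) (hq : Q (w + u') ≠ 0) : CC Q M (SS Q U U') (w + u') := by
  by_cases hw0 : w = 0
  · subst hw0
    rw [zero_add] at hq ⊢
    exact E.CC_of_S ⟨hq, Or.inr hu'⟩
  obtain ⟨w₁, hw₁, hw₁0, hw₁q, hw₁p⟩ := h.univU hd hu hu0 (Q w) (Q u - Q u')
  have hx0 : Q (u + u') ≠ 0 := hC.1
  have hQx : Q (u + u') = Q u + Q u' := h.Q_add hu hu'
  have hvU : u - w₁ ∈ U := U.sub_mem hu hw₁
  have hQv : Q (u - w₁) = Q (w + u') := by
    rw [qmap_sub, hw₁q, hw₁p, h.Q_add hw hu']; ring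
  have hv : SS Q U U' (u - w₁) := ⟨by rw [hQv]; exact hq, Or.inl hvU⟩
  have hp : polar Q (u + u') (u - w₁) = Q (u + u') := by
    rw [polar_add_left, polar_comm Q u' _, h.perp _ hvU u' hu', polar_sub_right, polar_self, hw₁p,
      hQx]
    simp only [nsmul_eq_mul]; push_cast; ring
  have h1 : reflLin Q (u + u') (u - w₁) = (-1 : F) • (w₁ + u') := by
    rw [reflLin_apply, hp, inv_mul_cancel₀ hx0, one_smul, neg_one_smul]; abel
  have h2 := E.CC_refl hC (E.CC_of_S hv)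
  rw [h1] at h2
  have h3 := E.CC_smul h2 (c := -1) (by simp)
  rw [smul_smul] at h3
  simp only [mul_neg, mul_one, neg_neg, one_smul] at h3
  obtain ⟨vs, hvs, hvw⟩ := h.wittU hd hw₁ hw hw₁0 hw0 hw₁q
  have h4 := E.CC_reflProd vs (fun v hv hv0 => ⟨hv0, Or.inl (hvs v hv)⟩) h3
  rw [map_add, hvw, reflProd_apply_of_ortho Q vs u' (fun v hv => h.perp v (hvs v hv) u' hu')] at h4
  exact h4

/-- the set of good `U'`-components -/
def TT (Q : QuadraticForm F V) (M : Subgroup (OG Q)) (U U' : Submodule F V) (t : V) : Prop :=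
  t ∈ U' ∧ ∀ w ∈ U, Q (w + t) ≠ 0 → CC Q M (SS Q U U') (w + t)

theorem OSplit.TT_of_CC (h : OSplit Q U U') (hd : 6 < finrank F U) (E : Eng Q M (SS Q U U'))
    {u u' : V} (hu : u ∈ U) (hu0 : u ≠ 0) (hu' : u' ∈ U') (hC : CC Q M (SS Q U U') (u + u')) :
    TT Q M U U' u' :=
  ⟨hu', fun _ hw hq => h.claim1 hd E hu hu0 hu' hC hw hq⟩

omit [Fintype F] [FiniteDimensional F V] in
theorem TT_zero (E : Eng Q M (SS Q U U')) : TT Q M U U' 0 :=
  ⟨U'.zero_mem, fun w hw hq => by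
    rw [add_zero] at hq ⊢
    exact E.CC_of_S ⟨hq, Or.inl hw⟩⟩

omit [Fintype F] [FiniteDimensional F V] in
theorem TT_smul (E : Eng Q M (SS Q U U')) {t : V} (ht : TT Q M U U' t) (c : F) :
    TT Q M U U' (c • t) := by
  by_cases hc : c = 0
  · subst hc; rw [zero_smul]; exact TT_zero E
  refine ⟨U'.smul_mem _ ht.1, fun w hw hq => ?_⟩
  have e1 : w + c • t = c • (c⁻¹ • w + t) := by
    rw [smul_add, smul_smul, mul_inv_cancel₀ hc, one_smul]
  rw [e1] at hq ⊢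
  apply E.CC_smul _ hc
  apply ht.2 _ (U.smul_mem _ hw)
  intro h0
  apply hq
  rw [QuadraticMap.map_smul, h0, smul_zero]

theorem OSplit.TT_add (h : OSplit Q U U') (hd : 6 < finrank F U) (E : Eng Q M (SS Q U U'))
    (h3 : 2 < Fintype.card F) {t₁ t₂ : V} (ht₁ : TT Q M U U' t₁) (ht₂ : TT Q M U U' t₂) :
    TT Q M U U' (t₁ + t₂) := by
  obtain ⟨u₁, hu₁, hu₁0⟩ := OSplit.exists_ne_zero (F := F) (U := U) hd
  obtain ⟨α₁, hα₁, hα₁'⟩ := exists_ne_ne h3 (-Q t₁) (polar Q t₁ t₂ + Q t₁)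
  obtain ⟨α₂, hα₂, -⟩ := exists_ne_ne h3 (-Q t₂) (-Q t₂)
  obtain ⟨w₁, hw₁, hw₁0, hw₁q, -⟩ := h.univU hd hu₁ hu₁0 α₁ 0
  obtain ⟨w₂, hw₂, -, hw₂q, hw₂p⟩ := h.univU hd hw₁ hw₁0 α₂ (-polar Q t₁ t₂ - α₁ - Q t₁)
  have hQx : Q (w₁ + t₁) = α₁ + Q t₁ := by rw [h.Q_add hw₁ ht₁.1, hw₁q]
  have hQz : Q (w₂ + t₂) = α₂ + Q t₂ := by rw [h.Q_add hw₂ ht₂.1, hw₂q]
  have hx0 : Q (w₁ + t₁) ≠ 0 := by
    rw [hQx]; intro h0; exact hα₁ (by linear_combination h0)
  have hz0 : Q (w₂ + t₂) ≠ 0 := by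
    rw [hQz]; intro h0; exact hα₂ (by linear_combination h0)
  have hx := ht₁.2 w₁ hw₁ hx0
  have hz := ht₂.2 w₂ hw₂ hz0
  have hp : polar Q (w₁ + t₁) (w₂ + t₂) = - Q (w₁ + t₁) := by
    rw [h.polar_add hw₁ ht₁.1 hw₂ ht₂.1, hw₂p, hQx]; ring
  have h1 : reflLin Q (w₁ + t₁) (w₂ + t₂) = (w₁ + w₂) + (t₁ + t₂) := by
    rw [reflLin_apply, hp, mul_neg, inv_mul_cancel₀ hx0, neg_one_smul]; abel
  have h2 := E.CC_refl hx hz
  rw [h1] at h2
  refine h.TT_of_CC hd E (U.add_mem hw₁ hw₂) ?_ (U'.add_mem ht₁.1 ht₂.1) h2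
  intro h0
  have h4 : w₂ = -w₁ := by rw [eq_neg_iff_add_eq_zero, add_comm]; exact h0
  rw [h4, polar_neg_right, polar_self, hw₁q] at hw₂p
  apply hα₁'
  simp only [nsmul_eq_mul] at hw₂p; push_cast at hw₂p
  linear_combination -hw₂p

theorem OSplit.TT_sub (h : OSplit Q U U') (hd : 6 < finrank F U) (E : Eng Q M (SS Q U U'))
    (h3 : 2 < Fintype.card F) {t₁ t₂ : V} (ht₁ : TT Q M U U' t₁) (ht₂ : TT Q M U U' t₂) :
    TT Q M U U' (t₁ - t₂) := by
  have := h.TT_add hd E h3 ht₁ (TT_smul E ht₂ (-1))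
  rwa [neg_one_smul, ← sub_eq_add_neg] at this

omit [Fintype F] [FiniteDimensional F V] in
theorem OSplit.TT_refl (h : OSplit Q U U') (E : Eng Q M (SS Q U U')) {a t : V} (ha : a ∈ U')
    (ha0 : Q a ≠ 0) (ht : TT Q M U U' t) : TT Q M U U' (reflLin Q a t) := by
  refine ⟨by rw [reflLin_apply]; exact U'.sub_mem ht.1 (U'.smul_mem _ ha), fun w hw hq => ?_⟩
  have e1 : w + reflLin Q a t = reflLin Q a (w + t) := by
    rw [map_add, reflLin_of_polar_eq_zero Q a w (by rw [polar_comm]; exact h.perp w hw a ha)]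
  rw [e1] at hq ⊢
  rw [Q_reflLin] at hq
  exact E.CC_S_refl ⟨ha0, Or.inr ha⟩ (ht.2 w hw hq)

/-- key step: a non-singular vector of `U'` not orthogonal to a good vector is good -/
theorem OSplit.TT_key (h : OSplit Q U U') (hd : 6 < finrank F U) (E : Eng Q M (SS Q U U'))
    (h3 : 2 < Fintype.card F) {a t : V} (ha : a ∈ U') (ha0 : Q a ≠ 0) (ht : TT Q M U U' t)
    (hp : polar Q a t ≠ 0) : TT Q M U U' a := by
  have h1 := h.TT_sub hd E h3 ht (h.TT_refl E ha ha0 ht)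
  have h2 : t - reflLin Q a t = ((Q a)⁻¹ * polar Q a t) • a := by
    rw [reflLin_apply]; abel
  rw [h2] at h1
  have h4 := TT_smul E h1 ((Q a)⁻¹ * polar Q a t)⁻¹
  rwa [smul_smul, inv_mul_cancel₀ (mul_ne_zero (inv_ne_zero ha0) hp), one_smul] at h4

end split

end Cfsg.Agent.Lib.Helper95
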