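import Cfsg.Agent.Lib.Helper95.OmGlue2

set_option autoImplicit false
set_option linter.unusedSimpArgs false

namespace Cfsg.Agent.Lib.Helper95

open QuadraticMap Module
open Cfsg.Agent.Lib.Helper49 hiding glEquiv glEquiv_apply

section stab

variable {F V : Type*} [Field F] [AddCommGroup V] [Module F V] [FiniteDimensional F V]
  {Q : QuadraticForm F V} {U U' : Submodule F V}

/-- the orthogonal complement of a subspace -/
abbrev qperp (Q : QuadraticForm F V) (W : Submodule F V) : Submodule F V :=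
  LinearMap.BilinForm.orthogonal (polarBilin Q) W

lemma isCompl_qperp (W : Submodule F V) (hW : (polarBilin (resQ Q W)).Nondegenerate) :
    IsCompl W (qperp Q W) := by
  apply LinearMap.BilinForm.isCompl_orthogonal_of_restrict_nondegenerate
  · intro x y hxy
    change polar Q y x = 0
    rw [polar_comm]; exact hxy
  · have : LinearMap.BilinForm.restrict (polarBilin Q) W = polarBilin (resQ Q W) := by
      ext x y
      change polar Q x y = polar (resQ Q W) x y
      rw [polar_resQ]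
    rw [this]; exact hW

lemma osplit_of_nondeg (hQ : (polarBilin Q).Nondegenerate) (W : Submodule F V)
    (hW : (polarBilin (resQ Q W)).Nondegenerate) : OSplit Q W (qperp Q W) := by
  have hc := isCompl_qperp W hW
  have hsup : ∀ x : V, ∃ u ∈ W, ∃ u' ∈ qperp Q W, x = u + u' := by
    intro x
    have hx : x ∈ W ⊔ qperp Q W := by rw [hc.sup_eq_top]; trivial
    obtain ⟨u, hu, u', hu', rfl⟩ := Submodule.mem_sup.1 hx
    exact ⟨u, hu, u', hu', rfl⟩
  refine ⟨fun u hu u' hu' => hu' u hu, hsup, hW, ?_⟩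
  apply nondegenerate_of_separatingLeft
  intro x hx
  apply Subtype.ext
  apply hQ.1
  intro z
  obtain ⟨u, hu, u', hu', rfl⟩ := hsup z
  change polar Q x (u + u') = 0
  rw [polar_add_right, polar_comm Q _ u]
  have h1 : polar Q u x = 0 := x.2 u hu
  have h2 := hx ⟨u', hu'⟩
  rw [polar_resQ] at h2
  rw [h1, h2, add_zero]

omit [FiniteDimensional F V] in
lemma OSplit.mem_U'_iff (h : OSplit Q U U') {x : V} : x ∈ U' ↔ ∀ u ∈ U, polar Q u x = 0 := by
  constructor
  · intro hx u hu
    exact h.perp u hu x hx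
  · intro hx
    obtain ⟨u, hu, u', hu', rfl⟩ := h.sup x
    have : (⟨u, hu⟩ : U) = 0 := by
      apply h.ndU.1
      intro y
      change polar (resQ Q U) _ y = 0
      rw [polar_resQ, polar_comm]
      have := hx y y.2
      rw [polar_add_right, h.perp y y.2 u' hu', add_zero] at this
      exact this
    have hu0 : u = 0 := congrArg Subtype.val this
    rw [hu0, zero_add]; exact hu'

lemma OSplit.stab_of (h : OSplit Q U U') (g : OG Q) (hg : ∀ x ∈ U, g.1 x ∈ U) :
    g.1 ∈ stabGrp U ∧ g.1 ∈ stabGrp U' := by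
  have hmap : U.map (g.1 : V →ₗ[F] V) = U := map_eq_of_forall g.1 hg rfl
  constructor
  · intro x
    refine ⟨hg x, fun hx => ?_⟩
    have : g.1 x ∈ U.map (g.1 : V →ₗ[F] V) := by rw [hmap]; exact hx
    obtain ⟨y, hy, hyx⟩ := this
    have : y = x := g.1.injective hyx
    rw [← this]; exact hy
  · intro x
    rw [h.mem_U'_iff, h.mem_U'_iff]
    constructor
    · intro hx u hu
      have : u ∈ U.map (g.1 : V →ₗ[F] V) := by rw [hmap]; exact hu
      obtain ⟨y, hy, rfl⟩ := this
      change polar Q (g.1 y) (g.1 x) = 0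
      rw [OG_polar]; exact hx y hy
    · intro hx u hu
      rw [← OG_polar Q g]; exact hx _ (hg u hu)

omit [FiniteDimensional F V] in
lemma OSplit.exists_nonsing' (h : OSplit Q U U') (hU' : U' ≠ ⊥) : ∃ a ∈ U', Q a ≠ 0 := by
  obtain ⟨x, hx, hx0⟩ := Submodule.exists_mem_ne_zero_of_ne_bot hU'
  obtain ⟨y, hy, hxy⟩ := h.dualU' hx hx0
  by_cases h1 : Q x = 0
  · by_cases h2 : Q y = 0
    · exact ⟨x + y, U'.add_mem hx hy, by rw [qmap_add, h1, h2, hxy]; simp⟩
    · exact ⟨y, hy, h2⟩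
  · exact ⟨x, hx, h1⟩

lemma OSplit.hex_of (h : OSplit Q U U') (h2 : (2 : F) ≠ 0) {a b : V} (ha : a ∈ U') (hb : b ∈ U')
    (ha0 : Q a ≠ 0) (hb0 : Q b ≠ 0) (hab : polar Q a b = 0) (hfr : finrank F U' ≠ 2) :
    ∃ x ∈ U', x ≠ 0 ∧ polar Q x a = 0 ∧ polar Q x b = 0 := by
  have h1 : ¬ finrank F U' ≤ 1 := by
    intro hle
    obtain ⟨v, hv⟩ := finrank_le_one_iff.1 hle
    obtain ⟨c₁, hc₁⟩ := hv ⟨a, ha⟩
    obtain ⟨c₂, hc₂⟩ := hv ⟨b, hb⟩
    have e1 : a = c₁ • (v : V) := by rw [← Submodule.coe_smul, hc₁]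
    have e2 : b = c₂ • (v : V) := by rw [← Submodule.coe_smul, hc₂]
    rw [e1, QuadraticMap.map_smul] at ha0
    rw [e2, QuadraticMap.map_smul] at hb0
    rw [e1, e2, polar_smul_left, polar_smul_right, polar_self] at hab
    simp only [smul_eq_mul, nsmul_eq_mul] at ha0 hb0 hab
    push_cast at hab
    have hc1 : c₁ ≠ 0 := by rintro rfl; simp at ha0
    have hc2 : c₂ ≠ 0 := by rintro rfl; simp at hb0
    have hv0 : Q (v : V) ≠ 0 := by intro h0; rw [h0] at ha0; simp at ha0
    exact (mul_ne_zero hc1 (mul_ne_zero hc2 (mul_ne_zero h2 hv0))) hab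
  obtain ⟨z, hz0, hz⟩ := sexists_perp (B := polarBilin (resQ Q U'))
    (![⟨a, ha⟩, ⟨b, hb⟩] : Fin 2 → U') (by omega)
  refine ⟨z, z.2, fun e => hz0 (Subtype.ext e), ?_, ?_⟩
  · have := hz 0
    change polar (resQ Q U') z ⟨a, ha⟩ = 0 at this
    rwa [polar_resQ] at this
  · have := hz 1
    change polar (resQ Q U') z ⟨b, hb⟩ = 0 at this
    rwa [polar_resQ] at this

end stab

section stabmax

variable {ι : Type} [Fintype ι] [DecidableEq ι] {F : Type*} [Field F] [Fintype F]
  {Q : QuadraticForm F (ι → F)} {U U' : Submodule F (ι → F)}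

/-- maximality of the stabiliser of a non-degenerate subspace, odd characteristic -/
theorem OSplit.stab_maximal_odd (h : OSplit Q U U') (hQ : (polarBilin Q).Nondegenerate)
    (h2 : (2 : F) ≠ 0) (hd : 6 < finrank F U) (hlt : finrank F U' < finrank F U) (hU' : U' ≠ ⊥)
    (hex : Fintype.card F = 3 → ∀ a ∈ U', ∀ b ∈ U', Q a ≠ 0 → Q b = - Q a → polar Q a b = 0 →
      ∃ x ∈ U', x ≠ 0 ∧ polar Q x a = 0 ∧ polar Q x b = 0)
    (W : Submodule F (ι → F)) (hW : W = U ∨ W = U') :
    Cfsg.Geo.IsMaximalIn (Cfsg.Geo.omegaGL ⇑Q)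
      (Cfsg.Geo.subspaceStabilizer W ⊓ Cfsg.Geo.omegaGL ⇑Q) := by
  have hstab : ∀ g : OG Q, (∀ x ∈ U, g.1 x ∈ U) → g.1 ∈ stabGrp W := by
    intro g hg
    rcases hW with rfl | rfl
    · exact (h.stab_of g hg).1
    · exact (h.stab_of g hg).2
  have hstab' : ∀ g : OG Q, g.1 ∈ stabGrp W → ∀ x ∈ U, g.1 x ∈ U := by
    intro g hg
    rcases hW with rfl | rfl
    · intro x hx; exact (hg x).1 hx
    · have := (h.symm.stab_of g (fun x hx => (hg x).1 hx)).2
      intro x hx; exact (this x).1 hx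
  refine omega_maximal_of Q (Cfsg.Geo.subspaceStabilizer W) (stabGrp W)
    (mem_subspaceStabilizer_iff W) ?_ ?_
  · obtain ⟨g, hg, x, hx, hx0, -⟩ := h.exists_moving hQ hd (h.exists_nonsing' hU')
    exact ⟨g, hg, fun hs => hx0 (hstab' g hs x hx)⟩
  · intro M hM g hg hgS
    refine h.commutator_le_odd hQ hd h2 hex ?_ ⟨g, hg, ?_⟩
    · intro a b ha hb hab
      apply hM _ (refl_mul_refl_mem_commutator_of_eq _ hQ _ _ ha.1 hab)
      apply hstab
      intro x hx
      exact h.refl_stab ha.2 (h.refl_stab hb.2 hx)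
    · by_contra hcon
      push Not at hcon
      have hA := h.map_U hd h2 g (fun a ha ha0 => by
        by_cases h4 : g.1 a ∈ U
        · exact Or.inl h4
        · exact Or.inr (hcon a ⟨ha0, Or.inl ha⟩ h4))
      rcases hA with hA | hA
      · exact hgS (hstab g hA)
      · have hle : U.map (g.1 : (ι → F) →ₗ[F] (ι → F)) ≤ U' := by
          rintro _ ⟨x, hx, rfl⟩
          exact hA x hx
        have h5 := Submodule.finrank_mono hle
        rw [LinearEquiv.finrank_map_eq g.1 U] at h5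
        omega

end stabmax

end Cfsg.Agent.Lib.Helper95
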