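import Cfsg.Agent.Lib.Helper95.OmEven
import Cfsg.Agent.Lib.Helper49.HalvesPlus
import Cfsg.Agent.Lib.Helper99.AltDerange

set_option autoImplicit false
set_option linter.unusedSimpArgs false

/-! Stabilisers of non-degenerate subspaces in `Ω^±_n(q)`, `n` even: glue. -/

namespace Cfsg.Agent.Lib.Helper95

open QuadraticMap Module
open Cfsg.Agent.Lib.Helper49 hiding glEquiv glEquiv_apply

variable {F : Type*} [Field F] [Fintype F] {n : ℕ}

lemma resQ_nondeg_of_on (Q : QuadraticForm F (Fin n → F)) (W : Submodule F (Fin n → F))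
    (hW : Cfsg.Geo.IsNondegenerateOn (QuadraticMap.polar ⇑Q) W) :
    (polarBilin (resQ Q W)).Nondegenerate := by
  apply nondegenerate_of_separatingLeft
  intro x hx
  by_contra hx0
  obtain ⟨_, ⟨y, hy, hxy⟩⟩ := hW x x.2 (fun e => hx0 (Subtype.ext e))
  exact hxy (by have := hx ⟨y, hy⟩; simpa using this)

lemma plane_hex (Q : QuadraticForm F (Fin n → F)) {U U' : Submodule F (Fin n → F)}
    (h : OSplit Q U U') (W : Submodule F (Fin n → F)) (hW : W = U ∨ W = U')
    (hsum : finrank F U + finrank F U' = n)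
    (hex : ¬ (Fintype.card F ≤ 3 ∧ (∃ U₂ : Submodule F (Fin n → F), Module.finrank F U₂ = 2 ∧
      Cfsg.Geo.IsNondegenerateOn (QuadraticMap.polar ⇑Q) U₂ ∧ Cfsg.Geo.IsPlusTypeOn ⇑Q U₂ ∧
      (U₂ = W ∨ (Cfsg.Geo.AreOrthogonalFor (QuadraticMap.polar ⇑Q) U₂ W ∧
        Module.finrank F U₂ + Module.finrank F W = n))))) :
    ¬ (Fintype.card F ≤ 3 ∧ finrank F U' = 2 ∧ ∃ e ∈ U', e ≠ 0 ∧ Q e = 0) := by
  rintro ⟨h3, h2, e, he, he0, heq⟩
  apply hex
  refine ⟨h3, U', h2, ?_, ?_, ?_⟩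
  · intro w hw hw0
    obtain ⟨y, hy, hwy⟩ := h.dualU' hw hw0
    exact ⟨⟨y, hy, by rw [polar_comm, hwy]; exact one_ne_zero⟩,
      ⟨y, hy, by rw [hwy]; exact one_ne_zero⟩⟩
  · refine ⟨Submodule.span F {e}, ?_, ?_, ?_⟩
    · rw [Submodule.span_singleton_le_iff_mem]; exact he
    · intro w hw
      obtain ⟨c, rfl⟩ := Submodule.mem_span_singleton.1 hw
      rw [QuadraticMap.map_smul, heq]; simp
    · rw [finrank_span_singleton he0, h2]
  · rcases hW with rfl | rfl
    · right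
      refine ⟨fun u hu v hv => ?_, by omega⟩
      rw [polar_comm]; exact h.perp v hv u hu
    · left; rfl

lemma no_map_of_lt (Q : QuadraticForm F (Fin n → F)) {U U' : Submodule F (Fin n → F)}
    (hlt : finrank F U' < finrank F U) (g : OG Q) : ¬ ∀ x ∈ U, g.1 x ∈ U' := by
  intro hA
  have hle : U.map (g.1 : (Fin n → F) →ₗ[F] (Fin n → F)) ≤ U' := by
    rintro _ ⟨x, hx, rfl⟩
    exact hA x hx
  have h5 := Submodule.finrank_mono hle
  rw [LinearEquiv.finrank_map_eq g.1 U] at h5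
  omega

theorem nondeg_stab_maximal (hn : 13 ≤ n) (heven : Even n) (Q : QuadraticForm F (Fin n → F))
    (hQ : (polarBilin Q).Nondegenerate) (W : Submodule F (Fin n → F)) (hW0 : W ≠ ⊥) (hW1 : W ≠ ⊤)
    (hW : Cfsg.Geo.IsNondegenerateOn (QuadraticMap.polar ⇑Q) W)
    (hex : ¬ (Fintype.card F ≤ 3 ∧ (∃ U₂ : Submodule F (Fin n → F), Module.finrank F U₂ = 2 ∧
      Cfsg.Geo.IsNondegenerateOn (QuadraticMap.polar ⇑Q) U₂ ∧ Cfsg.Geo.IsPlusTypeOn ⇑Q U₂ ∧
      (U₂ = W ∨ (Cfsg.Geo.AreOrthogonalFor (QuadraticMap.polar ⇑Q) U₂ W ∧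
        Module.finrank F U₂ + Module.finrank F W = n)))))
    (hhalf : 2 * finrank F W = n → ∀ g : OG Q, ¬ ∀ x ∈ W, g.1 x ∈ qperp Q W) :
    Cfsg.Geo.IsMaximalIn (Cfsg.Geo.omegaGL ⇑Q)
      (Cfsg.Geo.subspaceStabilizer W ⊓ Cfsg.Geo.omegaGL ⇑Q) := by
  have hWnd := resQ_nondeg_of_on Q W hW
  have hsplit := osplit_of_nondeg hQ W hWnd
  have hsum := Submodule.finrank_add_eq_of_isCompl (isCompl_qperp W hWnd)
  rw [Module.finrank_fintype_fun_eq_card, Fintype.card_fin] at hsum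
  obtain ⟨r, hr⟩ := heven
  have hpar : (2 : F) = 0 → Even (finrank F W) := by
    intro h2
    apply Cfsg.Agent.Lib.Helper99.even_finrank_of_nondegOn (B := polarBilin Q)
    · intro x
      change polar Q x x = 0
      rw [polar_self, nsmul_eq_mul]
      push_cast
      rw [h2, zero_mul]
    · intro v hv hv0
      obtain ⟨_, ⟨y, hy, hxy⟩⟩ := hW v hv hv0
      exact ⟨y, hy, hxy⟩
  have hperp0 : qperp Q W ≠ ⊥ := by
    intro h0
    rw [h0, finrank_bot, add_zero] at hsum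
    apply hW1
    apply Submodule.eq_top_of_finrank_eq
    rw [Module.finrank_fintype_fun_eq_card, Fintype.card_fin, hsum]
  rcases lt_trichotomy (finrank F (qperp Q W)) (finrank F W) with hlt | heq | hgt
  · exact hsplit.stab_maximal_gen hQ (by omega) (fun _ => by omega) hperp0
      (no_map_of_lt Q hlt) (plane_hex Q hsplit W (Or.inl rfl) hsum hex) W (Or.inl rfl)
  · refine hsplit.stab_maximal_gen hQ (by omega) (fun h2 => ?_) hperp0
      (hhalf (by omega)) (plane_hex Q hsplit W (Or.inl rfl) hsum hex) W (Or.inl rfl)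
    obtain ⟨s, hs⟩ := hpar h2
    omega
  · exact hsplit.symm.stab_maximal_gen hQ (by omega) (fun _ => by omega) hW0
      (no_map_of_lt Q hgt) (plane_hex Q hsplit.symm W (Or.inr rfl) (by omega) hex) W (Or.inr rfl)

/-- isometric halves force plus type -/
theorem plus_of_halves (Q : QuadraticForm F (Fin n → F)) (hQ : (polarBilin Q).Nondegenerate)
    (W : Submodule F (Fin n → F)) (hW : Cfsg.Geo.IsNondegenerateOn (QuadraticMap.polar ⇑Q) W)
    (hhalf : 2 * finrank F W = n) (hev : Even (finrank F W)) (g : OG Q)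
    (hg : ∀ x ∈ W, g.1 x ∈ qperp Q W) : Cfsg.Geo.IsPlusTypeOn ⇑Q ⊤ := by
  have hWnd := resQ_nondeg_of_on Q W hW
  have hc := isCompl_qperp W hWnd
  have hsum := Submodule.finrank_add_eq_of_isCompl hc
  rw [Module.finrank_fintype_fun_eq_card, Fintype.card_fin] at hsum
  have hmap : W.map (g.1 : (Fin n → F) →ₗ[F] (Fin n → F)) = qperp Q W := by
    apply Submodule.eq_of_le_of_finrank_eq
    · rintro _ ⟨x, hx, rfl⟩
      exact hg x hx
    · rw [LinearEquiv.finrank_map_eq g.1 W]; omega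
  let θ : W ≃ₗ[F] qperp Q W := (g.1.submoduleMap W).trans (LinearEquiv.ofEq _ _ hmap)
  have hθ : ∀ w : W, ((θ w : qperp Q W) : Fin n → F) = g.1 (w : Fin n → F) := fun w => rfl
  obtain ⟨L, -, hL, hLd⟩ := exists_singular_of_isometric_halves Q W (qperp Q W)
    hc.inf_eq_bot hev (fun w hw u hu => hu w hw) θ (fun w => by rw [hθ, OG_apply])
  refine ⟨L, le_top, hL, ?_⟩
  rw [finrank_top, Module.finrank_fintype_fun_eq_card, Fintype.card_fin, hLd, hhalf]

end Cfsg.Agent.Lib.Helper95
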