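import Cfsg.Agent.Lib.Helper95.OmGlue2

set_option autoImplicit false
set_option linter.unusedSimpArgs false

namespace Cfsg.Agent.Lib.Helper95

open QuadraticMap Module
open Cfsg.Agent.Lib.Helper49 hiding glEquiv glEquiv_apply

section vec

variable {F V : Type*} [Field F] [Fintype F] [AddCommGroup V] [Module F V] [FiniteDimensional F V]
  {Q : QuadraticForm F V}

/-- non-singular vectors orthogonal to `v` -/
def SV (Q : QuadraticForm F V) (v x : V) : Prop := Q x ≠ 0 ∧ polar Q v x = 0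

lemma qexists_perp3 (hnd : (polarBilin Q).Nondegenerate) (hd : 8 < finrank F V) (x y z : V)
    (δ : F) : ∃ e, Q e = δ ∧ polar Q e x = 0 ∧ polar Q e y = 0 ∧ polar Q e z = 0 := by
  obtain ⟨e, h1, h2⟩ := qexists_perp_norm Q hnd ![x, y, z] (by omega) δ
  exact ⟨e, h2, h1 0, h1 1, h1 2⟩

/-- prescribed norm, orthogonal to `v` (and to `n₀ ⊥ v`), prescribed product with `y` -/
lemma exists_SV_vec (hnd : (polarBilin Q).Nondegenerate) (hd : 8 < finrank F V)
    (h2 : (2 : F) = 0) {v y n₀ : V} (hvy : polar Q v y ≠ 0) (hn : polar Q v n₀ = 0) (γ s : F) :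
    ∃ a, Q a = γ ∧ polar Q v a = 0 ∧ polar Q y a = s ∧ polar Q n₀ a = 0 := by
  have hvv : polar Q v v = 0 := by
    rw [polar_self]; simp only [nsmul_eq_mul]; push_cast; rw [h2, zero_mul]
  set α : F := s / polar Q v y with hα
  obtain ⟨e, he, hev, hey, hen⟩ := qexists_perp3 hnd hd v y n₀ (γ - Q (α • v))
  refine ⟨α • v + e, ?_, ?_, ?_, ?_⟩
  · rw [qmap_add, he, polar_smul_left, polar_comm Q v e, hev]; simp
  · rw [polar_add_right, polar_smul_right, hvv, polar_comm Q v e, hev]; simp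
  · rw [polar_add_right, polar_smul_right, polar_comm Q y v, polar_comm Q y e, hey, hα]
    simp only [smul_eq_mul, add_zero]
    field_simp
  · rw [polar_add_right, polar_smul_right, polar_comm Q n₀ v, hn, polar_comm Q n₀ e, hen]; simp

theorem eng_vec (hQ : (polarBilin Q).Nondegenerate) (hd : 8 < finrank F V) (h2 : (2 : F) = 0)
    {v : V} {M : Subgroup (OG Q)}
    (hM : ∀ a b, SV Q v a → SV Q v b → Q a = Q b → refl Q a * refl Q b ∈ M) :
    Eng Q M (SV Q v) where
  ns a ha := ha.1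
  pair := hM
  refl_closed a b ha hb := by
    refine ⟨by rw [Q_reflLin]; exact hb.1, ?_⟩
    rw [reflLin_apply, polar_sub_right, polar_smul_right, ha.2, hb.2]; simp
  smul_closed c a hc ha := by
    refine ⟨by rw [QuadraticMap.map_smul]; exact mul_ne_zero (mul_ne_zero hc hc) ha.1, ?_⟩
    rw [polar_smul_right, ha.2]; simp
  rich x y δ hδ := by
    obtain ⟨c, hc, h1, h3, h4⟩ := qexists_perp3 hQ hd v x y δ
    exact ⟨c, ⟨by rw [hc]; exact hδ, by rw [polar_comm]; exact h1⟩, hc, h3, h4⟩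
  a2 y hy hS := by
    have hvy : polar Q v y ≠ 0 := fun h0 => hS ⟨hy, h0⟩
    obtain ⟨d, hd1, hd2, hd3, -⟩ := exists_SV_vec hQ hd h2 hvy (n₀ := 0) (by simp) (Q y) (Q y)
    exact ⟨d, ⟨by rw [hd1]; exact hy, hd2⟩, hd1, by rw [polar_comm]; exact hd3⟩

theorem commutator_le_vec (hQ : (polarBilin Q).Nondegenerate) (hd : 8 < finrank F V)
    (h2 : (2 : F) = 0) {v : V} {M : Subgroup (OG Q)}
    (hM : ∀ a b, SV Q v a → SV Q v b → Q a = Q b → refl Q a * refl Q b ∈ M)
    (hg : ∃ g ∈ M, ∃ a, SV Q v a ∧ polar Q v (g.1 a) ≠ 0) : commutator (OG Q) ≤ M := by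
  have E := eng_vec hQ hd h2 hM
  obtain ⟨g, hgM, a₀, ha₀, hβ₀⟩ := hg
  have hC₀ := E.CC_M_S hgM ha₀
  set y₀ := g.1 a₀ with hy₀
  refine E.commutator_le hQ (Or.inr (by omega)) ?_
  intro y hy
  by_cases hvy : polar Q v y = 0
  · exact E.CC_of_S ⟨hy, hvy⟩
  -- a vector of `C` of the same type as `y`
  obtain ⟨z, hzC, hzq, hzv⟩ : ∃ z, CC Q M (SV Q v) z ∧ Q z = Q y ∧ polar Q v z = polar Q v y := by
    obtain ⟨a, ha1, ha2, ha3, -⟩ := exists_SV_vec hQ hd h2 hβ₀ (n₀ := 0) (by simp) (Q y)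
      (-(polar Q v y / polar Q v y₀) * Q y₀)
    refine ⟨reflLin Q y₀ a, E.CC_refl hC₀ (E.CC_of_S ⟨by rw [ha1]; exact hy, ha2⟩), ?_, ?_⟩
    · rw [Q_reflLin, ha1]
    · rw [reflLin_apply, polar_sub_right, polar_smul_right, ha2, ha3]
      have := hC₀.1
      simp only [smul_eq_mul]
      field_simp
      ring
  -- one step
  have step : ∀ z₁ z₂ : V, CC Q M (SV Q v) z₁ → Q z₁ = Q z₂ → polar Q v z₁ = polar Q v z₂ →
      Q (z₁ - z₂) ≠ 0 → CC Q M (SV Q v) z₂ := by
    intro z₁ z₂ h1 hq hv hs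
    have := E.CC_S_refl (a := z₁ - z₂) ⟨hs, by rw [polar_sub_right, hv, sub_self]⟩ h1
    rwa [reflLin_sub_apply Q z₁ z₂ hq hs] at this
  by_cases hs : Q (z - y) = 0
  · have hzn : polar Q z (z - y) = 0 := by
      have e1 : Q y = Q (z - (z - y)) := by rw [sub_sub_cancel]
      rw [qmap_sub, hs, hzq] at e1
      linear_combination e1
    have hvn : polar Q v (z - y) = 0 := by rw [polar_sub_right, hzv, sub_self]
    have hvz : polar Q v z ≠ 0 := by rw [hzv]; exact hvy
    obtain ⟨w, hw1, hw2, hw3, hw4⟩ := exists_SV_vec hQ hd h2 hvz hvn 1 (-1)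
    have h1 : CC Q M (SV Q v) (z + w) := by
      apply step z (z + w) hzC
      · rw [qmap_add, hw1, hw3]; ring
      · rw [polar_add_right, hw2, add_zero]
      · have : z - (z + w) = -w := by abel
        rw [this, QuadraticMap.map_neg, hw1]; exact one_ne_zero
    apply step (z + w) y h1
    · rw [qmap_add, hw1, hw3, hzq]; ring
    · rw [polar_add_right, hw2, add_zero, hzv]
    · have : z + w - y = (z - y) + w := by abel
      rw [this, qmap_add, hs, hw1, hw4]; simp
  · exact step z y hzC hzq hzv hs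

omit [Fintype F] [FiniteDimensional F V] in
lemma mem_stabGrp_span_of_smul {e : V ≃ₗ[F] V} {v : V} {c : F} (hc : c ≠ 0) (he : e v = c • v) :
    e ∈ stabGrp (Submodule.span F {v}) := by
  intro x
  constructor
  · intro hx
    obtain ⟨d, rfl⟩ := Submodule.mem_span_singleton.1 hx
    rw [map_smul, he, smul_smul]
    exact Submodule.smul_mem _ _ (Submodule.mem_span_singleton_self v)
  · intro hx
    obtain ⟨d, hd⟩ := Submodule.mem_span_singleton.1 hx
    have : e ((d * c⁻¹) • v) = e x := by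
      rw [map_smul, he, smul_smul, mul_assoc, inv_mul_cancel₀ hc, mul_one, hd]
    rw [← e.injective this]
    exact Submodule.smul_mem _ _ (Submodule.mem_span_singleton_self v)

/-- an isometry not stabilising `⟨v⟩` moves some non-singular vector of `v^⊥` out of `v^⊥` -/
lemma exists_escape_vec (hQ : (polarBilin Q).Nondegenerate) (hd : 8 < finrank F V) {v : V}
    (hv : v ≠ 0) (g : OG Q) (hg : g.1 ∉ stabGrp (Submodule.span F {v})) :
    ∃ a, SV Q v a ∧ polar Q v (g.1 a) ≠ 0 := by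
  by_contra hcon
  push Not at hcon
  apply hg
  have h1 : ∀ x, polar Q v x = 0 → polar Q v (g.1 x) = 0 := by
    intro x hx
    by_cases hq : Q x = 0
    · obtain ⟨a, ha, hav, hax, -⟩ := qexists_perp3 hQ hd v x x 1
      have hav' : polar Q v a = 0 := by rw [polar_comm]; exact hav
      have e1 := hcon a ⟨by rw [ha]; exact one_ne_zero, hav'⟩
      have e2 := hcon (x + a) ⟨by rw [qmap_add, hq, ha, polar_comm, hax]; simp, by
        rw [polar_add_right, hx, hav', add_zero]⟩
      rw [map_add, polar_add_right, e1, add_zero] at e2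
      exact e2
    · exact hcon x ⟨hq, hx⟩
  have hgg : g.1 (g⁻¹.1 v) = v := by
    have : (g * g⁻¹).1 v = v := by rw [mul_inv_cancel]; rfl
    simpa using this
  have h3 : g⁻¹.1 v ∈ Submodule.span F (Set.range ![v]) := by
    apply smem_span_of_perp (B := polarBilin Q) hQ ![v]
    intro z hz
    have hz0 : polar Q z v = 0 := hz 0
    change polar Q z (g⁻¹.1 v) = 0
    rw [← OG_polar Q g, hgg, polar_comm]
    exact h1 z (by rw [polar_comm]; exact hz0)
  obtain ⟨c, hc⟩ := (Submodule.mem_span_range_iff_exists_fun F).1 h3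
  simp only [Fin.sum_univ_one, Matrix.cons_val_zero, Fin.isValue] at hc
  have hc0 : c 0 ≠ 0 := by
    intro h0
    rw [h0, zero_smul] at hc
    rw [← hc, map_zero] at hgg
    exact hv hgg.symm
  apply mem_stabGrp_span_of_smul (c := (c 0)⁻¹) (inv_ne_zero hc0)
  rw [← hc, map_smul] at hgg
  rw [eq_inv_smul_iff₀ hc0]
  exact hgg

end vec

end Cfsg.Agent.Lib.Helper95
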