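import Cfsg.Agent.Lib.Helper95.Orth

set_option autoImplicit false
set_option linter.unusedSimpArgs false

namespace Cfsg.Agent.Lib.Helper95

open Module

variable {K V : Type*} [Field K] [AddCommGroup V] [Module K V] {B : LinearMap.BilinForm K V}
variable (hB : B.IsSymm) (h2 : (2 : K) ≠ 0)

include hB h2 in
/-- An additive subgroup of `e^⊥`, invariant under products of two reflections in vectors of `e^⊥`
and not contained in `K e`, is all of `e^⊥`. -/
theorem perp_closure [FiniteDimensional K V] (hnd : B.Nondegenerate)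
    (hU : ∀ α β δ : K, α ≠ 0 → β ≠ 0 → ∃ x y, α * x ^ 2 + β * y ^ 2 = δ)
    (hdim : 9 ≤ finrank K V) (e : V) (P : V → Prop)
    (hadd : ∀ x y, B x e = 0 → B y e = 0 → P x → P y → P (x + y))
    (hneg : ∀ x, P x → P (-x))
    (hinv : ∀ (a b : V) (ha : B a a ≠ 0) (hb : B b b ≠ 0), B a e = 0 → B b e = 0 →
      ∀ x, B x e = 0 → P x → P (rf B a ha (rf B b hb x)))
    {w : V} (hwe : B w e = 0) (hw : P w) (hws : w ∉ Submodule.span K {e}) :
    ∀ y, B y e = 0 → P y := by
  have h4 : (4 : K) ≠ 0 := by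
    have : (4 : K) = 2 * 2 := by norm_num
    rw [this]; exact mul_ne_zero h2 h2
  have S1 : ∀ v, B v e = 0 → P v → ∀ a, B a a ≠ 0 → B a e = 0 → P ((2 / B a a * B v a) • a) := by
    intro v hve hv a ha hae
    obtain ⟨b, hb, hbb⟩ := exists_perp_nonsing hB h2 hnd ![e, v] (by omega)
    have hbe : B b e = 0 := hb 0
    have hbv : B b v = 0 := hb 1
    have h1 := hinv a b ha hbb hae hbe v hve hv
    rw [rf_apply_of_perp hbb (by rw [hB.eq, hbv]), rf_apply] at h1
    have h3 := hadd v _ hve (by simp [hve, hae]) hv (hneg _ h1)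
    have e1 : v + -(v - (2 / B a a * B v a) • a) = (2 / B a a * B v a) • a := by abel
    rwa [e1] at h3
  have h0 : P 0 := by
    have := hadd w (-w) hwe (by simp [hwe]) hw (hneg w hw)
    simpa using this
  have S2 : ∀ a, B a a ≠ 0 → B a e = 0 → ∀ c : K, c ≠ 0 → P (c • a) → ∀ m : K, P (m • a) := by
    intro a ha hae c hc hca m
    by_cases hm : m = 0
    · rw [hm, zero_smul]; exact h0
    obtain ⟨e', he', hee⟩ := exists_perp_norm hB h2 hnd hU ![e, a] (by omega)
      (4 * B a a * c / m - B a a)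
    have he'e : B e' e = 0 := he' 0
    have he'a : B e' a = 0 := he' 1
    have hae' : B a e' = 0 := by rw [hB.eq, he'a]
    have hn : B (a + e') (a + e') = 4 * B a a * c / m := by
      simp only [map_add, LinearMap.add_apply, he'a, hae', hee]; ring
    have hn0 : B (a + e') (a + e') ≠ 0 := by
      rw [hn]
      exact div_ne_zero (mul_ne_zero (mul_ne_zero h4 ha) hc) hm
    have h1 := S1 (c • a) (by simp [hae]) hca (a + e') hn0 (by simp [hae, he'e])
    have h3 := S1 _ (by simp [hae, he'e]) h1 a ha hae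
    have e1 : 2 / B a a * B ((2 / B (a + e') (a + e') * B (c • a) (a + e')) • (a + e')) a = m := by
      rw [hn]
      simp only [map_add, map_smul, LinearMap.add_apply, LinearMap.smul_apply, smul_eq_mul, he'a,
        hae']
      field_simp
      ring
    rwa [e1] at h3
  have S3' : ∀ a a', B a a ≠ 0 → B a e = 0 → B a' a' ≠ 0 → B a' e = 0 → B a a' ≠ 0 →
      (∀ m : K, P (m • a)) → ∀ m : K, P (m • a') := by
    intro a a' ha hae ha' ha'e haa h
    have h1 := S1 a hae (by simpa using h 1) a' ha' ha'e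
    exact S2 a' ha' ha'e _ (mul_ne_zero (div_ne_zero h2 ha') haa) h1
  have S3 : ∀ a a', B a a ≠ 0 → B a e = 0 → B a' a' ≠ 0 → B a' e = 0 →
      (∀ m : K, P (m • a)) → ∀ m : K, P (m • a') := by
    intro a a' ha hae ha' ha'e h
    by_cases haa : B a a' = 0
    · obtain ⟨e', he', hee⟩ := exists_perp_norm hB h2 hnd hU ![e, a, a'] (by omega)
        (1 - B a a - B a' a')
      have he'e : B e' e = 0 := he' 0
      have he'a : B e' a = 0 := he' 1
      have he'a' : B e' a' = 0 := he' 2
      have hae' : B a e' = 0 := by rw [hB.eq, he'a]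
      have ha'e' : B a' e' = 0 := by rw [hB.eq, he'a']
      have ha'a : B a' a = 0 := by rw [hB.eq, haa]
      have hn : B (a + a' + e') (a + a' + e') ≠ 0 := by
        have : B (a + a' + e') (a + a' + e') = 1 := by
          simp only [map_add, LinearMap.add_apply, he'a, hae', he'a', ha'e', haa, ha'a, hee]; ring
        rw [this]; exact one_ne_zero
      have hne : B (a + a' + e') e = 0 := by simp [hae, ha'e, he'e]
      refine S3' (a + a' + e') a' hn hne ha' ha'e ?_ (S3' a (a + a' + e') ha hae hn hne ?_ h)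
      · simp only [map_add, LinearMap.add_apply, haa, he'a']; simpa using ha'
      · simp only [map_add, LinearMap.add_apply, haa, hae']; simpa using ha
    · exact S3' a a' ha hae ha' ha'e haa h
  -- a first vector
  have hex : ∃ v₀, B v₀ e = 0 ∧ B v₀ w ≠ 0 := by
    by_contra hcon
    push Not at hcon
    apply hws
    have := smem_span_of_perp hnd ![e] (w := w) (fun z hz => hcon z (hz 0))
    simpa using this
  obtain ⟨v₀, hv₀e, hv₀w⟩ := hex
  obtain ⟨e', he', hee⟩ := exists_perp_norm hB h2 hnd hU ![e, w, v₀] (by omega) (1 - B v₀ v₀)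
  have he'e : B e' e = 0 := he' 0
  have he'w : B e' w = 0 := he' 1
  have he'v : B e' v₀ = 0 := he' 2
  have hn : B (v₀ + e') (v₀ + e') ≠ 0 := by
    have : B (v₀ + e') (v₀ + e') = 1 := by
      simp only [map_add, LinearMap.add_apply, he'v, hB.eq v₀ e', hee]; ring
    rw [this]; exact one_ne_zero
  have hne : B (v₀ + e') e = 0 := by simp [hv₀e, he'e]
  have hfirst : ∀ m : K, P (m • (v₀ + e')) := by
    refine S2 _ hn hne _ ?_ (S1 w hwe hw _ hn hne)
    refine mul_ne_zero (div_ne_zero h2 hn) ?_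
    rw [hB.eq]
    simp only [map_add, LinearMap.add_apply, he'w, add_zero]
    exact hv₀w
  intro y hye
  obtain ⟨e'', he'', hee'⟩ := exists_perp_norm hB h2 hnd hU ![e, y] (by omega) (1 - B y y / 4)
  have he''e : B e'' e = 0 := he'' 0
  have he''y : B e'' y = 0 := he'' 1
  have hye'' : B y e'' = 0 := by rw [hB.eq, he''y]
  have hn1 : B ((1 / 2 : K) • y + e'') ((1 / 2 : K) • y + e'') ≠ 0 := by
    have : B ((1 / 2 : K) • y + e'') ((1 / 2 : K) • y + e'') = 1 := by
      simp only [map_add, map_smul, LinearMap.add_apply, LinearMap.smul_apply, smul_eq_mul, he''y,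
        hye'', hee']
      field_simp
      ring
    rw [this]; exact one_ne_zero
  have hn2 : B ((1 / 2 : K) • y - e'') ((1 / 2 : K) • y - e'') ≠ 0 := by
    have : B ((1 / 2 : K) • y - e'') ((1 / 2 : K) • y - e'') = 1 := by
      simp only [map_sub, map_smul, LinearMap.sub_apply, LinearMap.smul_apply, smul_eq_mul, he''y,
        hye'', hee']
      field_simp
      ring
    rw [this]; exact one_ne_zero
  have hp1 : B ((1 / 2 : K) • y + e'') e = 0 := by simp [hye, he''e]
  have hp2 : B ((1 / 2 : K) • y - e'') e = 0 := by simp [hye, he''e]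
  have h5 := hadd _ _ hp1 hp2 (by simpa using S3 _ _ hn hne hn1 hp1 hfirst 1)
    (by simpa using S3 _ _ hn hne hn2 hp2 hfirst 1)
  have e5 : (1 / 2 : K) • y + e'' + ((1 / 2 : K) • y - e'') = y := by
    have : (1 / 2 : K) + 1 / 2 = 1 := by field_simp; norm_num
    calc (1 / 2 : K) • y + e'' + ((1 / 2 : K) • y - e'') = ((1 / 2 : K) + 1 / 2) • y := by module
      _ = y := by rw [this, one_smul]
  rwa [e5] at h5

/-- The transvection `gtv B u w` lies in `M`. -/
def TTo (B : LinearMap.BilinForm K V) (M : Subgroup (V ≃ₗ[K] V)) (u w : V) : Prop :=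
  ∀ h : B u w = 0, gtv B u w h ∈ M

variable {M : Subgroup (V ≃ₗ[K] V)}

section closure

variable (hM : ∀ (a b : V) (ha : B a a ≠ 0) (hb : B b b ≠ 0), rf B a ha * rf B b hb ∈ M)

include hB hM in
lemma TTo_conj {u w a b : V} (ha : B a a ≠ 0) (hb : B b b ≠ 0) (h : TTo B M u w) :
    TTo B M (rf B a ha (rf B b hb u)) (rf B a ha (rf B b hb w)) := by
  intro h'
  have huw : B u w = 0 := by rwa [rf_isometry hB, rf_isometry hB] at h'
  have h1 := hM a b ha hb
  have h3 := mul_mem (mul_mem h1 (h huw)) (inv_mem h1)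
  rw [conj_gtv (h := rf B a ha * rf B b hb)
    (fun x y => by rw [LinearEquiv.mul_apply, LinearEquiv.mul_apply, rf_isometry hB,
      rf_isometry hB])] at h3
  exact h3

variable [FiniteDimensional K V] (hnd : B.Nondegenerate)
  (hU : ∀ α β δ : K, α ≠ 0 → β ≠ 0 → ∃ x y, α * x ^ 2 + β * y ^ 2 = δ)
  (hdim : 9 ≤ finrank K V)

include hB h2 hM hnd hU hdim in
lemma TTo_right {u w : V} (huw : B u w = 0) (h : TTo B M u w) (hws : w ∉ Submodule.span K {u}) :
    ∀ w', TTo B M u w' := by
  intro w' hw'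
  refine perp_closure hB h2 hnd hU hdim u (fun x => TTo B M u x) ?_ ?_ ?_ (by rw [hB.eq, huw]) h hws
    w' (by rw [hB.eq, hw']) hw'
  · intro x y hx hy h1 h3 h4
    have := mul_mem (h1 (by rw [hB.eq, hx])) (h3 (by rw [hB.eq, hy]))
    rwa [gtv_add] at this
  · intro x h1 h3
    have hx : B u x = 0 := by simpa using h3
    have := inv_mem (h1 hx)
    rwa [gtv_inv] at this
  · intro a b ha hb hau hbu x _ h1
    have := TTo_conj hB hM ha hb h1
    rwa [rf_apply_of_perp hb (by rw [hB.eq, hbu]), rf_apply_of_perp ha (by rw [hB.eq, hau])] at this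

include hB h2 hM hnd hU hdim in
lemma TTo_left {u w : V} (huw : B u w = 0) (h : TTo B M u w) (hus : u ∉ Submodule.span K {w}) :
    ∀ u', TTo B M u' w := by
  intro u' hu'
  refine perp_closure hB h2 hnd hU hdim w (fun x => TTo B M x w) ?_ ?_ ?_ huw h hus u' hu' hu'
  · intro x y hx hy h1 h3 h4
    have := mul_mem (h1 hx) (h3 hy)
    rwa [gtv_add_left] at this
  · intro x h1 h3
    have hx : B x w = 0 := by simpa using h3
    have := inv_mem (h1 hx)
    rw [gtv_inv] at this
    have e : gtv B x (-w) (by simp [hx]) = gtv B (-x) w h3 := by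
      ext z; simp
    rwa [e] at this
  · intro a b ha hb haw hbw x _ h1
    have := TTo_conj hB hM ha hb h1
    rwa [rf_apply_of_perp hb (x := w) (by rw [hB.eq, hbw]),
      rf_apply_of_perp ha (x := w) (by rw [hB.eq, haw])] at this

include hB h2 hM hnd hU hdim in
lemma TTo_all {b w : V} (hb0 : b ≠ 0) (hbw : B b w = 0) (h : TTo B M b w)
    (hws : w ∉ Submodule.span K {b}) : ∀ u' w', TTo B M u' w' := by
  intro u' w'
  by_cases hu0 : u' = 0
  · subst hu0
    intro h'
    have : gtv B 0 w' h' = 1 := by ext x; simp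
    rw [this]; exact one_mem _
  obtain ⟨w₁, hw₁, hw₁n⟩ := exists_perp_nonsing hB h2 hnd ![b, u'] (by omega)
  have h1b : B w₁ b = 0 := hw₁ 0
  have h1u : B w₁ u' = 0 := hw₁ 1
  have hb1 : B b w₁ = 0 := by rw [hB.eq, h1b]
  have hu1 : B u' w₁ = 0 := by rw [hB.eq, h1u]
  have hT1 : TTo B M b w₁ := TTo_right hB h2 hM hnd hU hdim hbw h hws w₁
  have hT2 : TTo B M u' w₁ := by
    refine TTo_left hB h2 hM hnd hU hdim hb1 hT1 ?_ u'
    intro hmem
    obtain ⟨c, hc⟩ := Submodule.mem_span_singleton.1 hmem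
    rw [← hc, map_smul, LinearMap.smul_apply, smul_eq_mul] at hb1
    rcases mul_eq_zero.1 hb1 with h3 | h3
    · exact hb0 (by rw [← hc, h3, zero_smul])
    · exact hw₁n h3
  refine TTo_right hB h2 hM hnd hU hdim hu1 hT2 ?_ w'
  intro hmem
  obtain ⟨c, hc⟩ := Submodule.mem_span_singleton.1 hmem
  apply hw₁n
  have : B w₁ (c • u') = 0 := by rw [map_smul, h1u, smul_zero]
  rwa [hc] at this

include hB h2 hnd hU hdim in
/-- A linear automorphism mapping `a^⊥` to `(g a)^⊥` for all non-singular `a` is a similitude. -/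
lemma ssim_of_forall (g : V ≃ₗ[K] V)
    (h : ∀ a, B a a ≠ 0 → ∃ l : K, ∀ y, B y a = l * B (g y) (g a)) :
    ∃ c : K, c ≠ 0 ∧ ∀ x y, B (g x) (g y) = c * B x y := by
  choose! l hl using h
  have hl0 : ∀ a, B a a ≠ 0 → l a ≠ 0 := by
    intro a ha h0
    apply ha
    rw [hl a ha a, h0, zero_mul]
  have hadj : ∀ a a', B a a ≠ 0 → B a' a' ≠ 0 → B a a' ≠ 0 → l a = l a' := by
    intro a a' ha ha' haa
    have h1 := hl a' ha' a
    have h3 := hl a ha a'
    rw [hB.eq a' a, hB.eq (g a') (g a)] at h3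
    have h4 : B (g a) (g a') ≠ 0 := by
      intro h0
      rw [h0, mul_zero] at h1
      exact haa h1
    have h5 : (l a - l a') * B (g a) (g a') = 0 := by linear_combination h1 - h3
    rcases mul_eq_zero.1 h5 with h | h
    · exact sub_eq_zero.1 h
    · exact absurd h h4
  have hconst : ∀ a a', B a a ≠ 0 → B a' a' ≠ 0 → l a = l a' := by
    intro a a' ha ha'
    by_cases haa : B a a' = 0
    · obtain ⟨e', he', hee⟩ := exists_perp_norm hB h2 hnd hU ![a, a'] (by omega)
        (1 - B a a - B a' a')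
      have he'a : B e' a = 0 := he' 0
      have he'a' : B e' a' = 0 := he' 1
      have hae' : B a e' = 0 := by rw [hB.eq, he'a]
      have ha'e' : B a' e' = 0 := by rw [hB.eq, he'a']
      have ha'a : B a' a = 0 := by rw [hB.eq, haa]
      have hn : B (a + a' + e') (a + a' + e') ≠ 0 := by
        have : B (a + a' + e') (a + a' + e') = 1 := by
          simp only [map_add, LinearMap.add_apply, he'a, hae', he'a', ha'e', haa, ha'a, hee]; ring
        rw [this]; exact one_ne_zero
      rw [hadj a (a + a' + e') ha hn (by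
          simp only [map_add, LinearMap.add_apply, haa, hae']; simpa using ha),
        hadj (a + a' + e') a' hn ha' (by
          simp only [map_add, LinearMap.add_apply, haa, he'a']; simpa using ha')]
    · exact hadj a a' ha ha' haa
  obtain ⟨a₀, -, ha₀⟩ := exists_perp_nonsing hB h2 hnd (k := 0) (fun i => i.elim0) (by omega)
  have hall : ∀ y v, B y v = l a₀ * B (g y) (g v) := by
    intro y v
    obtain ⟨e'', he'', hee'⟩ := exists_perp_norm hB h2 hnd hU ![v] (by omega) (1 - B v v / 4)
    have h4 : (4 : K) ≠ 0 := by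
      have : (4 : K) = 2 * 2 := by norm_num
      rw [this]; exact mul_ne_zero h2 h2
    have he''v : B e'' v = 0 := he'' 0
    have hve'' : B v e'' = 0 := by rw [hB.eq, he''v]
    have hn1 : B ((1 / 2 : K) • v + e'') ((1 / 2 : K) • v + e'') ≠ 0 := by
      have : B ((1 / 2 : K) • v + e'') ((1 / 2 : K) • v + e'') = 1 := by
        simp only [map_add, map_smul, LinearMap.add_apply, LinearMap.smul_apply, smul_eq_mul, he''v,
          hve'', hee']
        field_simp
        ring
      rw [this]; exact one_ne_zero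
    have hn2 : B ((1 / 2 : K) • v - e'') ((1 / 2 : K) • v - e'') ≠ 0 := by
      have : B ((1 / 2 : K) • v - e'') ((1 / 2 : K) • v - e'') = 1 := by
        simp only [map_sub, map_smul, LinearMap.sub_apply, LinearMap.smul_apply, smul_eq_mul, he''v,
          hve'', hee']
        field_simp
        ring
      rw [this]; exact one_ne_zero
    have e5 : v = (1 / 2 : K) • v + e'' + ((1 / 2 : K) • v - e'') := by
      have : (1 / 2 : K) + 1 / 2 = 1 := by field_simp; norm_num
      calc v = ((1 / 2 : K) + 1 / 2) • v := by rw [this, one_smul]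
        _ = (1 / 2 : K) • v + e'' + ((1 / 2 : K) • v - e'') := by module
    have h5 := hl _ hn1 y
    have h6 := hl _ hn2 y
    rw [hconst _ a₀ hn1 ha₀] at h5
    rw [hconst _ a₀ hn2 ha₀] at h6
    calc B y v = B y ((1 / 2 : K) • v + e'') + B y ((1 / 2 : K) • v - e'') := by
          rw [← map_add, ← e5]
      _ = l a₀ * (B (g y) (g ((1 / 2 : K) • v + e'')) + B (g y) (g ((1 / 2 : K) • v - e''))) := by
          rw [h5, h6]; ring
      _ = l a₀ * B (g y) (g v) := by rw [← map_add, ← map_add, ← e5]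
  refine ⟨(l a₀)⁻¹, inv_ne_zero (hl0 a₀ ha₀), fun x y => ?_⟩
  rw [hall x y, ← mul_assoc, inv_mul_cancel₀ (hl0 a₀ ha₀), one_mul]

include hB hnd in
omit hdim hU in
lemma sriesz (φ : Module.Dual K V) : ∃ w, ∀ z, B z w = φ z :=
  ⟨(B.toDual hnd).symm φ, fun z => by
    rw [hB.eq, LinearMap.BilinForm.apply_toDual_symm_apply]⟩

omit [FiniteDimensional K V] in
/-- The key computation: a commutator which is a transvection. -/
lemma comm_calc (g : V ≃ₗ[K] V) {a c x y : V} (ha : B a a ≠ 0) (hc : B c c ≠ 0) (hx : B x x ≠ 0)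
    (hy : B y y ≠ 0) (h1 : B (g c) x = 0) (h2' : B (g c) y = 0) (h3 : B (g.symm x) c = 0)
    (h4 : B (g.symm y) c = 0) (h5 : B (g a) x = 0) (h6 : B (g a) y = 0) (h7 : B (g.symm y) a = 0)
    (s : K) (hs : s = -(2 / B x x) * (2 / B a a * B (g.symm x) a))
    (hbx : B (g a) (s • x) = 0) :
    (g * (rf B a ha * rf B c hc) * g⁻¹) * (rf B x hx * rf B y hy) =
      gtv B (g a) (s • x) hbx * ((rf B x hx * rf B y hy) * (g * (rf B a ha * rf B c hc) * g⁻¹)) := by
  set ψ : V →ₗ[K] K := (2 / B a a) • (B.flip a).comp (g.symm : V →ₗ[K] V) with hψ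
  set γ : V →ₗ[K] K := (2 / B c c) • (B.flip c).comp (g.symm : V →ₗ[K] V) with hγ
  have hψa : ∀ z, ψ z = 2 / B a a * B (g.symm z) a := fun z => by simp [hψ]
  have hγa : ∀ z, γ z = 2 / B c c * B (g.symm z) c := fun z => by simp [hγ]
  set E := g * (rf B a ha * rf B c hc) * g⁻¹ with hEdef
  set h := rf B x hx * rf B y hy with hhdef
  have hE : ∀ z, E z = z - γ z • g c - (ψ z - γ z * ψ (g c)) • g a := by
    intro z
    have e1 : E z = g (rf B a ha (rf B c hc (g.symm z))) := rfl
    rw [e1, rf_apply, rf_apply, hψa, hγa, hψa]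
    simp only [map_sub, map_smul, LinearEquiv.apply_symm_apply, LinearEquiv.symm_apply_apply,
      LinearMap.sub_apply, LinearMap.smul_apply, smul_eq_mul]
    module
  have hh : ∀ z, h z = rf B x hx (rf B y hy z) := fun z => rfl
  have hγx : γ x = 0 := by rw [hγa, h3, mul_zero]
  have hγy : γ y = 0 := by rw [hγa, h4, mul_zero]
  have hψy : ψ y = 0 := by rw [hψa, h7, mul_zero]
  have hγh : ∀ z, γ (h z) = γ z := by
    intro z
    rw [hh, rf_apply, rf_apply]
    simp only [map_sub, map_smul, hγx, hγy, smul_eq_mul, mul_zero, sub_zero]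
  have hψh : ∀ z, ψ (h z) = ψ z - (2 / B x x * B (rf B y hy z) x) * ψ x := by
    intro z
    rw [hh, rf_apply, map_sub, map_smul, smul_eq_mul]
    congr 1
    rw [rf_apply, map_sub, map_smul, hψy, smul_zero, sub_zero]
  have hhb : h (g a) = g a := by
    rw [hh, rf_apply_of_perp hy h6, rf_apply_of_perp hx h5]
  have hhd : h (g c) = g c := by
    rw [hh, rf_apply_of_perp hy h2', rf_apply_of_perp hx h1]
  have hBx : ∀ z, B (h z) x = - B (rf B y hy z) x := by
    intro z
    rw [hh, rf_apply, map_sub, LinearMap.sub_apply, map_smul, LinearMap.smul_apply, smul_eq_mul]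
    field_simp
    ring
  ext z
  have e1 : (E * h) z = E (h z) := rfl
  have e2 : (gtv B (g a) (s • x) hbx * (h * E)) z = gtv B (g a) (s • x) hbx (h (E z)) := rfl
  rw [e1, e2, gtv_apply, hE (h z), hE z, hγh, hψh]
  simp only [map_sub, map_smul, hhb, hhd, LinearMap.sub_apply, LinearMap.smul_apply, smul_eq_mul,
    hBx, h1, h5, mul_zero, sub_zero]
  rw [hs, ← hψa]
  module

include hB h2 hM hnd hU hdim in
/-- A subgroup containing all products of two reflections and an element that is not a similitude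
contains all transvections. -/
theorem transvection_mem_of_not_ssim {g : V ≃ₗ[K] V} (hgM : g ∈ M)
    (hg : ¬ ∃ c : K, c ≠ 0 ∧ ∀ x y, B (g x) (g y) = c * B x y)
    (φ : Module.Dual K V) (v : V) (hφv : φ v = 0) : LinearEquiv.transvection hφv ∈ M := by
  have h1 : ¬ ∀ a, B a a ≠ 0 → ∃ l : K, ∀ y, B y a = l * B (g y) (g a) :=
    fun h => hg (ssim_of_forall hB h2 hnd hU hdim g h)
  push Not at h1
  obtain ⟨a, ha, hal⟩ := h1
  obtain ⟨wa, hwa⟩ := sriesz hB hnd ((B.flip a).comp (g.symm : V →ₗ[K] V))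
  have hwa' : ∀ z, B z wa = B (g.symm z) a := fun z => by rw [hwa]; simp
  have hws : wa ∉ Submodule.span K {g a} := by
    intro hmem
    obtain ⟨l, hl⟩ := Submodule.mem_span_singleton.1 hmem
    obtain ⟨y, hy⟩ := hal l
    apply hy
    have := hwa' (g y)
    rw [← hl, map_smul, smul_eq_mul, LinearEquiv.symm_apply_apply] at this
    exact this.symm
  -- the vector `x`
  have hex : ∃ v₀, B v₀ (g a) = 0 ∧ B v₀ wa ≠ 0 := by
    by_contra hcon
    push Not at hcon
    apply hws
    have := smem_span_of_perp hnd ![g a] (w := wa) (fun z hz => hcon z (hz 0))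
    simpa using this
  obtain ⟨v₀, hv₀b, hv₀w⟩ := hex
  obtain ⟨e', he', hee⟩ := exists_perp_norm hB h2 hnd hU ![g a, wa, v₀] (by omega) (1 - B v₀ v₀)
  have he'b : B e' (g a) = 0 := he' 0
  have he'w : B e' wa = 0 := he' 1
  have he'v : B e' v₀ = 0 := he' 2
  set x := v₀ + e' with hxdef
  have hx : B x x ≠ 0 := by
    have : B x x = 1 := by
      simp only [hxdef, map_add, LinearMap.add_apply, he'v, hB.eq v₀ e', hee]; ring
    rw [this]; exact one_ne_zero
  have hxb : B x (g a) = 0 := by simp [hxdef, hv₀b, he'b]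
  have hxw : B x wa ≠ 0 := by
    simp only [hxdef, map_add, LinearMap.add_apply, he'w, add_zero]; exact hv₀w
  obtain ⟨y, hy', hy⟩ := exists_perp_nonsing hB h2 hnd ![g a, wa] (by omega)
  have hyb : B y (g a) = 0 := hy' 0
  have hyw : B y wa = 0 := hy' 1
  obtain ⟨xd, hxd⟩ := sriesz hB hnd ((B.flip x).comp (g : V →ₗ[K] V))
  obtain ⟨yd, hyd⟩ := sriesz hB hnd ((B.flip y).comp (g : V →ₗ[K] V))
  obtain ⟨c, hc', hc⟩ := exists_perp_nonsing hB h2 hnd ![xd, yd, g.symm x, g.symm y] (by omega)
  have hc1 : B (g c) x = 0 := by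
    have : B c xd = 0 := hc' 0
    rw [hxd] at this; simpa using this
  have hc2 : B (g c) y = 0 := by
    have : B c yd = 0 := hc' 1
    rw [hyd] at this; simpa using this
  have hc3 : B (g.symm x) c = 0 := by rw [hB.eq]; exact hc' 2
  have hc4 : B (g.symm y) c = 0 := by rw [hB.eq]; exact hc' 3
  have hbx : B (g a) x = 0 := by rw [hB.eq, hxb]
  have hby : B (g a) y = 0 := by rw [hB.eq, hyb]
  have h7 : B (g.symm y) a = 0 := by rw [← hwa', hyw]
  set s : K := -(2 / B x x) * (2 / B a a * B (g.symm x) a) with hs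
  have hs0 : s ≠ 0 := by
    rw [hs, ← hwa']
    exact mul_ne_zero (neg_ne_zero.2 (div_ne_zero h2 hx)) (mul_ne_zero (div_ne_zero h2 ha) hxw)
  have hbsx : B (g a) (s • x) = 0 := by rw [map_smul, hbx, smul_zero]
  have hcalc := comm_calc g ha hc hx hy hc1 hc2 hc3 hc4 hbx hby h7 s hs hbsx
  have hE : g * (rf B a ha * rf B c hc) * g⁻¹ ∈ M :=
    mul_mem (mul_mem hgM (hM a c ha hc)) (inv_mem hgM)
  have hh : rf B x hx * rf B y hy ∈ M := hM x y hx hy
  have hT : TTo B M (g a) (s • x) := by
    intro _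
    have h8 := mul_mem (mul_mem hE hh) (inv_mem (mul_mem hh hE))
    rw [hcalc, mul_inv_cancel_right] at h8
    exact h8
  have ha0 : g a ≠ 0 := by
    intro h0
    apply ha
    have : a = 0 := by simpa using h0
    rw [this]; simp
  have hall := TTo_all hB h2 hM hnd hU hdim ha0 hbsx hT (by
    intro hmem
    obtain ⟨l, hl⟩ := Submodule.mem_span_singleton.1 hmem
    have h9 : B (s • x) x = 0 := by rw [← hl, map_smul, LinearMap.smul_apply, hbx, smul_zero]
    rw [map_smul, LinearMap.smul_apply, smul_eq_mul] at h9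
    rcases mul_eq_zero.1 h9 with h | h
    · exact hs0 h
    · exact hx h)
  obtain ⟨w, hw⟩ := sriesz hB hnd φ
  have hvw : B v w = 0 := by rw [hw, hφv]
  have := hall v w hvw
  have e : gtv B v w hvw = LinearEquiv.transvection hφv := by
    ext z
    rw [gtv_apply, LinearEquiv.transvection.apply, hw]
  rwa [e] at this

include hB h2 hnd hdim in
omit hU in
lemma exists_gtv_not_ssim :
    ∃ (u w : V) (h : B u w = 0), ¬ ∃ c : K, ∀ x y, B (gtv B u w h x) (gtv B u w h y) = c * B x y := by
  obtain ⟨u, -, hu⟩ := exists_perp_nonsing hB h2 hnd (k := 0) (fun i => i.elim0) (by omega)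
  obtain ⟨w, hw0, hw⟩ := sexists_perp (B := B) ![u] (by omega)
  have hwu : B w u = 0 := hw 0
  have huw : B u w = 0 := by rw [hB.eq, hwu]
  refine ⟨u, w, huw, ?_⟩
  rintro ⟨c, hc⟩
  have h1 := hc u u
  simp only [gtv_apply, huw, zero_smul, add_zero] at h1
  have hc1 : c = 1 := by
    have : (c - 1) * B u u = 0 := by linear_combination -h1
    rcases mul_eq_zero.1 this with h | h
    · exact sub_eq_zero.1 h
    · exact absurd h hu
  apply hw0
  apply hnd.2
  intro y
  have h3 := hc u y
  simp only [gtv_apply, huw, zero_smul, add_zero, map_add, map_smul, smul_eq_mul, hc1, one_mul]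
    at h3
  have : B y w * B u u = 0 := by linear_combination h3
  rcases mul_eq_zero.1 this with h | h
  · exact h
  · exact absurd h hu

end closure

end Cfsg.Agent.Lib.Helper95
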