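import Cfsg.Agent.Lib.Helper95.SympMax

set_option autoImplicit false

namespace Cfsg.Agent.Lib.Helper95

open LinearMap Module

variable {K V : Type*} [Field K] [AddCommGroup V] [Module K V]
variable {B : LinearMap.BilinForm K V} (hB : B.IsAlt)
variable {M : Subgroup (V ≃ₗ[K] V)}

/-- The isometry `x ↦ x + B(x,w) z + B(x,z) w` for orthogonal `w, z`. -/
def sElt (B : LinearMap.BilinForm K V) (hB : B.IsAlt) (w z : V) : V ≃ₗ[K] V :=
  stv B hB (w + z) 1 * stv B hB w (-1) * stv B hB z (-1)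

lemma sElt_mem_isoGrp (w z : V) : sElt B hB w z ∈ isoGrp B :=
  mul_mem (mul_mem (stv_mem_isoGrp hB _ _) (stv_mem_isoGrp hB _ _)) (stv_mem_isoGrp hB _ _)

lemma sElt_apply {w z : V} (hwz : B w z = 0) (x : V) :
    sElt B hB w z x = x + B x w • z + B x z • w := by
  have hzw : B z w = 0 := by rw [alt_swap hB, hwz, neg_zero]
  simp only [sElt, LinearEquiv.mul_apply, stv_apply, map_add, map_smul, hB w, hB z, hwz, hzw]
  module

include hB in
theorem isoGrp_le_of_singular [FiniteDimensional K V] (hnd : B.Nondegenerate) {W : Submodule K V}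
    (hW : W ≤ B.orthogonal W)
    (hM : isoGrp B ⊓ stabGrp W ≤ M) {g : V ≃ₗ[K] V} (hgM : g ∈ M) (hg : g ∈ isoGrp B)
    (hgW : g ∉ stabGrp W) : isoGrp B ≤ M := by
  have hperp : ∀ s ∈ W, ∀ u ∈ B.orthogonal W, B s u = 0 := fun s hs u hu =>
    LinearMap.BilinForm.mem_orthogonal_iff.1 hu s hs
  have h2 : ∀ v ∈ B.orthogonal W, v ∈ tvSet B hB M := fun v hv c => by
    refine hM ⟨stv_mem_isoGrp hB v c, mem_stabGrp_of_forall fun x hx => ?_⟩
    rw [stv_apply, hperp x hx v hv]
    simpa using hx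
  have h3 : ∃ u ∈ tvSet B hB M, u ∉ B.orthogonal W := by
    by_contra hcon
    push Not at hcon
    have h4 : g ∈ stabGrp (B.orthogonal W) :=
      mem_stabGrp_of_forall fun y hy => hcon _ (tvSet_map hB hgM hg (h2 y hy))
    have h5 := stabGrp_orthogonal hg h4
    rw [LinearMap.BilinForm.orthogonal_orthogonal hnd hB.isRefl] at h5
    exact hgW h5
  obtain ⟨u, hu, huW⟩ := h3
  have hex : ∀ y : V, y ∉ B.orthogonal W → ∃ w ∈ W, B y w ≠ 0 := by
    intro y hy
    rw [LinearMap.BilinForm.mem_orthogonal_iff] at hy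
    push Not at hy
    obtain ⟨w, hw, hwy⟩ := hy
    exact ⟨w, hw, by rw [alt_swap hB]; simpa using hwy⟩
  apply isoGrp_le_of_stv_mem hB hnd
  intro x
  change x ∈ tvSet B hB M
  by_cases hx : x ∈ B.orthogonal W
  · exact h2 x hx
  obtain ⟨w, hw, huw, hxw⟩ := exists_mem_ne_zero_both W (B u) (B x) (hex u huW) (hex x hx)
  set β := B u w with hβ
  set l := β / B x w with hl
  have hl0 : l ≠ 0 := div_ne_zero huw hxw
  suffices h : l • x ∈ tvSet B hB M by
    have := tvSet_smul hB h l⁻¹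
    rwa [smul_smul, inv_mul_cancel₀ hl0, one_smul] at this
  have hx'w : B (l • x) w = β := by
    simp [hl, div_mul_cancel₀ _ hxw]
  set d := l • x - u with hd
  have hdw : B d w = 0 := by rw [hd, map_sub, LinearMap.sub_apply, hx'w, sub_self]
  set z := β⁻¹ • d with hz
  have hwz : B w z = 0 := by
    rw [alt_swap hB, hz]; simp [hdw]
  have hsM : sElt B hB w z ∈ M := by
    refine hM ⟨sElt_mem_isoGrp hB w z, mem_stabGrp_of_forall fun y hy => ?_⟩
    rw [sElt_apply hB hwz, hperp y hy w (hW hw), zero_smul, add_zero]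
    exact W.add_mem hy (W.smul_mem _ hw)
  have h6 := tvSet_map hB hsM (sElt_mem_isoGrp hB w z) hu
  rw [sElt_apply hB hwz] at h6
  have e1 : u + B u w • z + B u z • w = l • x + B u z • w := by
    rw [← hβ, hz, smul_smul, mul_inv_cancel₀ huw, one_smul, hd]; abel
  rw [e1] at h6
  have h7 := tvSet_add hB h6 (h2 w (hW hw)) (by
    rw [map_add, LinearMap.add_apply, hx'w, map_smul, LinearMap.smul_apply, hB w, smul_zero,
      add_zero]
    exact huw) (-(B u z))
  have e2 : l • x + B u z • w + -(B u z) • w = l • x := by rw [neg_smul]; abel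
  rwa [e2] at h7

include hB in
lemma exists_not_stab_singular (hnd : B.Nondegenerate) {W : Submodule K V}
    (hW : W ≤ B.orthogonal W) (hW0 : W ≠ ⊥) : ∃ g ∈ isoGrp B, g ∉ stabGrp W := by
  obtain ⟨w, hw, hw0⟩ := Submodule.exists_mem_ne_zero_of_ne_bot hW0
  have : ∃ z, B w z ≠ 0 := by
    by_contra hcon
    push Not at hcon
    exact hw0 (hnd.1 w hcon)
  obtain ⟨z, hz⟩ := this
  refine ⟨stv B hB z 1, stv_mem_isoGrp hB _ _, fun h => ?_⟩
  have h1 := (h w).1 hw
  rw [stv_apply, one_mul] at h1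
  have h2 : B w z • z ∈ W := (W.add_mem_iff_right hw).1 h1
  have h3 : z ∈ W := (W.smul_mem_iff hz).1 h2
  exact hz (LinearMap.BilinForm.mem_orthogonal_iff.1 (hW h3) w hw)

end Cfsg.Agent.Lib.Helper95
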