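import Cfsg.Agent.Lib.Helper95.SympMax

set_option autoImplicit false

namespace Cfsg.Agent.Lib.Helper95

open LinearMap Module

variable {K V : Type*} [Field K] [AddCommGroup V] [Module K V]
variable {B : LinearMap.BilinForm K V} (hB : B.IsAlt)
variable {M : Subgroup (V ≃ₗ[K] V)}

lemma char2_sq_inj [CharP K 2] {a b : K} (h : a ^ 2 = b ^ 2) : a = b := by
  rcases sq_eq_sq_iff_eq_or_eq_neg.1 h with h | h
  · exact h
  · rw [h, CharTwo.neg_eq]

section quad

variable {Q : V → K} (hQs : ∀ (c : K) (v : V), Q (c • v) = c ^ 2 * Q v)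
  (hQp : ∀ u v : V, Q (u + v) = Q u + Q v + B u v)

include hQs hQp in
lemma quad_stv [CharP K 2] (u : V) (c : K) (x : V) :
    Q (stv B hB u c x) = Q x + (B x u) ^ 2 * (c ^ 2 * Q u + c) := by
  rw [stv_apply, hQp, hQs, map_smul, smul_eq_mul]
  ring

include hQs hQp in
lemma quad_refl [CharP K 2] {u : V} (hu : Q u ≠ 0) (x : V) :
    Q (stv B hB u (Q u)⁻¹ x) = Q x := by
  rw [quad_stv hB hQs hQp]
  have : ((Q u)⁻¹) ^ 2 * Q u + (Q u)⁻¹ = 0 := by
    rw [pow_two, mul_assoc, inv_mul_cancel₀ hu, mul_one, CharTwo.add_self_eq_zero]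
  rw [this, mul_zero, add_zero]

include hQp in
lemma exists_quad_ne_zero [FiniteDimensional K V] (hnd : B.Nondegenerate)
    (hdim : 7 ≤ finrank K V) (y u a : V) :
    ∃ z, B y z = 0 ∧ B u z = 0 ∧ B a z = 0 ∧ Q z ≠ 0 := by
  classical
  set S : Submodule K V := Submodule.span K (({y, u, a} : Finset V) : Set V) with hS
  have hS3 : finrank K S ≤ 3 :=
    (finrank_span_finset_le_card ({y, u, a} : Finset V)).trans Finset.card_le_three
  set Z := B.orthogonal S with hZ
  have hZd : finrank K Z = finrank K V - finrank K S := LinearMap.BilinForm.finrank_orthogonal hnd S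
  have hZZd : finrank K (B.orthogonal Z) = finrank K V - finrank K Z :=
    LinearMap.BilinForm.finrank_orthogonal hnd Z
  by_contra hcon
  push Not at hcon
  have hmem : ∀ z ∈ Z, B y z = 0 ∧ B u z = 0 ∧ B a z = 0 := by
    intro z hz
    rw [hZ, LinearMap.BilinForm.mem_orthogonal_iff] at hz
    exact ⟨hz y (Submodule.subset_span (by simp)), hz u (Submodule.subset_span (by simp)),
      hz a (Submodule.subset_span (by simp))⟩
  have hQ0 : ∀ z ∈ Z, Q z = 0 := fun z hz =>
    hcon z (hmem z hz).1 (hmem z hz).2.1 (hmem z hz).2.2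
  have hle : Z ≤ B.orthogonal Z := by
    intro z hz
    rw [LinearMap.BilinForm.mem_orthogonal_iff]
    intro w hw
    have := hQp w z
    rw [hQ0 _ (Z.add_mem hw hz), hQ0 w hw, hQ0 z hz] at this
    simpa using this.symm
  have := Submodule.finrank_mono hle
  omega

include hB hQs hQp in
theorem isoGrp_le_of_quad [CharP K 2] [FiniteDimensional K V] (hsq : ∀ a : K, ∃ b, b ^ 2 = a)
    (hnd : B.Nondegenerate) (hdim : 7 ≤ finrank K V)
    (hM : ∀ e ∈ isoGrp B, (∀ v, Q (e v) = Q v) → e ∈ M)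
    {g : V ≃ₗ[K] V} (hgM : g ∈ M) (hg : g ∈ isoGrp B) (hgQ : ∃ v, Q (g v) ≠ Q v) :
    isoGrp B ≤ M := by
  classical
  -- the defect of `g`
  set δ : V → K := fun x => Q (g x) - Q x with hδ
  have hδadd : ∀ x y, δ (x + y) = δ x + δ y := by
    intro x y
    simp only [hδ, map_add, hQp, hg x y]
    ring
  have hδsmul : ∀ (c : K) x, δ (c • x) = c ^ 2 * δ x := by
    intro c x
    simp only [hδ, map_smul, hQs]
    ring
  choose sq hsq' using hsq
  let ψ : V →ₗ[K] K :=
    { toFun := fun x => sq (δ x)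
      map_add' := by
        intro x y
        apply char2_sq_inj
        rw [CharTwo.add_sq, hsq', hsq', hsq', hδadd]
      map_smul' := by
        intro c x
        apply char2_sq_inj
        simp only [RingHom.id_apply, smul_eq_mul]
        rw [mul_pow, hsq', hsq', hδsmul] }
  have hψ : ∀ x, ψ x ^ 2 = δ x := fun x => hsq' _
  set a : V := (B.toDual hnd).symm ψ with ha
  have hBa : ∀ x, B a x = ψ x := fun x => LinearMap.BilinForm.apply_toDual_symm_apply _ _
  have hψ0 : ∃ x ∈ (⊤ : Submodule K V), ψ x ≠ 0 := by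
    obtain ⟨v, hv⟩ := hgQ
    refine ⟨v, trivial, fun h => hv ?_⟩
    have := hψ v
    rw [h] at this
    simp only [hδ] at this
    have h0 : Q (g v) - Q v = 0 := by rw [← this]; ring
    exact sub_eq_zero.1 h0
  have hQg : ∀ x, Q (g x) = Q x + δ x := by intro x; simp [hδ]
  -- key: conjugating a reflection
  have hconj : ∀ (m : V ≃ₗ[K] V), m ∈ M → m ∈ isoGrp B → ∀ y, Q (m y) ≠ 0 →
      stv B hB y (Q (m y))⁻¹ ∈ M := by
    intro m hm hm' y hy
    have h1 : stv B hB (m y) (Q (m y))⁻¹ ∈ M :=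
      hM _ (stv_mem_isoGrp hB _ _) (quad_refl hB hQs hQp hy)
    have h2 := conj_stv hB (inv_mem hm') (m y) (Q (m y))⁻¹
    have h3 : m⁻¹ (m y) = y := by simp
    rw [h3] at h2
    rw [← h2]
    exact mul_mem (mul_mem (inv_mem hm) h1) (inv_mem (inv_mem hm))
  have hmain : ∀ y : V, y ≠ 0 → ∀ γ : K, γ ≠ 0 → stv B hB y γ⁻¹ ∈ M := by
    intro y hy γ hγ
    suffices h : ∃ m ∈ M, m ∈ isoGrp B ∧ Q (m y) = γ by
      obtain ⟨m, hm, hm', e⟩ := h
      have := hconj m hm hm' y (by rw [e]; exact hγ)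
      rwa [e] at this
    set τ := γ - Q y - δ y with hτ
    by_cases hτ0 : τ = 0
    · refine ⟨g, hgM, hg, ?_⟩
      rw [hQg]
      have : γ - Q y - δ y = 0 := by rw [← hτ, hτ0]
      linear_combination -this
    · have hy' : ∃ x ∈ (⊤ : Submodule K V), B y x ≠ 0 := by
        by_contra hcon
        push Not at hcon
        exact hy (hnd.1 y fun x => hcon x trivial)
      obtain ⟨u₀, _, hyu, hψu⟩ := exists_mem_ne_zero_both ⊤ (B y) ψ hy' hψ0
      obtain ⟨z, hz1, hz2, hz3, hz4⟩ := exists_quad_ne_zero hQp hnd hdim y u₀ a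
      have hδu : δ u₀ ≠ 0 := by rw [← hψ]; exact pow_ne_zero 2 hψu
      set ρ := (B y u₀) ^ 2 * δ u₀ / τ with hρ
      have hρ0 : ρ ≠ 0 := div_ne_zero (mul_ne_zero (pow_ne_zero 2 hyu) hδu) hτ0
      have hρ' : sq ρ ≠ 0 := by
        intro h
        have := hsq' ρ
        rw [h] at this
        exact hρ0 (by rw [← this]; ring)
      set l := sq ((sq ρ - Q u₀) / Q z) with hl
      set u := u₀ + l • z with hu
      have hQu : Q u = sq ρ := by
        rw [hu, hQp, hQs, hl, hsq', map_smul, hz2, div_mul_cancel₀ _ hz4]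
        simp
      have hByu : B y u = B y u₀ := by rw [hu, map_add, map_smul, hz1]; simp
      have hδz : δ z = 0 := by rw [← hψ, ← hBa, hz3]; ring
      have hδu' : δ u = δ u₀ := by rw [hu, hδadd, hδsmul, hδz]; simp
      have hQu0 : Q u ≠ 0 := by rw [hQu]; exact hρ'
      refine ⟨g * stv B hB u (Q u)⁻¹, mul_mem hgM (hM _ (stv_mem_isoGrp hB _ _)
        (quad_refl hB hQs hQp hQu0)), mul_mem hg (stv_mem_isoGrp hB _ _), ?_⟩
      rw [LinearEquiv.mul_apply, hQg, quad_refl hB hQs hQp hQu0, stv_apply, hδadd, hδsmul, hδu',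
        hByu, hQu, mul_pow, inv_pow, hsq', hρ]
      have : γ = Q y + δ y + τ := by rw [hτ]; ring
      rw [this]
      field_simp
      ring
  apply isoGrp_le_of_stv_mem hB hnd
  intro y c
  by_cases hy : y = 0
  · subst hy; rw [stv_zero_left]; exact one_mem _
  by_cases hc : c = 0
  · subst hc
    have : stv B hB y 0 = 1 := by ext x; simp
    rw [this]; exact one_mem _
  have := hmain y hy c⁻¹ (inv_ne_zero hc)
  rwa [inv_inv] at this

include hQp in
/-- An isometry of `B` that rescales `Q` preserves `Q`. -/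
lemma quad_eq_of_sim (hnd : B.Nondegenerate) [Nontrivial V] {e : V ≃ₗ[K] V} (he : e ∈ isoGrp B)
    {c : K} (hc : ∀ v, Q (e v) = c * Q v) : ∀ v, Q (e v) = Q v := by
  obtain ⟨u, hu⟩ := exists_ne (0 : V)
  have : ∃ v, B u v ≠ 0 := by
    by_contra hcon
    push Not at hcon
    exact hu (hnd.1 u hcon)
  obtain ⟨v, huv⟩ := this
  have h1 := hQp (e u) (e v)
  rw [← map_add, hc, hc, hc, hQp, he u v] at h1
  have h2 : (c - 1) * B u v = 0 := by linear_combination h1
  have h3 : c = 1 := by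
    rcases mul_eq_zero.1 h2 with h | h
    · exact sub_eq_zero.1 h
    · exact absurd h huv
  intro w
  rw [hc, h3, one_mul]

include hQs hQp in
lemma exists_singular [CharP K 2] [FiniteDimensional K V] (hsq : ∀ a : K, ∃ b, b ^ 2 = a)
    (hnd : B.Nondegenerate) (hdim : 3 ≤ finrank K V) : ∃ y : V, y ≠ 0 ∧ Q y = 0 := by
  have : Nontrivial V := Module.nontrivial_of_finrank_pos (R := K) (by omega)
  obtain ⟨x, hx⟩ := exists_ne (0 : V)
  by_cases hQx : Q x = 0
  · exact ⟨x, hx, hQx⟩
  have hd : finrank K (B.orthogonal (Submodule.span K {x})) =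
      finrank K V - finrank K (Submodule.span K {x}) := LinearMap.BilinForm.finrank_orthogonal hnd _
  rw [finrank_span_singleton hx] at hd
  have hnle : ¬ B.orthogonal (Submodule.span K {x}) ≤ Submodule.span K {x} := by
    intro hle
    have := Submodule.finrank_mono hle
    rw [finrank_span_singleton hx] at this
    omega
  obtain ⟨z, hz, hz'⟩ := SetLike.not_le_iff_exists.1 hnle
  have hxz : B x z = 0 :=
    LinearMap.BilinForm.mem_orthogonal_iff.1 hz x (Submodule.mem_span_singleton_self x)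
  by_cases hQz : Q z = 0
  · refine ⟨z, ?_, hQz⟩
    rintro rfl
    exact hz' (Submodule.zero_mem _)
  obtain ⟨l, hl⟩ := hsq (Q x / Q z)
  refine ⟨x + l • z, ?_, ?_⟩
  · intro h
    have hl0 : l ≠ 0 := by
      rintro rfl
      apply hx
      simpa using h
    apply hz'
    have h2 : l • z = -x := by
      rw [← sub_eq_zero, sub_neg_eq_add, add_comm]; exact h
    have h3 : z = l⁻¹ • (-x) := by rw [← h2, smul_smul, inv_mul_cancel₀ hl0, one_smul]
    rw [h3]
    exact Submodule.smul_mem _ _ (Submodule.neg_mem _ (Submodule.mem_span_singleton_self x))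
  · rw [hQp, hQs, hl, map_smul, hxz, div_mul_cancel₀ _ hQz, smul_zero, add_zero,
      CharTwo.add_self_eq_zero]

include hB hQs hQp in
lemma exists_not_quad [CharP K 2] [FiniteDimensional K V] (hsq : ∀ a : K, ∃ b, b ^ 2 = a)
    (hnd : B.Nondegenerate) (hdim : 3 ≤ finrank K V) :
    ∃ g ∈ isoGrp B, ∃ v, Q (g v) ≠ Q v := by
  obtain ⟨y, hy, hQy⟩ := exists_singular hQs hQp hsq hnd hdim
  have : ∃ v, B y v ≠ 0 := by
    by_contra hcon
    push Not at hcon
    exact hy (hnd.1 y hcon)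
  obtain ⟨v, hv⟩ := this
  refine ⟨stv B hB y 1, stv_mem_isoGrp hB _ _, v, ?_⟩
  rw [quad_stv hB hQs hQp, hQy]
  have hvy : B v y ≠ 0 := by rw [alt_swap hB]; simpa using hv
  simp [hvy]

end quad

end Cfsg.Agent.Lib.Helper95
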