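import Cfsg.Agent.Lib.Helper95.SympMax

set_option autoImplicit false
set_option linter.unusedSimpArgs false

namespace Cfsg.Agent.Lib.Helper95

open LinearMap Module

variable {K V : Type*} [Field K] [AddCommGroup V] [Module K V]
variable {B : LinearMap.BilinForm K V} (hB : B.IsAlt)

/-- The linear map `x ↦ x - B(x,b) a + B(x,a) b`. -/
def swapMap (B : LinearMap.BilinForm K V) (a b : V) : V →ₗ[K] V :=
  LinearMap.id - (B.flip b).smulRight a + (B.flip a).smulRight b

lemma swapMap_apply (a b x : V) : swapMap B a b x = x - B x b • a + B x a • b := by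
  simp [swapMap]

include hB in
lemma swapMap_involutive {a b : V} (hab : B a b = 2) : Function.Involutive (swapMap B a b) := by
  intro x
  have hba : B b a = -2 := by rw [alt_swap hB, hab]
  simp only [swapMap_apply, map_add, map_sub, map_smul, LinearMap.add_apply, LinearMap.sub_apply,
    LinearMap.smul_apply, smul_eq_mul, hB a, hB b, hab, hba]
  module

/-- The isometry exchanging two orthogonal hyperbolic planes. -/
def swapEquiv (B : LinearMap.BilinForm K V) (hB : B.IsAlt) {a b : V} (hab : B a b = 2) :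
    V ≃ₗ[K] V :=
  LinearEquiv.ofInvolutive (swapMap B a b) (swapMap_involutive hB hab)

lemma swapEquiv_apply {a b : V} (hab : B a b = 2) (x : V) :
    swapEquiv B hB hab x = x - B x b • a + B x a • b := by
  simp [swapEquiv, swapMap_apply]

lemma swapEquiv_mem_isoGrp {a b : V} (hab : B a b = 2) : swapEquiv B hB hab ∈ isoGrp B := by
  intro x y
  have hba : B b a = -2 := by rw [alt_swap hB, hab]
  simp only [swapEquiv_apply, map_add, map_sub, map_smul, LinearMap.add_apply,
    LinearMap.sub_apply, LinearMap.smul_apply, smul_eq_mul, hB a, hB b, hab, hba]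
  rw [alt_swap hB a y, alt_swap hB b y]
  ring

include hB in
lemma finrank_span_hyp {e f : V} (hef : B e f = 1) : finrank K (Submodule.span K {e, f}) = 2 := by
  have hli : LinearIndependent K ![e, f] := by
    rw [LinearIndependent.pair_iff]
    intro s t hst
    have h1 : B (s • e + t • f) f = 0 := by rw [hst]; simp
    have h2 : B e (s • e + t • f) = 0 := by rw [hst]; simp
    simp only [map_add, map_smul, LinearMap.add_apply, LinearMap.smul_apply, smul_eq_mul, hB e,
      hB f, hef] at h1 h2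
    exact ⟨by simpa using h1, by simpa using h2⟩
  have := finrank_span_eq_card hli
  have hr : Set.range ![e, f] = {e, f} := by
    ext x; simp [Fin.exists_fin_two, eq_comm, or_comm]
  rw [hr] at this
  simpa using this


include hB in
/-- Splitting a hyperbolic plane off a non-degenerate subspace. -/
lemma split_hyp [FiniteDimensional K V] {A : Submodule K V} (hA : NondegOn B A) {e f : V}
    (he : e ∈ A) (hf : f ∈ A) (hef : B e f = 1) :
    let A₁ := A ⊓ B.orthogonal (Submodule.span K {e, f})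
    NondegOn B A₁ ∧ finrank K A = 2 + finrank K A₁ ∧
      (∀ x ∈ A, ∃ α β : K, ∃ x₁ ∈ A₁, x = α • e + β • f + x₁) := by
  intro A₁
  have hfe : B f e = -1 := by rw [alt_swap hB, hef]
  have hmem : ∀ x, x ∈ A₁ ↔ x ∈ A ∧ B e x = 0 ∧ B f x = 0 := by
    intro x
    simp only [A₁, Submodule.mem_inf, LinearMap.BilinForm.mem_orthogonal_iff]
    constructor
    · rintro ⟨h1, h2⟩
      exact ⟨h1, h2 e (Submodule.subset_span (by simp)), h2 f (Submodule.subset_span (by simp))⟩
    · rintro ⟨h1, h2, h3⟩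
      refine ⟨h1, fun n hn => ?_⟩
      obtain ⟨a, b, rfl⟩ := Submodule.mem_span_pair.1 hn
      simp [h2, h3]
  have hdec : ∀ x ∈ A, ∃ α β : K, ∃ x₁ ∈ A₁, x = α • e + β • f + x₁ := by
    intro x hx
    refine ⟨B x f, -B x e, x - B x f • e + B x e • f, ?_, by module⟩
    rw [hmem]
    refine ⟨A.add_mem (A.sub_mem hx (A.smul_mem _ he)) (A.smul_mem _ hf), ?_, ?_⟩
    · simp only [map_add, map_sub, map_smul, smul_eq_mul, hB e, hef]
      rw [alt_swap hB e x]; ring
    · simp only [map_add, map_sub, map_smul, smul_eq_mul, hB f, hfe]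
      rw [alt_swap hB f x]; ring
  refine ⟨?_, ?_, hdec⟩
  · intro u hu hu0
    obtain ⟨huA, hu1, hu2⟩ := (hmem u).1 hu
    obtain ⟨x, hx, hux⟩ := hA u huA hu0
    obtain ⟨α, β, x₁, hx₁, rfl⟩ := hdec x hx
    refine ⟨x₁, hx₁, ?_⟩
    have h1 : B u e = 0 := by rw [alt_swap hB, hu1, neg_zero]
    have h2 : B u f = 0 := by rw [alt_swap hB, hu2, neg_zero]
    simpa [h1, h2] using hux
  · set P := Submodule.span K {e, f} with hP
    have hPA : P ≤ A := by
      rw [hP, Submodule.span_le]
      intro x hx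
      simp only [Set.mem_insert_iff, Set.mem_singleton_iff] at hx
      rcases hx with rfl | rfl
      · exact he
      · exact hf
    have hsup : P ⊔ A₁ = A := by
      apply le_antisymm (sup_le hPA inf_le_left)
      intro x hx
      obtain ⟨α, β, x₁, hx₁, rfl⟩ := hdec x hx
      exact Submodule.add_mem_sup (Submodule.mem_span_pair.2 ⟨α, β, rfl⟩) hx₁
    have hinf : P ⊓ A₁ = ⊥ := by
      rw [Submodule.eq_bot_iff]
      intro x hx
      obtain ⟨h1, h2⟩ := Submodule.mem_inf.1 hx
      obtain ⟨a, b, rfl⟩ := Submodule.mem_span_pair.1 h1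
      obtain ⟨_, h3, h4⟩ := (hmem _).1 h2
      simp only [map_add, map_smul, smul_eq_mul, hB e, hB f, hef, hfe] at h3 h4
      have hb : b = 0 := by simpa using h3
      have ha : a = 0 := by simpa using h4
      simp [ha, hb]
    have := Submodule.finrank_sup_add_finrank_inf_eq P A₁
    rw [hsup, hinf, finrank_bot, add_zero, finrank_span_hyp hB hef] at this
    exact this

lemma exists_hyp {A : Submodule K V} (hA : NondegOn B A) (hA0 : A ≠ ⊥) :
    ∃ e ∈ A, ∃ f ∈ A, B e f = 1 := by
  obtain ⟨e, he, he0⟩ := Submodule.exists_mem_ne_zero_of_ne_bot hA0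
  obtain ⟨f₀, hf₀, hef₀⟩ := hA e he he0
  exact ⟨e, he, (B e f₀)⁻¹ • f₀, A.smul_mem _ hf₀, by simp [hef₀]⟩

include hB in
/-- Two orthogonal non-degenerate subspaces of the same dimension are exchanged by an isometry that
fixes every vector orthogonal to both. -/
theorem exists_swap [FiniteDimensional K V] (n : ℕ) : ∀ (A A' : Submodule K V), finrank K A = n →
    finrank K A' = n → NondegOn B A → NondegOn B A' → (∀ x ∈ A, ∀ y ∈ A', B x y = 0) →
    ∃ h ∈ isoGrp B, (∀ x ∈ A, h x ∈ A') ∧ (∀ x ∈ A', h x ∈ A) ∧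
      (∀ x, (∀ y ∈ A, B x y = 0) → (∀ y ∈ A', B x y = 0) → h x = x) := by
  induction n using Nat.strong_induction_on with
  | _ n ih =>
  intro A A' hn hn' hA hA' hperp
  by_cases hA0 : A = ⊥
  · have hn0 : n = 0 := by rw [← hn, hA0, finrank_bot]
    have hA0' : A' = ⊥ := by
      rw [hn0] at hn'
      exact Submodule.finrank_eq_zero.1 hn'
    refine ⟨1, one_mem _, ?_, ?_, fun x _ _ => rfl⟩
    · intro x hx; rw [hA0] at hx; rw [hA0']; simpa using hx
    · intro x hx; rw [hA0'] at hx; rw [hA0]; simpa using hx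
  have hA0' : A' ≠ ⊥ := by
    intro h
    rw [h, finrank_bot] at hn'
    rw [← hn'] at hn
    exact hA0 (Submodule.finrank_eq_zero.1 hn)
  obtain ⟨e, he, f, hf, hef⟩ := exists_hyp hA hA0
  obtain ⟨e', he', f', hf', hef'⟩ := exists_hyp hA' hA0'
  obtain ⟨hA₁, hd₁, hdec₁⟩ := split_hyp hB hA he hf hef
  obtain ⟨hA₁', hd₁', hdec₁'⟩ := split_hyp hB hA' he' hf' hef'
  set A₁ := A ⊓ B.orthogonal (Submodule.span K {e, f}) with hA₁def
  set A₁' := A' ⊓ B.orthogonal (Submodule.span K {e', f'}) with hA₁def'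
  obtain ⟨h₁, hh₁, h₁a, h₁b, h₁c⟩ := ih (finrank K A₁) (by omega) A₁ A₁' rfl (by omega) hA₁ hA₁'
    (fun x hx y hy => hperp x hx.1 y hy.1)
  have hperp' : ∀ y ∈ A', ∀ x ∈ A, B y x = 0 := fun y hy x hx => by
    rw [alt_swap hB, hperp x hx y hy, neg_zero]
  have hab : B (e - e') (f - f') = 2 := by
    simp only [map_sub, LinearMap.sub_apply, hef, hef', hperp e he f' hf', hperp' e' he' f hf]
    ring
  have o1 : ∀ x ∈ A₁, B x e = 0 ∧ B x f = 0 := by
    intro x hx
    have h := LinearMap.BilinForm.mem_orthogonal_iff.1 hx.2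
    exact ⟨by rw [alt_swap hB, h e (Submodule.subset_span (by simp)), neg_zero],
      by rw [alt_swap hB, h f (Submodule.subset_span (by simp)), neg_zero]⟩
  have o1' : ∀ x ∈ A₁', B x e' = 0 ∧ B x f' = 0 := by
    intro x hx
    have h := LinearMap.BilinForm.mem_orthogonal_iff.1 hx.2
    exact ⟨by rw [alt_swap hB, h e' (Submodule.subset_span (by simp)), neg_zero],
      by rw [alt_swap hB, h f' (Submodule.subset_span (by simp)), neg_zero]⟩
  set h₀ := swapEquiv B hB hab with hh₀
  have hfe : B f e = -1 := by rw [alt_swap hB, hef]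
  have hfe' : B f' e' = -1 := by rw [alt_swap hB, hef']
  have fixe : ∀ z ∈ A, (∀ y ∈ A₁, B z y = 0) → h₁ z = z := fun z hz h =>
    h₁c z h (fun y hy => hperp z hz y hy.1)
  have fixe' : ∀ z ∈ A', (∀ y ∈ A₁', B z y = 0) → h₁ z = z := fun z hz h =>
    h₁c z (fun y hy => hperp' z hz y hy.1) h
  have e1 : h₁ e = e := fixe e he fun y hy => by rw [alt_swap hB, (o1 y hy).1, neg_zero]
  have e2 : h₁ f = f := fixe f hf fun y hy => by rw [alt_swap hB, (o1 y hy).2, neg_zero]
  have e3 : h₁ e' = e' := fixe' e' he' fun y hy => by rw [alt_swap hB, (o1' y hy).1, neg_zero]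
  have e4 : h₁ f' = f' := fixe' f' hf' fun y hy => by rw [alt_swap hB, (o1' y hy).2, neg_zero]
  have s1 : h₀ e = e' := by
    rw [hh₀, swapEquiv_apply]
    simp only [map_sub, hB e, hef, hperp e he f' hf', hperp e he e' he']
    module
  have s2 : h₀ f = f' := by
    rw [hh₀, swapEquiv_apply]
    simp only [map_sub, hB f, hfe, hperp f hf f' hf', hperp f hf e' he']
    module
  have s3 : h₀ e' = e := by
    rw [hh₀, swapEquiv_apply]
    simp only [map_sub, hB e', hef', hperp' e' he' f hf, hperp' e' he' e he]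
    module
  have s4 : h₀ f' = f := by
    rw [hh₀, swapEquiv_apply]
    simp only [map_sub, hB f', hfe', hperp' f' hf' f hf, hperp' f' hf' e he]
    module
  have s5 : ∀ x, B x e = 0 → B x f = 0 → B x e' = 0 → B x f' = 0 → h₀ x = x := by
    intro x h1 h2 h3 h4
    rw [hh₀, swapEquiv_apply]
    simp [h1, h2, h3, h4]
  refine ⟨h₀ * h₁, mul_mem (swapEquiv_mem_isoGrp hB hab) hh₁, ?_, ?_, ?_⟩
  · intro x hx
    obtain ⟨α, β, x₁, hx₁, rfl⟩ := hdec₁ x hx
    have hy := h₁a x₁ hx₁
    rw [LinearEquiv.mul_apply]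
    simp only [map_add, map_smul, e1, e2, s1, s2]
    rw [s5 (h₁ x₁) (hperp' _ hy.1 e he) (hperp' _ hy.1 f hf) (o1' _ hy).1 (o1' _ hy).2]
    exact A'.add_mem (A'.add_mem (A'.smul_mem _ he') (A'.smul_mem _ hf')) hy.1
  · intro x hx
    obtain ⟨α, β, x₁, hx₁, rfl⟩ := hdec₁' x hx
    have hy := h₁b x₁ hx₁
    rw [LinearEquiv.mul_apply]
    simp only [map_add, map_smul, e3, e4, s3, s4]
    rw [s5 (h₁ x₁) (o1 _ hy).1 (o1 _ hy).2 (hperp _ hy.1 e' he') (hperp _ hy.1 f' hf')]
    exact A.add_mem (A.add_mem (A.smul_mem _ he) (A.smul_mem _ hf)) hy.1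
  · intro x h1 h2
    rw [LinearEquiv.mul_apply, h₁c x (fun y hy => h1 y hy.1) (fun y hy => h2 y hy.1)]
    exact s5 x (h1 e he) (h1 f hf) (h2 e' he') (h2 f' hf')

end Cfsg.Agent.Lib.Helper95
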